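import Mathlib.GroupTheory.Index
import Mathlib.GroupTheory.PGroup
import Mathlib.GroupTheory.Sylow
import Mathlib.GroupTheory.Perm.Cycle.Type
import Mathlib.GroupTheory.GroupAction.Hom
import Mathlib.Data.Finset.SymmDiff
import Mathlib.Algebra.BigOperators.Ring.Finset
import Mathlib.Algebra.Group.Action.End
import Mathlib.Tactic.NormNum.Prime
import Mathlib.Tactic.IntervalCases
import Mathlib.Tactic.FinCases

/-!
An elementary abelian group of order 2^11 generated by `d` and twenty-two involutions with hexads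
multiplying to `d`: if a group of automorphisms fixing the twenty-two triply transitively in the
stabiliser of `d` moves `d`, then the orbit of `d` has twenty-three members.
-/

set_option autoImplicit false

namespace Cfsg.Agent.TTLink.OrbitTwentyThree

open Finset
open scoped symmDiff

variable {Ω A : Type*} [Fintype Ω] [DecidableEq Ω] [CommGroup A]

/-- Twenty-two involutions and a further one. -/
structure Sys (v : Ω → A) (d : A) : Prop where
  card : Fintype.card Ω = 22
  sq : ∀ i, v i * v i = 1
  dsq : d * d = 1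
  dne : d ≠ 1
  indep : ∀ X : Finset Ω, X.Nonempty → X.card ≤ 5 → ∏ i ∈ X, v i ≠ 1 ∧ ∏ i ∈ X, v i ≠ d
  six : ∀ X : Finset Ω, X.card = 6 → (∏ i ∈ X, v i = 1 ∨ ∏ i ∈ X, v i = d) → ∏ i ∈ X, v i = d
  hex : ∀ X : Finset Ω, X.card = 3 → ∃ R : Finset Ω, X ⊆ R ∧ R.card = 6 ∧ ∏ i ∈ R, v i = d
  gen : ∀ a, ∃ X : Finset Ω, X.card ≤ 3 ∧ (a = ∏ i ∈ X, v i ∨ a = d * ∏ i ∈ X, v i)

/-- `d` to the power `e`, times the product over `X`. -/
def el (v : Ω → A) (d : A) (e : Bool) (X : Finset Ω) : A := bif e then d * ∏ i ∈ X, v i else ∏ i ∈ X, v i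

variable {v : Ω → A} {d : A}

omit [Fintype Ω] [DecidableEq Ω] in
theorem el_eq (e : Bool) (X : Finset Ω) : el v d e X = el v d e ∅ * ∏ i ∈ X, v i := by
  cases e <;> simp [el]

/-- The parameters of the elements. -/
abbrev Par (Ω : Type*) [Fintype Ω] : Type _ :=
  Bool × {X : Finset Ω // X.card ≤ 2} ⊕ {X : Finset Ω // X.card = 3}

/-- The element of a parameter. -/
def val (v : Ω → A) (d : A) : Par Ω → A
  | Sum.inl (e, X) => el v d e X.1
  | Sum.inr X => el v d false X.1

namespace Sys

variable (S : Sys v d)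
include S

theorem prod_symm (X Y : Finset Ω) :
    (∏ i ∈ X, v i) * ∏ i ∈ Y, v i = ∏ i ∈ X ∆ Y, v i := by
  have hX := Finset.prod_inter_mul_prod_diff X Y v
  have hY := Finset.prod_inter_mul_prod_diff Y X v
  rw [Finset.inter_comm Y X] at hY
  have h1 : (∏ i ∈ X ∩ Y, v i) * ∏ i ∈ X ∩ Y, v i = 1 := by
    rw [← Finset.prod_mul_distrib]
    exact Finset.prod_eq_one fun i _ => S.sq i
  rw [← hX, ← hY, mul_mul_mul_comm, h1, one_mul, symmDiff_def, Finset.sup_eq_union,
    Finset.prod_union disjoint_sdiff_sdiff]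

theorem eq_empty {X : Finset Ω} (hc : X.card ≤ 5) (h : ∏ i ∈ X, v i = 1 ∨ ∏ i ∈ X, v i = d) :
    X = ∅ := by
  rcases X.eq_empty_or_nonempty with e | e
  · exact e
  · rcases h with h | h
    exacts [absurd h (S.indep X e hc).1, absurd h (S.indep X e hc).2]

theorem el_mul (e f : Bool) (X Y : Finset Ω) :
    el v d e X * el v d f Y = el v d (xor e f) (X ∆ Y) := by
  have hp := S.prod_symm X Y
  cases e <;> cases f <;> simp only [el, cond_true, cond_false, Bool.xor_false, Bool.xor_true,
    Bool.not_false, Bool.not_true]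
  · exact hp
  · rw [mul_left_comm, hp]
  · rw [mul_assoc, hp]
  · rw [mul_mul_mul_comm, S.dsq, one_mul, hp]

theorem el_sq (e : Bool) (X : Finset Ω) : el v d e X * el v d e X = 1 := by
  rw [S.el_mul, symmDiff_self, Bool.xor_self]
  simp [el]

theorem el_mul_d (e : Bool) (X : Finset Ω) : el v d e X * d = el v d (!e) X := by
  cases e <;> simp only [el, cond_true, cond_false, Bool.not_false, Bool.not_true]
  · rw [mul_comm]
  · rw [mul_comm d, mul_assoc, S.dsq, mul_one]

theorem sq_one (a : A) : a * a = 1 := by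
  obtain ⟨X, -, h | h⟩ := S.gen a
  · have := S.el_sq false X; rw [h]; exact this
  · have := S.el_sq true X; rw [h]; exact this

theorem mul_eq_one {a b : A} : a * b = 1 ↔ a = b :=
  ⟨fun h => by rw [← mul_one a, ← S.sq_one b, ← mul_assoc, h, one_mul], fun h => h ▸ S.sq_one a⟩

theorem val_bool {e f : Bool} (h : el v d e ∅ = el v d f ∅) : e = f := by
  cases e <;> cases f <;> simp [el, S.dne, Ne.symm S.dne] at h ⊢

theorem el_inj {e f : Bool} {X Y : Finset Ω} (hc : X.card + Y.card ≤ 6) (h : el v d e X = el v d f Y) :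
    (e = f ∧ X = Y) ∨ (e ≠ f ∧ Disjoint X Y ∧ X.card + Y.card = 6) := by
  have h1 := S.el_mul e f X Y
  rw [h, S.el_sq] at h1
  have h2 : ∏ i ∈ X ∆ Y, v i = 1 ∨ ∏ i ∈ X ∆ Y, v i = d := by
    revert h1
    cases xor e f <;> simp only [el, cond_true, cond_false] <;> intro h1
    · exact Or.inl h1.symm
    · exact Or.inr (S.mul_eq_one.1 h1.symm).symm
  have hcard : (X ∆ Y).card ≤ X.card + Y.card :=
    (Finset.card_le_card symmDiff_le_sup).trans (Finset.card_union_le X Y)
  by_cases h5 : (X ∆ Y).card ≤ 5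
  · have he := S.eq_empty h5 h2
    left
    have hXY : X = Y := symmDiff_eq_bot.1 he
    subst hXY
    refine ⟨S.val_bool ?_, rfl⟩
    rw [el_eq e X, el_eq f X] at h
    exact mul_right_cancel h
  · have h6 := S.six (X ∆ Y) (by omega) h2
    have hu : X.card + Y.card ≤ (X ∪ Y).card := by
      have := Finset.card_le_card (symmDiff_le_sup (a := X) (b := Y))
      simp only [Finset.sup_eq_union] at this
      omega
    refine Or.inr ⟨?_, ?_, by omega⟩
    · rintro rfl
      rw [Bool.xor_self] at h1
      simp only [el, cond_false] at h1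
      exact S.dne (h6.symm.trans h1.symm)
    · rw [← Finset.card_union_eq_card_add_card]
      have := Finset.card_union_le X Y
      omega

theorem el_inj_small {e f : Bool} {X Y : Finset Ω} (hc : X.card + Y.card ≤ 5)
    (h : el v d e X = el v d f Y) : e = f ∧ X = Y := by
  rcases S.el_inj (by omega) h with r | ⟨-, -, r⟩
  · exact r
  · omega

theorem el_three {X Y : Finset Ω} (hX : X.card = 3) (hY : Y.card = 3)
    (h : el v d false X = el v d false Y) : X = Y := by
  rcases S.el_inj (by omega) h with r | ⟨r, -, -⟩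
  · exact r.2
  · exact absurd rfl r

theorem el_flip_three {X : Finset Ω} (hX : X.card = 3) :
    ∃ Y : Finset Ω, Y.card = 3 ∧ el v d true X = el v d false Y := by
  obtain ⟨R, hXR, hR, hp⟩ := S.hex X hX
  refine ⟨R \ X, by rw [Finset.card_sdiff_of_subset hXR, hR, hX], ?_⟩
  simp only [el, cond_true, cond_false]
  rw [← hp, ← Finset.prod_sdiff hXR, mul_assoc,
    S.mul_eq_one.2 rfl, mul_one]

theorem val_injective : Function.Injective (val v d) := by
  rintro (⟨e, X, hX⟩ | ⟨X, hX⟩) (⟨f, Y, hY⟩ | ⟨Y, hY⟩) h <;> simp only [val] at h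
  · obtain ⟨rfl, rfl⟩ := S.el_inj_small (by omega) h; rfl
  · obtain ⟨-, rfl⟩ := S.el_inj_small (by omega) h; omega
  · obtain ⟨-, rfl⟩ := S.el_inj_small (by omega) h; omega
  · obtain rfl := S.el_three hX hY h; rfl

theorem val_surjective : Function.Surjective (val v d) := by
  intro a
  obtain ⟨X, hX, h | h⟩ := S.gen a
  · by_cases h3 : X.card = 3
    · exact ⟨Sum.inr ⟨X, h3⟩, h.symm⟩
    · exact ⟨Sum.inl (false, ⟨X, by omega⟩), h.symm⟩
  · by_cases h3 : X.card = 3
    · obtain ⟨Y, hY, e⟩ := S.el_flip_three h3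
      exact ⟨Sum.inr ⟨Y, hY⟩, e.symm.trans h.symm⟩
    · exact ⟨Sum.inl (true, ⟨X, by omega⟩), h.symm⟩

theorem card_group : Nat.card A = 2048 := by
  classical
  rw [← Nat.card_congr (Equiv.ofBijective _ ⟨S.val_injective, S.val_surjective⟩), Nat.card_eq_fintype_card,
    Fintype.card_sum, Fintype.card_prod, Fintype.card_bool, Fintype.card_finset_len, S.card]
  have : Fintype.card {X : Finset Ω // X.card ≤ 2} = 254 := by
    rw [Fintype.card_subtype,
      show (Finset.univ.filter fun X : Finset Ω => X.card ≤ 2) =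
        Finset.univ.powersetCard 0 ∪ Finset.univ.powersetCard 1 ∪ Finset.univ.powersetCard 2 by
        ext X
        simp only [Finset.mem_filter, Finset.mem_univ, true_and, Finset.mem_union,
          Finset.mem_powersetCard_univ]
        omega]
    rw [Finset.card_union_of_disjoint, Finset.card_union_of_disjoint, Finset.card_powersetCard,
      Finset.card_powersetCard, Finset.card_powersetCard, Finset.card_univ, S.card]
    · rfl
    · rw [Finset.disjoint_left]; simp
    · rw [Finset.disjoint_left]
      intro X hX hX'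
      simp only [Finset.mem_union, Finset.mem_powersetCard_univ] at hX hX'
      omega
  rw [this]
  rfl

end Sys

/-! ### The action -/

/-- A group of automorphisms whose stabiliser of `d` permutes the twenty-two triply transitively. -/
structure Act (H : Type*) [Group H] [MulDistribMulAction H A] (v : Ω → A) (d : A) : Prop where
  perm : ∀ h : H, h • d = d → ∀ i, ∃ j, h • v i = v j
  trans : ∀ a b c a' b' c' : Ω, a ≠ b → a ≠ c → b ≠ c → a' ≠ b' → a' ≠ c' → b' ≠ c' →
    ∃ h : H, h • d = d ∧ h • v a = v a' ∧ h • v b = v b' ∧ h • v c = v c'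

variable {H : Type*} [Group H] [MulDistribMulAction H A]
variable (S : Sys v d) (T : Act H v d)
include S

theorem exists_third (a b : Ω) : ∃ j, j ≠ a ∧ j ≠ b := by
  by_contra hh
  push Not at hh
  have h : (Finset.univ : Finset Ω) ⊆ {a, b} := fun j _ => by
    by_cases hj : j = a
    · simp [hj]
    · simp [hh j hj]
  have := Finset.card_le_card h
  rw [Finset.card_univ, S.card] at this
  exact absurd (this.trans Finset.card_le_two) (by norm_num)

theorem v_inj : Function.Injective v := fun i j h =>
  Finset.singleton_injective (S.el_inj_small (e := false) (f := false) (X := {i}) (Y := {j})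
    (by simp) (by simpa [el] using h)).2

include T

theorem exists_perm {h : H} (hd : h • d = d) :
    ∃ π : Equiv.Perm Ω, ∀ e X, h • el v d e X = el v d e (X.map π.toEmbedding) := by
  choose f hf using T.perm h hd
  have finj : Function.Injective f := fun i j e =>
    v_inj S (MulAction.injective h (by rw [hf i, hf j, e] : h • v i = h • v j))
  refine ⟨Equiv.ofBijective f (Finite.injective_iff_bijective.1 finj), fun e X => ?_⟩
  cases e <;> simp [el, smul_mul', Finset.smul_prod', hd, hf]

omit T in
theorem perm_of_fix {h : H} {π : Equiv.Perm Ω} (hπ : ∀ e X, h • el v d e X = el v d e (X.map π.toEmbedding))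
    {i j : Ω} (e : h • v i = v j) : π i = j := by
  have := hπ false {i}
  simp [el] at this
  exact v_inj S (this.symm.trans e)

/-- Transitivity on sets of at most three. -/
theorem trans_sets {X Y : Finset Ω} (hX : X.card ≤ 3) (hXY : X.card = Y.card) :
    ∃ h : H, h • d = d ∧ ∀ e, h • el v d e X = el v d e Y := by
  obtain ⟨X', hXX', hX'⟩ := Finset.exists_superset_card_eq (n := 3) hX (by rw [S.card]; norm_num)
  obtain ⟨Y', hYY', hY'⟩ := Finset.exists_superset_card_eq (s := Y) (n := 3) (by omega) (by rw [S.card]; norm_num)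
  -- order the supersets with the subsets first
  let eX : ↥X ≃ ↥Y := Finset.equivOfCardEq hXY
  have hd' : (X' \ X).card = (Y' \ Y).card := by
    rw [Finset.card_sdiff_of_subset hXX', Finset.card_sdiff_of_subset hYY', hX', hY', hXY]
  let eR : ↥(X' \ X) ≃ ↥(Y' \ Y) := Finset.equivOfCardEq hd'
  let g : Ω → Ω := fun i => if h : i ∈ X then (eX ⟨i, h⟩ : Ω) else
    if h' : i ∈ X' \ X then (eR ⟨i, h'⟩ : Ω) else i
  have g1 : ∀ i ∈ X, g i ∈ Y := fun i hi => by simp only [g, dif_pos hi]; exact (eX ⟨i, hi⟩).2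
  have g2 : ∀ i ∈ X' \ X, g i ∈ Y' \ Y := fun i hi => by
    simp only [g, dif_neg (Finset.mem_sdiff.1 hi).2, dif_pos hi]; exact (eR ⟨i, hi⟩).2
  have ginj : ∀ i ∈ X', ∀ j ∈ X', g i = g j → i = j := by
    intro i hi j hj e
    by_cases i1 : i ∈ X <;> by_cases j1 : j ∈ X
    · simp only [g, dif_pos i1, dif_pos j1] at e
      simpa using eX.injective (Subtype.ext e)
    · exact absurd (e ▸ g1 i i1) (Finset.mem_sdiff.1 (g2 j (Finset.mem_sdiff.2 ⟨hj, j1⟩))).2
    · exact absurd (e.symm ▸ g1 j j1) (Finset.mem_sdiff.1 (g2 i (Finset.mem_sdiff.2 ⟨hi, i1⟩))).2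
    · have i2 := Finset.mem_sdiff.2 ⟨hi, i1⟩
      have j2 := Finset.mem_sdiff.2 ⟨hj, j1⟩
      simp only [g, dif_neg i1, dif_neg j1, dif_pos i2, dif_pos j2] at e
      simpa using eR.injective (Subtype.ext e)
  obtain ⟨a, b, c, hab, hac, hbc, habc⟩ := Finset.card_eq_three.1 hX'
  obtain ⟨h, hd, ha, hb, hc⟩ := T.trans a b c (g a) (g b) (g c) hab hac hbc
    (fun e => hab (ginj a (by simp [habc]) b (by simp [habc]) e))
    (fun e => hac (ginj a (by simp [habc]) c (by simp [habc]) e))
    (fun e => hbc (ginj b (by simp [habc]) c (by simp [habc]) e))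
  obtain ⟨π, hπ⟩ := exists_perm S T hd
  refine ⟨h, hd, fun e => ?_⟩
  rw [hπ]
  congr 1
  refine Finset.eq_of_subset_of_card_le (fun y hy => ?_) (by rw [Finset.card_map, hXY])
  obtain ⟨i, hi, rfl⟩ := Finset.mem_map.1 hy
  have hi' : i ∈ ({a, b, c} : Finset Ω) := habc ▸ hXX' hi
  simp only [Finset.mem_insert, Finset.mem_singleton] at hi'
  have : π i = g i := by
    rcases hi' with rfl | rfl | rfl
    exacts [perm_of_fix S hπ ha, perm_of_fix S hπ hb, perm_of_fix S hπ hc]
  show π i ∈ Y
  rw [this]
  exact g1 i hi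

theorem orbit_el {e : Bool} {X Y : Finset Ω} (hX : X.card ≤ 3) (hXY : X.card = Y.card)
    (h : el v d e X ∈ MulAction.orbit H d) : el v d e Y ∈ MulAction.orbit H d := by
  obtain ⟨g, -, hg⟩ := trans_sets S T hX hXY
  rw [← hg e]
  obtain ⟨n, hn⟩ := h
  exact ⟨g * n, by rw [← hn]; exact mul_smul g n d⟩

omit S T in
theorem suborbit_card [Finite H] (n : H) :
    {z | ∃ h : H, h • d = d ∧ h • (n • d) = z}.ncard =
      {z | ∃ h : H, h • d = d ∧ h • (n⁻¹ • d) = z}.ncard := by
  set K := MulAction.stabilizer H d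
  have e : ∀ x : A, {z | ∃ h : H, h • d = d ∧ h • x = z} = MulAction.orbit ↥K x := fun x => by
    ext z
    exact ⟨fun ⟨h, h1, h2⟩ => ⟨⟨h, h1⟩, h2⟩, fun ⟨⟨h, h1⟩, h2⟩ => ⟨h, h1, h2⟩⟩
  rw [e, e, ← MulAction.index_stabilizer, ← MulAction.index_stabilizer]
  have hcard : Nat.card ↥(MulAction.stabilizer ↥K (n • d)) =
      Nat.card ↥(MulAction.stabilizer ↥K (n⁻¹ • d)) := by
    refine Nat.card_congr
      { toFun := fun h => ⟨⟨n⁻¹ * ((h : ↥K) : H) * n, ?_⟩, ?_⟩
        invFun := fun h => ⟨⟨n * ((h : ↥K) : H) * n⁻¹, ?_⟩, ?_⟩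
        left_inv := fun h => Subtype.ext (Subtype.ext (by simp [mul_assoc]))
        right_inv := fun h => Subtype.ext (Subtype.ext (by simp [mul_assoc])) }
    · show (n⁻¹ * ((h : ↥K) : H) * n) • d = d
      have h2 : ((h : ↥K) : H) • (n • d) = n • d := h.2
      rw [mul_smul, mul_smul, h2, inv_smul_smul]
    · show (n⁻¹ * ((h : ↥K) : H) * n) • (n⁻¹ • d) = n⁻¹ • d
      rw [mul_smul, mul_smul, smul_inv_smul, show ((h : ↥K) : H) • d = d from (h : ↥K).2]
    · show (n * ((h : ↥K) : H) * n⁻¹) • d = d
      have h2 : ((h : ↥K) : H) • (n⁻¹ • d) = n⁻¹ • d := h.2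
      rw [mul_smul, mul_smul, h2, smul_inv_smul]
    · show (n * ((h : ↥K) : H) * n⁻¹) • (n • d) = n • d
      rw [mul_smul, mul_smul, inv_smul_smul, show ((h : ↥K) : H) • d = d from (h : ↥K).2]
  have h1 := Subgroup.card_mul_index (MulAction.stabilizer ↥K (n • d))
  have h2 := Subgroup.card_mul_index (MulAction.stabilizer ↥K (n⁻¹ • d))
  rw [hcard] at h1
  exact Nat.eq_of_mul_eq_mul_left Nat.card_pos (h1.trans h2.symm)

theorem suborbit_eq {e : Bool} {X : Finset Ω} (hX : X.card ≤ 3) :
    {z | ∃ h : H, h • d = d ∧ h • el v d e X = z}.ncard = Nat.choose 22 X.card := by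
  have : {z | ∃ h : H, h • d = d ∧ h • el v d e X = z} =
      el v d e '' ↑((Finset.univ : Finset Ω).powersetCard X.card) := by
    ext z
    constructor
    · rintro ⟨h, hd, rfl⟩
      obtain ⟨π, hπ⟩ := exists_perm S T hd
      exact ⟨X.map π.toEmbedding, by simp, (hπ e X).symm⟩
    · rintro ⟨Y, hY, rfl⟩
      obtain ⟨h, hd, hh⟩ := trans_sets S T hX (Y := Y) (by simpa using (Finset.mem_powersetCard.1 hY).2.symm)
      exact ⟨h, hd, hh e⟩
  rw [this, Set.InjOn.ncard_image]
  · rw [Set.ncard_coe_finset, Finset.card_powersetCard, Finset.card_univ, S.card]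
  · intro Y hY Z hZ he
    simp only [Finset.mem_coe, Finset.mem_powersetCard_univ] at hY hZ
    rcases S.el_inj (by omega) he with r | ⟨r, -, -⟩
    exacts [r.2, absurd rfl r]

/-- The inverse image of `d` under an element moving it to a single involution is one. -/
theorem paired [Finite H] {n : H} {e : Bool} {w : Ω} (hn : n • d = el v d e {w}) :
    ∃ r w', n⁻¹ • d = el v d r {w'} := by
  have hc := suborbit_card (d := d) n
  rw [hn, suborbit_eq S T (by simp)] at hc
  obtain ⟨X, hX, hor⟩ := S.gen (n⁻¹ • d)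
  obtain ⟨r, hr⟩ : ∃ r, n⁻¹ • d = el v d r X :=
    hor.elim (fun h => ⟨false, h⟩) fun h => ⟨true, h⟩
  rw [hr, suborbit_eq S T hX, Finset.card_singleton] at hc
  have h1 : X.card = 1 := by
    interval_cases X.card <;> simp_all [Nat.choose]
  obtain ⟨w', rfl⟩ := Finset.card_eq_one.1 h1
  exact ⟨r, w', hr⟩

omit S T in
theorem moves_one {n : H} : n • d = 1 → d = 1 := fun h => by
  rw [← inv_smul_smul n d, h, smul_one]

theorem el_mem_single {e : Bool} {i j : Ω} (h : el v d e {i} ∈ MulAction.orbit H d) :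
    el v d e {j} ∈ MulAction.orbit H d :=
  orbit_el S T (by simp) (by simp) h

/-- The images of the other single involutions. -/
theorem image_single [Finite H] {n : H} {e r : Bool} {w w' : Ω} (hn : n • d = el v d e {w})
    (hn' : n⁻¹ • d = el v d r {w'})
    (hγ : ∀ X : Finset Ω, X.card = 3 → el v d false X ∉ MulAction.orbit H d) :
    ∃ f : Bool, (∀ i, i ≠ w' → ∃ p, p ≠ w ∧ n • el v d r {i} = el v d f {p}) ∧
      ∀ p, p ≠ w → ∃ i, i ≠ w' ∧ n • el v d r {i} = el v d f {p} := by
  classical
  have hy : n • el v d r {w'} = d := by rw [← hn', smul_inv_smul]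
  have hrO : ∀ i, el v d r {i} ∈ MulAction.orbit H d := fun i =>
    el_mem_single S T (i := w') ⟨n⁻¹, hn'⟩
  obtain ⟨i₀, hi₀⟩ : ∃ i₀, i₀ ≠ w' := Fintype.exists_ne_of_one_lt_card (by rw [S.card]; norm_num) w'
  -- the shape of one image
  have hu : ∀ i, n • el v d r {i} ∈ MulAction.orbit H d := fun i => by
    obtain ⟨m, hm⟩ := hrO i
    exact ⟨n * m, by rw [← hm]; exact mul_smul n m d⟩
  obtain ⟨X, hX, hor⟩ := S.gen (n • el v d r {i₀})
  obtain ⟨f, hf⟩ : ∃ f, n • el v d r {i₀} = el v d f X :=
    hor.elim (fun h => ⟨false, h⟩) fun h => ⟨true, h⟩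
  have hc3 : X.card ≠ 3 := fun h3 => by
    cases f with
    | false => exact hγ X h3 (hf ▸ hu i₀)
    | true =>
      obtain ⟨Y, hY, e'⟩ := S.el_flip_three h3
      exact hγ Y hY (e' ▸ hf ▸ hu i₀)
  have hc0 : X.card ≠ 0 := fun h0 => by
    rw [Finset.card_eq_zero.1 h0] at hf
    cases f with
    | false =>
      simp only [el, cond_false, Finset.prod_empty] at hf
      have := moves_one (d := el v d r {i₀}) hf
      have h1 := S.el_inj_small (e := r) (f := false) (X := {i₀}) (Y := ∅) (by simp) (by rw [this]; simp [el])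
      simp at h1
    | true =>
      have h1 : n • el v d r {i₀} = n • el v d r {w'} := by rw [hf, hy]; simp [el]
      exact hi₀ (Finset.singleton_injective (S.el_inj_small (by simp) (MulAction.injective n h1)).2)
  -- the stabiliser of `d` and of its image
  have key : ∀ i, i ≠ w' → ∃ Y : Finset Ω, Y.card = X.card ∧ (w ∈ Y ↔ w ∈ X) ∧
      n • el v d r {i} = el v d f Y := by
    intro i hi
    obtain ⟨k, hkd, hk1, hk2⟩ : ∃ k : H, k • d = d ∧ k • v w' = v w' ∧ k • v i₀ = v i := by
      obtain ⟨j, hj1, hj2⟩ : ∃ j, j ≠ w' ∧ j ≠ i₀ := exists_third S w' i₀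
      obtain ⟨j', hj1', hj2'⟩ : ∃ j, j ≠ w' ∧ j ≠ i := exists_third S w' i
      obtain ⟨k, k0, k1, k2, -⟩ := T.trans w' i₀ j w' i j' hi₀.symm hj1.symm hj2.symm hi.symm hj1'.symm hj2'.symm
      exact ⟨k, k0, k1, k2⟩
    obtain ⟨πk, hπk⟩ := exists_perm S T hkd
    have k1 := perm_of_fix S hπk hk1
    have k2 := perm_of_fix S hπk hk2
    have kr : k • el v d r {w'} = el v d r {w'} ∧ k • el v d r {i₀} = el v d r {i} := by
      constructor <;> rw [hπk] <;> congr 1 <;> simp [k1, k2]
    set m := n * k * n⁻¹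
    have hmd : m • d = d := by
      show (n * k * n⁻¹) • d = d
      rw [mul_smul, mul_smul, hn', kr.1, hy]
    have hmt : m • el v d e {w} = el v d e {w} := by
      show (n * k * n⁻¹) • el v d e {w} = el v d e {w}
      rw [← hn, mul_smul, mul_smul, inv_smul_smul, hkd]
    obtain ⟨πm, hπm⟩ := exists_perm S T hmd
    have mw : πm w = w := by
      have := (S.el_inj_small (by simp) ((hπm e {w}).symm.trans hmt)).2
      simpa using this
    refine ⟨X.map πm.toEmbedding, Finset.card_map _, ?_, ?_⟩
    · conv_lhs => rw [← mw, show πm w = πm.toEmbedding w from rfl, Finset.mem_map']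
    · rw [← hπm, ← hf, ← kr.2]
      show n • k • el v d r {i₀} = (n * k * n⁻¹) • n • el v d r {i₀}
      rw [mul_smul, mul_smul, inv_smul_smul]
  have uinj : ∀ i j, n • el v d r {i} = n • el v d r {j} → i = j := fun i j h =>
    Finset.singleton_injective (S.el_inj_small (by simp) (MulAction.injective n h)).2
  -- distinct images
  set others := (Finset.univ : Finset Ω).erase w'
  have ho : others.card = 21 := by
    rw [Finset.card_erase_of_mem (Finset.mem_univ _), Finset.card_univ, S.card]
  choose! Y hY1 hY2 hY3 using key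
  have hXc : X.card = 1 ∨ X.card = 2 := by omega
  rcases hXc with h1 | h2
  · obtain ⟨p₀, hp₀⟩ := Finset.card_eq_one.1 h1
    have hp₀w : p₀ ≠ w := by
      intro hpw
      rw [hp₀, hpw] at hf
      by_cases hfe : f = e
      · rw [hfe, ← hn] at hf
        have h1 := S.el_inj_small (e := r) (f := true) (X := {i₀}) (Y := ∅) (by simp)
          (by rw [MulAction.injective n hf]; simp [el])
        simp at h1
      · -- then the image is the product of those of `d` and the preimage
        have he : el v d f {w} = el v d e {w} * d := by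
          rw [S.el_mul_d]
          cases f <;> cases e <;> simp at hfe ⊢
        have h2 : n • el v d r {i₀} = n • (el v d (!r) {w'}) := by
          rw [hf, he, ← S.el_mul_d r, smul_mul', hy, hn, mul_comm]
        have := (S.el_inj_small (by simp) (MulAction.injective n h2)).1
        cases r <;> simp at this
    have hsingle : ∀ i, i ≠ w' → ∃ p, p ≠ w ∧ Y i = {p} := fun i hi => by
      obtain ⟨p, hp⟩ := Finset.card_eq_one.1 (by rw [hY1 i hi, h1] : (Y i).card = 1)
      refine ⟨p, fun hpw => ?_, hp⟩
      have := (hY2 i hi).1 (by rw [hp, hpw]; simp)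
      rw [hp₀, Finset.mem_singleton] at this
      exact hp₀w this.symm
    refine ⟨f, fun i hi => ?_, fun p hp => ?_⟩
    · obtain ⟨p, hpw, hp⟩ := hsingle i hi
      exact ⟨p, hpw, hp ▸ hY3 i hi⟩
    · have hsub : others.image Y ⊆ ((Finset.univ : Finset Ω).erase w).image (fun q => ({q} : Finset Ω)) := by
        intro Z hZ
        obtain ⟨i, hi, rfl⟩ := Finset.mem_image.1 hZ
        obtain ⟨q, hq, e'⟩ := hsingle i (Finset.mem_erase.1 hi).1
        exact Finset.mem_image.2 ⟨q, Finset.mem_erase.2 ⟨hq, Finset.mem_univ q⟩, e'.symm⟩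
      have heq := Finset.eq_of_subset_of_card_le hsub (by
        rw [Finset.card_image_of_injective _ Finset.singleton_injective, Finset.card_image_of_injOn,
          Finset.card_erase_of_mem (Finset.mem_univ _), Finset.card_univ, S.card, ho]
        intro i hi j hj hij
        exact uinj i j (by rw [hY3 i (Finset.mem_erase.1 hi).1, hY3 j (Finset.mem_erase.1 hj).1, hij]))
      obtain ⟨i, hi, hi'⟩ := Finset.mem_image.1
        (heq.symm ▸ Finset.mem_image.2 ⟨p, Finset.mem_erase.2 ⟨hp, Finset.mem_univ p⟩, rfl⟩ :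
          ({p} : Finset Ω) ∈ others.image Y)
      exact ⟨i, (Finset.mem_erase.1 hi).1, hi' ▸ hY3 i (Finset.mem_erase.1 hi).1⟩
  · exfalso
    by_cases hwX : w ∈ X
    · -- five of a hexad would multiply to one
      have hpart : ∀ i, i ≠ w' → ∃ p, p ≠ w ∧ Y i = {w, p} := fun i hi => by
        obtain ⟨a, b, hab, hab'⟩ := Finset.card_eq_two.1 (by rw [hY1 i hi, h2] : (Y i).card = 2)
        have := (hY2 i hi).2 hwX
        rw [hab', Finset.mem_insert, Finset.mem_singleton] at this
        rcases this with rfl | rfl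
        · exact ⟨b, hab.symm, hab'⟩
        · exact ⟨a, hab, by rw [hab', Finset.pair_comm]⟩
      choose! pt hpt1 hpt2 using hpart
      obtain ⟨j, hj1, -⟩ : ∃ j, j ≠ w' ∧ j ≠ i₀ := exists_third S w' i₀
      obtain ⟨Z, hZ, hZw, hZc⟩ : ∃ Z : Finset Ω, ({w', i₀} : Finset Ω) ⊆ Z ∧ w' ∈ Z ∧ Z.card = 3 := by
        obtain ⟨Z, h1, h2⟩ := Finset.exists_superset_card_eq (s := ({w', i₀} : Finset Ω)) (n := 3)
          (by rw [Finset.card_pair hi₀.symm]; norm_num) (by rw [S.card]; norm_num)
        exact ⟨Z, h1, h1 (by simp), h2⟩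
      obtain ⟨R, hZR, hR, hRd⟩ := S.hex Z hZc
      set R' := R.erase w'
      have hR' : R'.card = 5 := by rw [Finset.card_erase_of_mem (hZR hZw), hR]
      have hRne : ∀ i ∈ R', i ≠ w' := fun i hi => (Finset.mem_erase.1 hi).1
      have hpinj : Set.InjOn pt ↑R' := fun i hi j hj hij =>
        uinj i j (by rw [hY3 i (hRne i hi), hY3 j (hRne j hj), hpt2 i (hRne i hi), hpt2 j (hRne j hj), hij])
      have e1 : ∏ i ∈ R, el v d r {i} = d := by
        simp only [el_eq (v := v) r {_}, Finset.prod_singleton, Finset.prod_mul_distrib,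
          Finset.prod_const, hR, hRd]
        simp [pow_succ, S.sq_one]
      have e2 : n • d = d * ∏ i ∈ R', el v d f {w, pt i} := by
        conv_lhs => rw [← e1, Finset.smul_prod', ← Finset.mul_prod_erase R _ (hZR hZw), hy]
        congr 1
        exact Finset.prod_congr rfl fun i hi => by rw [hY3 i (hRne i hi), hpt2 i (hRne i hi)]
      have e3 : ∏ i ∈ R', el v d f {w, pt i} = el v d f ∅ * v w * ∏ p ∈ R'.image pt, v p := by
        rw [Finset.prod_image hpinj]
        rw [Finset.prod_congr rfl fun i hi => (show el v d f {w, pt i} = (el v d f ∅ * v w) * v (pt i) by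
          rw [el_eq, Finset.prod_pair (hpt1 i (hRne i hi)).symm, mul_assoc]), Finset.prod_mul_distrib,
          Finset.prod_const, hR', show (5 : ℕ) = 2 * 2 + 1 from rfl, pow_succ, pow_mul, pow_two,
          S.sq_one, one_mul]
      rw [hn, e3, el_eq e {w}, Finset.prod_singleton] at e2
      have e4 : ∏ p ∈ R'.image pt, v p = el v d (xor e (!f)) ∅ := by
        have hd1 : d = el v d true ∅ := by simp [el]
        have : el v d e ∅ * v w * (el v d true ∅ * el v d f ∅ * v w) =
            (∏ p ∈ R'.image pt, v p) := by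
          rw [e2, ← hd1]
          calc _ = (d * el v d f ∅ * v w) * (d * el v d f ∅ * v w) * ∏ p ∈ R'.image pt, v p := by
                simp only [mul_assoc, mul_left_comm, mul_comm]
            _ = _ := by rw [S.sq_one, one_mul]
        rw [← this, mul_mul_mul_comm, S.sq, mul_one, S.el_mul, S.el_mul]
        simp
      have h5 : (R'.image pt).card = 5 := by rw [Finset.card_image_of_injOn hpinj, hR']
      have h0 := S.eq_empty (X := R'.image pt) (le_of_eq h5) (by
        rw [e4]
        cases (xor e !f) <;> simp [el])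
      rw [h0] at h5
      simp at h5
    · have hbig : ((Finset.univ : Finset Ω).erase w).powersetCard 2 ⊆ others.image Y := by
        intro Z hZ
        obtain ⟨hZ1, hZ2⟩ := Finset.mem_powersetCard.1 hZ
        obtain ⟨k, hkd, hk⟩ := trans_sets S T (X := insert w X) (Y := insert w Z)
          (by rw [Finset.card_insert_of_notMem hwX, h2])
          (by rw [Finset.card_insert_of_notMem hwX, h2,
            Finset.card_insert_of_notMem fun h => (Finset.mem_erase.1 (hZ1 h)).1 rfl, hZ2])
        obtain ⟨a, b, hab, hab'⟩ := Finset.card_eq_two.1 h2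
        obtain ⟨p, q, hpq, hpq'⟩ := Finset.card_eq_two.1 hZ2
        rw [hab'] at hwX
        rw [hpq'] at hZ1
        simp only [Finset.mem_insert, Finset.mem_singleton, not_or] at hwX
        have hwpq : w ≠ p ∧ w ≠ q := ⟨(Finset.mem_erase.1 (hZ1 (by simp))).1.symm,
          (Finset.mem_erase.1 (hZ1 (by simp))).1.symm⟩
        obtain ⟨h, hd, hw, ha, hb⟩ := T.trans w a b w p q hwX.1 hwX.2 hab hwpq.1 hwpq.2 hpq
        obtain ⟨π, hπ⟩ := exists_perm S T hd
        have pw := perm_of_fix S hπ hw
        have hmap : X.map π.toEmbedding = Z := by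
          rw [hab', hpq']
          simp [perm_of_fix S hπ ha, perm_of_fix S hπ hb]
        set m := n⁻¹ * h * n
        have hmd : m • d = d := by
          show (n⁻¹ * h * n) • d = d
          rw [mul_smul, mul_smul, hn, hπ]
          simp only [Finset.map_singleton, Equiv.coe_toEmbedding, pw, ← hn, inv_smul_smul]
        have hmy : m • el v d r {w'} = el v d r {w'} := by
          show (n⁻¹ * h * n) • el v d r {w'} = el v d r {w'}
          rw [mul_smul, mul_smul, hy, hd, hn']
        obtain ⟨πm, hπm⟩ := exists_perm S T hmd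
        refine Finset.mem_image.2 ⟨πm i₀, Finset.mem_erase.2 ⟨?_, Finset.mem_univ _⟩, ?_⟩
        · intro e'
          have h3 := (S.el_inj_small (by simp) ((hπm r {w'}).symm.trans hmy)).2
          simp only [Finset.map_singleton, Equiv.coe_toEmbedding, Finset.singleton_inj] at h3
          exact hi₀ (πm.injective (e'.trans h3.symm))
        · have hne : πm i₀ ≠ w' := by
            intro e'
            have h3 := (S.el_inj_small (by simp) ((hπm r {w'}).symm.trans hmy)).2
            simp only [Finset.map_singleton, Equiv.coe_toEmbedding, Finset.singleton_inj] at h3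
            exact hi₀ (πm.injective (e'.trans h3.symm))
          have h4 : n • el v d r {πm i₀} = el v d f Z := by
            rw [← hmap, ← hπ, ← hf, show ({πm i₀} : Finset Ω) = ({i₀} : Finset Ω).map πm.toEmbedding by simp,
              ← hπm]
            show n • (n⁻¹ * h * n) • el v d r {i₀} = h • n • el v d r {i₀}
            rw [mul_smul, mul_smul, smul_inv_smul]
          exact (S.el_inj_small (by rw [hY1 _ hne, h2, hZ2]; norm_num) ((hY3 _ hne).symm.trans h4)).2
      have := (Finset.card_le_card hbig).trans Finset.card_image_le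
      rw [Finset.card_powersetCard, Finset.card_erase_of_mem (Finset.mem_univ _), Finset.card_univ,
        S.card, ho] at this
      norm_num [Nat.choose] at this

omit T in
/-- A prime dividing the length of the orbit divides some `2^11 - 2^k`. -/
theorem prime_dvd_orbit [Finite A] {p : ℕ} (hp : p.Prime)
    (h : p ∣ (MulAction.orbit H d).ncard) : ∃ k < 11, p ∣ 2048 - 2 ^ k := by
  classical
  haveI := Fact.mk hp
  set φ := MulDistribMulAction.toMulAut H A
  set R := φ.range
  have horb : MulAction.orbit ↥R d = MulAction.orbit H d := by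
    ext z
    constructor
    · rintro ⟨⟨_, g, rfl⟩, rfl⟩; exact ⟨g, rfl⟩
    · rintro ⟨g, rfl⟩; exact ⟨⟨φ g, g, rfl⟩, rfl⟩
  haveI : Finite (MulAut A) := Finite.of_injective (fun f : MulAut A => (f : A → A)) DFunLike.coe_injective
  have hR : p ∣ Nat.card ↥R := by
    rw [← horb, ← MulAction.index_stabilizer] at h
    exact h.trans (Subgroup.index_dvd_card _)
  obtain ⟨x, hx⟩ := exists_prime_orderOf_dvd_card' p hR
  have hx1 : (x : MulAut A) ≠ 1 := fun e => by
    rw [Subtype.ext e (a2 := (1 : ↥R)), orderOf_one] at hx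
    exact hp.ne_one hx.symm
  set Z := Subgroup.zpowers (x : MulAut A)
  have hZ : IsPGroup p ↥Z := IsPGroup.of_card (n := 1) (by
    rw [Nat.card_zpowers, Subgroup.orderOf_coe, hx, pow_one])
  let F : Subgroup A :=
    { carrier := {a | (x : MulAut A) a = a}
      one_mem' := map_one (x : MulAut A)
      mul_mem' := fun {a b} (ha : (x : MulAut A) a = a) (hb : (x : MulAut A) b = b) => by
        show (x : MulAut A) (a * b) = a * b
        rw [map_mul, ha, hb]
      inv_mem' := fun {a} (ha : (x : MulAut A) a = a) => by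
        show (x : MulAut A) a⁻¹ = a⁻¹
        rw [map_inv, ha] }
  have hfix : MulAction.fixedPoints ↥Z A = (F : Set A) := by
    ext a
    constructor
    · intro ha
      exact ha ⟨x, Subgroup.mem_zpowers _⟩
    · rintro (ha : (x : MulAut A) a = a) ⟨z, hz⟩
      show z a = a
      have : Z ≤ MulAction.stabilizer (MulAut A) a := by rw [Subgroup.zpowers_le]; exact ha
      exact this hz
  have hmod := hZ.card_modEq_card_fixedPoints A
  rw [hfix, S.card_group] at hmod
  change 2048 ≡ Nat.card ↥F [MOD p] at hmod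
  obtain ⟨k, hk, hFk⟩ := (Nat.dvd_prime_pow Nat.prime_two).1
    (show Nat.card ↥F ∣ 2 ^ 11 by rw [show (2 : ℕ) ^ 11 = 2048 from rfl, ← S.card_group]; exact Subgroup.card_subgroup_dvd_card F)
  rw [hFk] at hmod
  refine ⟨k, ?_, (Nat.modEq_iff_dvd' (by rw [show (2048 : ℕ) = 2 ^ 11 from rfl]; exact Nat.pow_le_pow_right (by norm_num) hk)).1 hmod.symm⟩
  rcases lt_or_eq_of_le hk with hk | hk
  · exact hk
  · exfalso
    subst hk
    have : F = ⊤ := Subgroup.eq_top_of_card_eq F (by rw [hFk, S.card_group]; rfl)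
    exact hx1 (MulEquiv.ext fun a => (this ▸ Subgroup.mem_top a : a ∈ F))

omit T in
/-- A product of conjugates of `d` which is not one outside the orbit. -/
theorem one_notMem : (1 : A) ∉ MulAction.orbit H d := by
  rintro ⟨n, hn⟩
  exact S.dne (moves_one (n := n) hn)

omit T in
theorem no_three (hγ : ∀ X : Finset Ω, X.card = 3 → el v d false X ∉ MulAction.orbit H d)
    {e : Bool} {X : Finset Ω} (hX : X.card = 3) : el v d e X ∉ MulAction.orbit H d := by
  cases e with
  | false => exact hγ X hX
  | true =>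
    obtain ⟨Y, hY, e'⟩ := S.el_flip_three hX
    exact e' ▸ hγ Y hY

omit T in
theorem smul_orbit {n : H} {a : A} (h : a ∈ MulAction.orbit H d) : n • a ∈ MulAction.orbit H d := by
  obtain ⟨m, rfl⟩ := h
  exact ⟨n * m, mul_smul n m d⟩

omit [Fintype Ω] T S in
theorem symm_single {w p : Ω} (h : p ≠ w) : ({w} : Finset Ω) ∆ {p} = {w, p} := by
  ext i
  simp only [Finset.mem_symmDiff, Finset.mem_singleton, Finset.mem_insert]
  constructor
  · rintro (⟨h1, -⟩ | ⟨h1, -⟩)
    exacts [Or.inl h1, Or.inr h1]
  · rintro (h1 | h1)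
    · exact Or.inl ⟨h1, fun e => h (e.symm.trans h1)⟩
    · exact Or.inr ⟨h1, fun e => h (h1.symm.trans e)⟩

/-- Without products of three the orbit has no products of two and one class of single involutions. -/
theorem small [Finite H] (hγ : ∀ X : Finset Ω, X.card = 3 → el v d false X ∉ MulAction.orbit H d)
    {e₀ : Bool} {w₀ : Ω} (he₀ : el v d e₀ {w₀} ∈ MulAction.orbit H d) :
    (∀ X : Finset Ω, X.card = 2 → ∀ η, el v d η X ∉ MulAction.orbit H d) ∧
      ∀ w, el v d (!e₀) {w} ∉ MulAction.orbit H d := by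
  have O1 : ∀ {e : Bool} {i : Ω}, el v d e {i} ∈ MulAction.orbit H d →
      ∀ j, el v d e {j} ∈ MulAction.orbit H d := fun h j => el_mem_single S T h
  have O2 : ∀ {e : Bool} {X Y : Finset Ω}, X.card = 2 → Y.card = 2 →
      el v d e X ∈ MulAction.orbit H d → el v d e Y ∈ MulAction.orbit H d := fun hX hY h =>
    orbit_el S T (by omega) (by omega) h
  -- the images under an element moving `d` to a single involution
  have data : ∀ {n : H} {e : Bool} {w : Ω}, n • d = el v d e {w} → ∃ r w' f,
      n⁻¹ • d = el v d r {w'} ∧ (∀ j, el v d r {j} ∈ MulAction.orbit H d) ∧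
      (∀ j, el v d f {j} ∈ MulAction.orbit H d) ∧
      (∀ i, i ≠ w' → ∃ p, p ≠ w ∧ n • el v d r {i} = el v d f {p}) ∧
      ∀ p, p ≠ w → ∃ i, i ≠ w' ∧ n • el v d r {i} = el v d f {p} := by
    intro n e w hn
    obtain ⟨r, w', hn'⟩ := paired S T hn
    obtain ⟨f, hf1, hf2⟩ := image_single S T hn hn' hγ
    have hr := O1 (⟨n⁻¹, hn'⟩ : el v d r {w'} ∈ MulAction.orbit H d)
    refine ⟨r, w', f, hn', hr, ?_, hf1, hf2⟩
    obtain ⟨i, hi, -⟩ := exists_third S w' w'
    obtain ⟨p, -, hp⟩ := hf1 i hi
    exact O1 (hp ▸ smul_orbit S (hr i))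
  have hb1 : ∀ X : Finset Ω, X.card = 2 → el v d true X ∉ MulAction.orbit H d := by
    intro X hX hXO
    obtain ⟨n, hn⟩ := he₀
    obtain ⟨r, w', f, hn', -, -, hf1, -⟩ := data hn
    obtain ⟨i, hi, -⟩ := exists_third S w' w'
    obtain ⟨j, hj, hji⟩ := exists_third S w' i
    obtain ⟨p, hp, ep⟩ := hf1 i hi
    obtain ⟨q, hq, eq'⟩ := hf1 j hj
    have hpq : p ≠ q := fun e' => hji (Finset.singleton_injective
      (S.el_inj_small (by simp) (MulAction.injective n (eq'.trans (e' ▸ ep.symm)))).2)
    have hij := O2 hX (Finset.card_pair hji.symm) hXO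
    have hd : el v d true ({i, j} : Finset Ω) = d * (el v d r {i} * el v d r {j}) := by
      rw [S.el_mul, symm_single hji, Bool.xor_self]
      simp [el]
    have himg := smul_orbit S (n := n) hij
    rw [hd, smul_mul', smul_mul', ep, eq', show n • d = el v d e₀ {w₀} from hn, S.el_mul, S.el_mul] at himg
    refine no_three S hγ ?_ himg
    rw [symm_single hpq.symm]
    rw [Finset.card_eq_three]
    refine ⟨w₀, p, q, hp.symm, hq.symm, hpq, ?_⟩
    ext k
    simp only [Finset.mem_symmDiff, Finset.mem_insert, Finset.mem_singleton]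
    constructor
    · rintro (⟨h1, -⟩ | ⟨h1, -⟩)
      exacts [Or.inl h1, Or.inr h1]
    · rintro (h1 | h1)
      · exact Or.inl ⟨h1, by rintro (h2 | h2) <;> simp_all⟩
      · exact Or.inr ⟨h1, by rintro rfl; rcases h1 with h1 | h1 <;> simp_all⟩
  -- the image of a pair
  have hb0 : ∀ X : Finset Ω, X.card = 2 → el v d false X ∈ MulAction.orbit H d →
      ∀ e w, el v d e {w} ∈ MulAction.orbit H d := by
    intro X hX hXO e w
    obtain ⟨n, hn⟩ := he₀
    obtain ⟨r, w', f, hn', -, hf, hf1, -⟩ := data hn
    obtain ⟨i, hi, -⟩ := exists_third S w' w'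
    obtain ⟨p, -, ep⟩ := hf1 i hi
    have hd : el v d false ({w', i} : Finset Ω) = el v d r {w'} * el v d r {i} := by
      rw [S.el_mul, symm_single hi, Bool.xor_self]
    have himg := smul_orbit S (n := n) (O2 hX (Finset.card_pair hi.symm) hXO)
    rw [hd, smul_mul', ep, ← hn', smul_inv_smul, mul_comm, S.el_mul_d] at himg
    cases e <;> cases f
    exacts [hf w, O1 himg w, O1 himg w, hf w]
  suffices hsingle : ∀ w, el v d (!e₀) {w} ∉ MulAction.orbit H d by
    refine ⟨fun X hX η h => ?_, hsingle⟩
    cases η with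
    | false => exact hsingle w₀ (hb0 X hX h _ w₀)
    | true => exact hb1 X hX h
  intro w₁ hw₁
  have hall : ∀ e w, el v d e {w} ∈ MulAction.orbit H d := fun e w => by
    cases e <;> cases e₀
    exacts [O1 he₀ w, O1 hw₁ w, O1 hw₁ w, O1 he₀ w]
  have same : ∀ {n : H} {e : Bool} {w : Ω}, n • d = el v d e {w} → ∃ r w', n⁻¹ • d = el v d r {w'} ∧
      ∀ p, p ≠ w → ∃ i, i ≠ w' ∧ n • el v d r {i} = el v d e {p} := by
    intro n e w hn
    obtain ⟨r, w', f, hn', -, -, hf1, hf2⟩ := data hn
    refine ⟨r, w', hn', ?_⟩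
    obtain ⟨i, hi, -⟩ := exists_third S w' w'
    obtain ⟨p, hp, ep⟩ := hf1 i hi
    have h : n • el v d (!r) {i} = el v d (xor e f) ({w, p} : Finset Ω) := by
      rw [← S.el_mul_d, smul_mul', ep, hn, mul_comm, S.el_mul, symm_single hp]
    have hmem := smul_orbit S (n := n) (hall (!r) i)
    rw [h] at hmem
    have hef : f = e := by
      cases e <;> cases f <;>
        first
          | rfl
          | exact absurd hmem (hb1 _ (Finset.card_pair hp.symm))
    exact hef ▸ hf2
  -- pairing is well defined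
  have uniq : ∀ {n m : H} {e r r' : Bool} {w w' u u' : Ω}, n • d = el v d e {w} →
      n⁻¹ • d = el v d r {w'} → m • d = el v d e {u} → m⁻¹ • d = el v d r' {u'} → r = r' := by
    intro n m e r r' w w' u u' hn hn' hm hm'
    obtain ⟨h, hd, hh⟩ := trans_sets S T (X := ({w} : Finset Ω)) (Y := {u}) (by simp) (by simp)
    set k := m⁻¹ * h * n
    have hk : k • d = d := by
      show (m⁻¹ * h * n) • d = d
      rw [mul_smul, mul_smul, hn, hh, ← hm, inv_smul_smul]
    obtain ⟨π, hπ⟩ := exists_perm S T hk
    have h1 : k • (n⁻¹ • d) = m⁻¹ • d := by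
      show (m⁻¹ * h * n) • n⁻¹ • d = m⁻¹ • d
      rw [mul_smul, mul_smul, smul_inv_smul, hd]
    rw [hn', hm', hπ] at h1
    exact (S.el_inj_small (by simp) h1).1
  have fixed : ∀ {n : H} {e r : Bool} {w w' : Ω}, n • d = el v d e {w} → n⁻¹ • d = el v d r {w'} →
      r = e := by
    intro n e r w w' hn hn'
    obtain ⟨r₁, w₁', h1, g1⟩ := same hn
    obtain ⟨hr, hw⟩ := S.el_inj_small (by simp) (hn'.symm.trans h1)
    obtain ⟨p, hp, -⟩ := exists_third S w w
    obtain ⟨i, hi, ei⟩ := g1 p hp
    obtain ⟨m, hm⟩ := hall e p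
    obtain ⟨r₂, u', h2, g2⟩ := same hm
    obtain ⟨j, hj, ej⟩ := g2 w hp.symm
    have hr2 : r₁ = r₂ := uniq hn h1 hm h2
    have k1 : (m⁻¹ * n) • d = el v d r₂ {j} := by rw [mul_smul, hn, ← ej, inv_smul_smul]
    have k2 : (m⁻¹ * n)⁻¹ • d = el v d r₁ {i} := by
      rw [mul_inv_rev, inv_inv, mul_smul, show m • d = el v d e {p} from hm, ← ei, inv_smul_smul]
    have := uniq (n := n⁻¹) (r := e) (w' := w) h1 (by rw [inv_inv]; exact hn) (hr2 ▸ k1) k2
    rw [hr, this]
  -- a line through `d`
  obtain ⟨n, hn⟩ := hall false w₀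
  obtain ⟨m, hm⟩ := hall true w₀
  change n • d = _ at hn
  change m • d = _ at hm
  obtain ⟨r, a, h1, -⟩ := same hn
  obtain ⟨r', b, h2, -⟩ := same hm
  obtain rfl := fixed hn h1
  obtain rfl := fixed hm h2
  have k1 : (m⁻¹ * n) • d = el v d false {b} := by
    rw [mul_smul, show n • d = el v d false {w₀} from hn,
      show el v d false {w₀} = el v d true {w₀} * d by rw [S.el_mul_d]; rfl, smul_mul', ← hm,
      inv_smul_smul, h2, mul_comm, S.el_mul_d]
    rfl
  have k2 : (m⁻¹ * n)⁻¹ • d = el v d true {a} := by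
    rw [mul_inv_rev, inv_inv, mul_smul, show m • d = el v d true {w₀} from hm,
      show el v d true {w₀} = el v d false {w₀} * d by rw [S.el_mul_d]; rfl, smul_mul', ← hn,
      inv_smul_smul, h1, mul_comm, S.el_mul_d]
    rfl
  exact Bool.noConfusion (fixed k1 k2)

omit T in
/-- The orbit is not everything but one class of single involutions. -/
theorem not_big [Finite H] {e : Bool} {t : Ω} (ht : el v d e {t} ∈ MulAction.orbit H d)
    (hnot : ∀ i, el v d (!e) {i} ∉ MulAction.orbit H d)
    (hrest : ∀ a : A, a ≠ 1 → a ∉ MulAction.orbit H d → ∃ i, a = el v d (!e) {i}) : False := by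
  obtain ⟨n, hn⟩ := ht
  have move : ∀ (h : H) i, ∃ j, h • el v d (!e) {i} = el v d (!e) {j} := fun h i => by
    refine hrest _ (fun h1 => ?_) fun hm => hnot i ?_
    · have h2 : el v d (!e) {i} = el v d false ∅ := by
        rw [← inv_smul_smul h (el v d (!e) {i}), h1, smul_one]; simp [el]
      have := (S.el_inj_small (by simp) h2).2
      simp at this
    · have := smul_orbit S (n := h⁻¹) hm
      rwa [inv_smul_smul] at this
  choose σ hσ using move n
  choose τ hτ using move n⁻¹
  obtain ⟨x, hx, -⟩ := exists_third S t t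
  obtain ⟨y, hy, hyx⟩ := exists_third S t x
  obtain ⟨R, hR1, hR, hRd⟩ := S.hex {t, x, y} (by
    rw [Finset.card_eq_three]; exact ⟨t, x, y, hx.symm, hy.symm, hyx.symm, rfl⟩)
  have htR : t ∈ R := hR1 (by simp)
  obtain ⟨Q, hQ, hQc⟩ := Finset.exists_subset_card_eq (s := R.erase t) (n := 3)
    (by rw [Finset.card_erase_of_mem htR, hR]; norm_num)
  obtain ⟨p, q, r, hpq, hpr, hqr, hQe⟩ := Finset.card_eq_three.1 hQc
  have hQt : ∀ i ∈ Q, i ∈ R ∧ i ≠ t := fun i hi =>
    ⟨(Finset.mem_erase.1 (hQ hi)).2, (Finset.mem_erase.1 (hQ hi)).1⟩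
  have hinv : ∀ i, σ (τ i) = i := fun i => Finset.singleton_injective
    (S.el_inj_small (by simp) (by rw [← hσ, ← hτ, smul_inv_smul] :
      el v d (!e) {σ (τ i)} = el v d (!e) {i})).2
  have τinj : Function.Injective τ := Function.LeftInverse.injective hinv
  have σinj : Function.Injective σ := fun i j h => Finset.singleton_injective
    (S.el_inj_small (by simp) (MulAction.injective n (by rw [hσ, hσ, h] :
      n • el v d (!e) {i} = n • el v d (!e) {j}))).2
  obtain ⟨R', hR1', hR', hRd'⟩ := S.hex {τ p, τ q, τ r} (by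
    rw [Finset.card_eq_three]
    exact ⟨τ p, τ q, τ r, τinj.ne hpq, τinj.ne hpr, τinj.ne hqr, rfl⟩)
  set P := R'.image σ
  have hP : P.card = 6 := by rw [Finset.card_image_of_injective _ σinj, hR']
  have six : ∀ {X : Finset Ω}, X.card = 6 → ∏ i ∈ X, el v d (!e) {i} = ∏ i ∈ X, v i := fun {X} hX => by
    simp only [el_eq (v := v) (!e) {_}, Finset.prod_singleton, Finset.prod_mul_distrib,
      Finset.prod_const, hX]
    simp [pow_succ, S.sq_one]
  have hPp : ∏ i ∈ P, v i = el v d e {t} := by
    rw [← six hP, Finset.prod_image (σinj.injOn)]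
    simp only [← hσ]
    rw [← Finset.smul_prod', six hR', hRd']
    exact hn
  have hQP : ∀ i ∈ Q, i ∈ P := fun i hi => by
    refine Finset.mem_image.2 ⟨τ i, hR1' ?_, hinv i⟩
    rw [hQe] at hi
    simp only [Finset.mem_insert, Finset.mem_singleton] at hi ⊢
    tauto
  by_cases htP : t ∈ P
  · have h5 : (P.erase t).card = 5 := by rw [Finset.card_erase_of_mem htP, hP]
    have h0 := S.eq_empty (X := P.erase t) h5.le (by
      have := Finset.mul_prod_erase P v htP
      rw [hPp, el_eq e {t}, Finset.prod_singleton, mul_comm (el v d e ∅)] at this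
      rw [mul_left_cancel this]
      cases e <;> simp [el])
    rw [h0] at h5
    simp at h5
  · set P' := insert t P
    have hP' : P'.card = 7 := by rw [Finset.card_insert_of_notMem htP, hP]
    have h4 : 4 ≤ (P' ∩ R).card := by
      have hsub : insert t Q ⊆ P' ∩ R := fun i hi => by
        rcases Finset.mem_insert.1 hi with rfl | hi
        · exact Finset.mem_inter.2 ⟨Finset.mem_insert_self _ _, htR⟩
        · exact Finset.mem_inter.2 ⟨Finset.mem_insert_of_mem (hQP i hi), (hQt i hi).1⟩
      refine le_trans ?_ (Finset.card_le_card hsub)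
      rw [Finset.card_insert_of_notMem fun h => (hQt t h).2 rfl, hQc]
    have hc : (P' ∆ R).card ≤ 5 := by
      rw [symmDiff_def, Finset.sup_eq_union, Finset.card_union_of_disjoint disjoint_sdiff_sdiff]
      have e1 := Finset.card_sdiff_add_card_inter P' R
      have e2 := Finset.card_sdiff_add_card_inter R P'
      rw [Finset.inter_comm R P'] at e2
      omega
    have hv : ∏ i ∈ P' ∆ R, v i = el v d e ∅ * d := by
      rw [← S.prod_symm, Finset.prod_insert htP, hPp, hRd, el_eq e {t}, Finset.prod_singleton,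
        mul_left_comm, S.sq, mul_one]
    have h0 := S.eq_empty hc (by
      rw [hv, S.el_mul_d]
      cases e <;> simp [el])
    have := congrArg Finset.card (symmDiff_eq_bot.1 h0)
    omega

/-- The orbit is not everything. -/
theorem not_all [Finite H] (hall : ∀ a : A, a ≠ 1 → a ∈ MulAction.orbit H d) : False := by
  classical
  haveI : Fintype A := Fintype.ofEquiv _ (Equiv.ofBijective _ ⟨S.val_injective, S.val_surjective⟩)
  let Rel : A × A → Prop := fun z => ∃ (n : H) (e : Bool) (i : Ω),
    n • d = z.1 ∧ n • el v d e {i} = z.2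
  have single_ne : ∀ (e : Bool) (i : Ω), el v d e {i} ≠ 1 := fun e i h => by
    have := (S.el_inj_small (f := false) (Y := ∅) (by simp) (h.trans (by simp [el]) :
      el v d e {i} = el v d false ∅)).2
    simp at this
  have step : ∀ z, Rel z → Rel (z.2, z.1 * z.2) := by
    rintro ⟨x, y⟩ ⟨n, e, i, hx, hy⟩
    obtain ⟨m, hm⟩ := hall _ (single_ne e i)
    obtain ⟨r, w', hm'⟩ := paired S T hm
    refine ⟨n * m, !r, w', ?_, ?_⟩
    · rw [mul_smul, show m • d = _ from hm]; exact hy
    · have : m • el v d (!r) {w'} = el v d e {i} * d := by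
        rw [← S.el_mul_d, ← hm', smul_mul', smul_inv_smul, show m • d = _ from hm, mul_comm]
      show (n * m) • el v d (!r) {w'} = x * y
      rw [mul_smul, this, smul_mul', hy, hx, mul_comm]
  let N := {z : A × A // Rel z}
  let f : Equiv.Perm N :=
    { toFun := fun z => ⟨(z.1.2, z.1.1 * z.1.2), step _ z.2⟩
      invFun := fun z => ⟨(z.1.1 * z.1.2, z.1.1), by
        have h2 := step _ (step _ z.2)
        rwa [show z.1.2 * (z.1.1 * z.1.2) = z.1.1 by rw [mul_left_comm, S.sq_one, mul_one]] at h2⟩
      left_inv := fun z => Subtype.ext (Prod.ext (by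
        show z.1.2 * (z.1.1 * z.1.2) = z.1.1
        rw [mul_left_comm, S.sq_one, mul_one]) rfl)
      right_inv := fun z => Subtype.ext (Prod.ext rfl (by
        show z.1.1 * z.1.2 * z.1.1 = z.1.2
        rw [mul_comm, ← mul_assoc, S.sq_one, one_mul])) }
  haveI : Fact (Nat.Prime 3) := ⟨Nat.prime_three⟩
  have hf3 : f ^ 3 = 1 := Equiv.ext fun z => by
    simp only [pow_succ, pow_zero, one_mul, Equiv.Perm.mul_apply, Equiv.Perm.one_apply]
    apply Subtype.ext
    refine Prod.ext ?_ ?_
    · show z.1.2 * (z.1.1 * z.1.2) = z.1.1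
      rw [mul_left_comm, S.sq_one, mul_one]
    · show (z.1.1 * z.1.2) * (z.1.2 * (z.1.1 * z.1.2)) = z.1.2
      rw [mul_left_comm z.1.2, S.sq_one, mul_one, mul_comm, ← mul_assoc, S.sq_one, one_mul]
  set Z := Subgroup.zpowers f
  have hZ : IsPGroup 3 ↥Z := fun g => ⟨1, by
    obtain ⟨g, k, rfl⟩ := g
    apply Subtype.ext
    show (f ^ k) ^ (3 ^ 1) = 1
    rw [pow_one, ← zpow_natCast, ← zpow_mul, mul_comm, zpow_mul, zpow_natCast, hf3, one_zpow]⟩
  have hmod := hZ.card_modEq_card_fixedPoints N
  have hnone : MulAction.fixedPoints ↥Z N = ∅ := Set.eq_empty_iff_forall_notMem.2 fun z hz => by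
    have h := hz ⟨f, Subgroup.mem_zpowers f⟩
    have h1 : z.1.2 = z.1.1 := congrArg (fun w : N => w.1.1) h
    have h2 : z.1.1 * z.1.2 = z.1.2 := congrArg (fun w : N => w.1.2) h
    rw [h1, S.sq_one] at h2
    obtain ⟨n, e, i, hx, -⟩ := z.2
    exact one_notMem (H := H) S ⟨n, hx.trans h2.symm⟩
  rw [hnone, Nat.card_coe_set_eq, Set.ncard_empty] at hmod
  -- the number of pairs
  have hone : ∀ x : {a : A // a ≠ 1}, ∃ n : H, n • d = x.1 := fun x => hall x.1 x.2
  choose g hg using hone
  let Φ : {a : A // a ≠ 1} × (Bool × Ω) → N := fun z =>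
    ⟨(z.1.1, g z.1 • el v d z.2.1 {z.2.2}), g z.1, z.2.1, z.2.2, hg z.1, rfl⟩
  have hΦ : Function.Bijective Φ := by
    constructor
    · rintro ⟨x, e, i⟩ ⟨x', e', i'⟩ h
      have h1 := congrArg (fun w : N => w.1.1) h
      have h2 := congrArg (fun w : N => w.1.2) h
      obtain rfl : x = x' := Subtype.ext h1
      obtain ⟨rfl, h3⟩ := S.el_inj_small (by simp) (MulAction.injective (g x) h2)
      simp only at h3 ⊢
      rw [Finset.singleton_injective h3]
    · rintro ⟨⟨x, y⟩, n, e, i, hx, hy⟩
      have hx1 : x ≠ 1 := fun h => one_notMem (H := H) S ⟨n, hx.trans h⟩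
      have hk : ((g ⟨x, hx1⟩)⁻¹ * n) • d = d := by
        rw [mul_smul, show n • d = x from hx]
        exact inv_smul_eq_iff.2 (hg ⟨x, hx1⟩).symm
      obtain ⟨j, hj⟩ := T.perm _ hk i
      change n • el v d e {i} = y at hy
      refine ⟨(⟨x, hx1⟩, e, j), Subtype.ext (Prod.ext rfl ?_)⟩
      show g ⟨x, hx1⟩ • el v d e {j} = y
      rw [el_eq e {j}, Finset.prod_singleton, ← hj, ← hy, el_eq e {i}, Finset.prod_singleton]
      have he : ((g ⟨x, hx1⟩)⁻¹ * n) • el v d e ∅ = el v d e ∅ := by
        cases e <;> simp [el, hk]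
      conv_lhs => rw [← he, ← smul_mul', ← mul_smul, mul_inv_cancel_left]
  have hcard : Nat.card N = 2047 * 44 := by
    rw [← Nat.card_congr (Equiv.ofBijective Φ hΦ), Nat.card_prod, Nat.card_prod]
    have : Nat.card {a : A // a ≠ 1} = 2047 := by
      rw [Nat.card_eq_fintype_card, Fintype.card_subtype_compl, Fintype.card_subtype_eq,
        ← Nat.card_eq_fintype_card, S.card_group]
    rw [this, Nat.card_eq_fintype_card, Nat.card_eq_fintype_card, Fintype.card_bool, S.card]
  rw [hcard] at hmod
  exact absurd hmod (by decide)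

/-- The orbit of `d` has twenty-three members. -/
theorem orbit_ncard [Finite H] (hne : ∃ x ∈ MulAction.orbit H d, x ≠ d) :
    (MulAction.orbit H d).ncard = 23 := by
  classical
  obtain ⟨w₀⟩ : Nonempty Ω := Fintype.card_pos_iff.1 (by rw [S.card]; norm_num)
  obtain ⟨w₁, hw, -⟩ := exists_third S w₀ w₀
  obtain ⟨w₂, hw2, hw21⟩ := exists_third S w₀ w₁
  haveI : Fintype A := Fintype.ofEquiv _ (Equiv.ofBijective _ ⟨S.val_injective, S.val_surjective⟩)
  set O := MulAction.orbit H d
  have c3 : ({w₀, w₁, w₂} : Finset Ω).card = 3 :=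
    Finset.card_eq_three.2 ⟨w₀, w₁, w₂, hw.symm, hw2.symm, hw21.symm, rfl⟩
  let a : Bool → ℕ := fun e => if el v d e {w₀} ∈ O then 1 else 0
  let b : Bool → ℕ := fun e => if el v d e {w₀, w₁} ∈ O then 1 else 0
  let γ : ℕ := if el v d false {w₀, w₁, w₂} ∈ O then 1 else 0
  have cls : ∀ (e : Bool) {X Y : Finset Ω}, X.card ≤ 3 → X.card = Y.card →
      (el v d e X ∈ O ↔ el v d e Y ∈ O) := fun e X Y h1 h2 =>
    ⟨orbit_el S T h1 h2, orbit_el S T (h2 ▸ h1) h2.symm⟩
  have cnt : ∀ (e : Bool) (X₀ : Finset Ω), X₀.card ≤ 3 →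
      ((Finset.univ : Finset Ω).powersetCard X₀.card).sum (fun X => if el v d e X ∈ O then 1 else 0) =
        Nat.choose 22 X₀.card * (if el v d e X₀ ∈ O then 1 else 0) := by
    intro e X₀ h
    rw [Finset.sum_congr rfl (g := fun _ => if el v d e X₀ ∈ O then 1 else 0) fun X hX => by
      simp only [cls e h (Finset.mem_powersetCard.1 hX).2.symm], Finset.sum_const,
      Finset.card_powersetCard, Finset.card_univ, S.card, smul_eq_mul]
  have hd1 : el v d true (∅ : Finset Ω) = d := by simp [el]
  have hsize : O.ncard = 1 + 22 * (a false + a true) + 231 * (b false + b true) + 1540 * γ := by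
    have : O.ncard = ∑ t : Par Ω, if val v d t ∈ O then 1 else 0 := by
      rw [Set.ncard_eq_toFinset_card' O,
        Fintype.sum_equiv (Equiv.ofBijective _ ⟨S.val_injective, S.val_surjective⟩)
          (fun t => if val v d t ∈ O then 1 else 0) (fun x => if x ∈ O then 1 else 0) fun _ => rfl,
        ← Finset.card_filter]
      congr 1
      ext x
      simp
    rw [this, Fintype.sum_sum_type, Fintype.sum_prod_type, Fintype.sum_bool]
    have hle : ∀ e : Bool, (∑ X : {X : Finset Ω // X.card ≤ 2}, if val v d (Sum.inl (e, X)) ∈ O then 1 else 0) =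
        (if el v d e ∅ ∈ O then 1 else 0) + 22 * a e + 231 * b e := by
      intro e
      show (∑ X : {X : Finset Ω // X.card ≤ 2}, if el v d e X.1 ∈ O then 1 else 0) = _
      rw [← Finset.sum_subtype
        ((Finset.univ : Finset Ω).powersetCard 0 ∪ Finset.univ.powersetCard 1 ∪ Finset.univ.powersetCard 2)
        (fun X => by simp only [Finset.mem_union, Finset.mem_powersetCard_univ]; omega)
        (fun X => if el v d e X ∈ O then 1 else 0),
        Finset.sum_union, Finset.sum_union]
      · have h0 := cnt e ∅ (by simp)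
        have h1 := cnt e {w₀} (by simp)
        have h2 := cnt e {w₀, w₁} (by rw [Finset.card_pair hw.symm]; norm_num)
        rw [Finset.card_empty] at h0
        rw [Finset.card_singleton] at h1
        rw [Finset.card_pair hw.symm] at h2
        rw [h0, h1, h2, Nat.choose_zero_right, Nat.choose_one_right,
          show Nat.choose 22 2 = 231 from rfl, one_mul]
      · rw [Finset.disjoint_left]; simp
      · rw [Finset.disjoint_left]
        intro X hX hX'
        simp only [Finset.mem_union, Finset.mem_powersetCard_univ] at hX hX'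
        omega
    have h3 : (∑ X : {X : Finset Ω // X.card = 3}, if val v d (Sum.inr X) ∈ O then 1 else 0) = 1540 * γ := by
      show (∑ X : {X : Finset Ω // X.card = 3}, if el v d false X.1 ∈ O then 1 else 0) = _
      rw [← Finset.sum_subtype ((Finset.univ : Finset Ω).powersetCard 3) (fun X => by simp)
        (fun X => if el v d false X ∈ O then 1 else 0)]
      have := cnt false {w₀, w₁, w₂} c3.le
      rw [c3] at this
      exact this
    have z0 : el v d false (∅ : Finset Ω) ∉ O := by
      simpa [el] using one_notMem (H := H) S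
    have z1 : el v d true (∅ : Finset Ω) ∈ O := by rw [hd1]; exact MulAction.mem_orbit_self d
    rw [hle, hle, h3, if_neg z0, if_pos z1]
    ring
  have bad : ∀ p : ℕ, p ∈ [13, 29, 67, 97, 163, 227, 317, 443, 463, 521, 2003] → p ∣ O.ncard → False := by
    intro p hp hdvd
    have hpp : p.Prime := by fin_cases hp <;> norm_num
    obtain ⟨k, hk, hk'⟩ := prime_dvd_orbit S hpp hdvd
    fin_cases hp <;> interval_cases k <;> norm_num at hk'
  have h2 : (a false + a true ≤ 2) ∧ (b false + b true ≤ 2) ∧ γ ≤ 1 := by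
    simp only [a, b, γ]
    refine ⟨?_, ?_, ?_⟩ <;> split_ifs <;> norm_num
  have hγ : γ = 0 → ∀ X : Finset Ω, X.card = 3 → el v d false X ∉ O := fun h X hX hm => by
    simp only [γ, if_pos ((cls false hX.le (hX.trans c3.symm)).1 hm)] at h
    exact absurd h one_ne_zero
  have ha : ∀ {e}, a e = 1 → el v d e {w₀} ∈ O := fun {e} h => by
    by_contra hc
    simp [a, hc] at h
  have hb : ∀ {e}, b e = 1 → el v d e {w₀, w₁} ∈ O := fun {e} h => by
    by_contra hc
    simp [b, hc] at h
  obtain ⟨hA, hB, hC⟩ := h2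
  have hone : O.ncard = 23 ∨ ((a false + a true = 0) ∧ (b false + b true = 0) ∧ γ = 0) := by
    rcases Nat.eq_zero_or_pos γ with hg | hg
    · -- no products of three
      rcases Nat.eq_zero_or_pos (a false + a true) with hz | hz
      · rcases Nat.eq_zero_or_pos (b false + b true) with hy | hy
        · exact Or.inr ⟨hz, hy, hg⟩
        · exfalso
          rw [hz, hg] at hsize
          rcases (show b false + b true = 1 ∨ b false + b true = 2 by omega) with h | h <;> rw [h] at hsize
          · exact bad 29 (by simp) (by rw [hsize]; norm_num)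
          · exact bad 463 (by simp) (by rw [hsize])
      · left
        obtain ⟨e, he⟩ : ∃ e, a e = 1 := by
          by_contra hc
          push Not at hc
          have : ∀ e, a e = 0 := fun e => by
            have := hc e; simp only [a] at this ⊢; split_ifs at this ⊢ <;> simp_all
          simp [this] at hz
        obtain ⟨hno2, hno1⟩ := small S T (hγ hg) (ha he)
        have hb0 : ∀ η, b η = 0 := fun η => if_neg (hno2 _ (Finset.card_pair hw.symm) η)
        have ha0 : a (!e) = 0 := if_neg (hno1 w₀)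
        rw [hg, hb0, hb0] at hsize
        cases e <;> simp only [Bool.not_false, Bool.not_true] at ha0 <;> rw [he, ha0] at hsize <;> exact hsize
    · exfalso
      have hg1 : γ = 1 := by omega
      have hgO : ∀ X : Finset Ω, X.card = 3 → el v d false X ∈ O := fun X hX => by
        refine (cls false hX.le (hX.trans c3.symm)).2 ?_
        by_contra hc
        simp [γ, hc] at hg1
      rw [hg1] at hsize
      rcases (show a false + a true = 0 ∨ a false + a true = 1 ∨ a false + a true = 2 by omega) with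
          h | h | h <;> rw [h] at hsize <;>
        rcases (show b false + b true = 0 ∨ b false + b true = 1 ∨ b false + b true = 2 by omega) with
          h' | h' | h' <;> rw [h'] at hsize
      · exact bad 67 (by simp) (by rw [hsize]; norm_num)
      · exact bad 443 (by simp) (by rw [hsize]; norm_num)
      · exact bad 2003 (by simp) (by rw [hsize])
      · exact bad 521 (by simp) (by rw [hsize]; norm_num)
      · exact bad 13 (by simp) (by rw [hsize]; norm_num)
      · -- everything but one class
        obtain ⟨e, he, he'⟩ : ∃ e, a e = 1 ∧ a (!e) = 0 := by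
          rcases Nat.eq_zero_or_pos (a false) with z | z
          · exact ⟨true, by omega, z⟩
          · exact ⟨false, by omega, by show a true = 0; omega⟩
        have hball : ∀ η, b η = 1 := fun η => by
          have hb1 : ∀ x, b x ≤ 1 := fun x => by simp only [b]; split_ifs <;> norm_num
          have hbf := hb1 false
          have hbt := hb1 true
          cases η <;> omega
        have hnot : ∀ i, el v d (!e) {i} ∉ O := fun i hi => by
          exact absurd he' (by rw [show a (!e) = 1 from if_pos (el_mem_single S T (j := w₀) hi)]; norm_num)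
        refine not_big S (ha he) hnot fun x hx1 hxO => ?_
        obtain ⟨t, rfl⟩ := S.val_surjective x
        rcases t with ⟨f, X, hX⟩ | ⟨X, hX⟩
        · simp only [val] at hx1 hxO ⊢
          rcases (show X.card = 0 ∨ X.card = 1 ∨ X.card = 2 by omega) with c | c | c
          · rw [Finset.card_eq_zero.1 c] at hx1 hxO
            cases f with
            | false => exact absurd (by simp [el]) hx1
            | true => exact absurd (hd1.symm ▸ MulAction.mem_orbit_self d) hxO
          · obtain ⟨i, rfl⟩ := Finset.card_eq_one.1 c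
            refine ⟨i, ?_⟩
            by_cases hfe : f = !e
            · rw [hfe]
            · refine absurd (el_mem_single S T (j := i) (ha he)) ?_
              have hfe' : f = e := by cases f <;> cases e <;> simp_all
              rw [← hfe']
              exact hxO
          · exact absurd ((cls f (by omega) (c.trans (Finset.card_pair hw.symm).symm)).2 (hb (hball f))) hxO
        · simp only [val] at hxO
          exact absurd (hgO X hX) hxO
      · exact bad 317 (by simp) (by rw [hsize]; norm_num)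
      · exact bad 227 (by simp) (by rw [hsize]; norm_num)
      · refine not_all S T fun x hx => ?_
        have : O.ncard + 1 = Nat.card A := by rw [hsize, S.card_group]
        have hsub : O ⊆ {(1 : A)}ᶜ := fun z hz h => one_notMem (H := H) S (h ▸ hz)
        have he := Set.eq_of_subset_of_ncard_le hsub (by
          rw [Set.ncard_compl, Set.ncard_singleton]; omega)
        show x ∈ O; rw [he]; exact hx
  rcases hone with h | ⟨h1, h2, h3⟩
  · exact h
  · exfalso
    rw [h1, h2, h3] at hsize
    obtain ⟨x, hx, hxd⟩ := hne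
    obtain ⟨y, hy⟩ := Set.ncard_eq_one.1 hsize
    have hdy : d ∈ O := MulAction.mem_orbit_self d
    rw [hy, Set.mem_singleton_iff] at hx hdy
    exact hxd (hx.trans hdy.symm)

end Cfsg.Agent.TTLink.OrbitTwentyThree
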