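import Cfsg.Agent.TTLink.M22DoubleSplit
import Cfsg.Agent.TTLink.OrbitTwentyThree

/-!
The Thompson subgroup of a Sylow 2-subgroup of a perfect double cover of a group of type M(22).
-/

set_option autoImplicit false

namespace Cfsg.Agent.TTLink

open Cfsg.Agent.ThreeTransp45 Cfsg.Agent.SporB Cfsg.Agent.Modules
open scoped IsMulCommutative

namespace OrbitTwentyThree

theorem Sys.map {Ω A B : Type*} [Fintype Ω] [DecidableEq Ω] [CommGroup A] [CommGroup B] {v : Ω → A}
    {d : A} (S : Sys v d) (f : A ≃* B) : Sys (fun i => f (v i)) (f d) := by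
  have e : ∀ X : Finset Ω, ∏ i ∈ X, f (v i) = f (∏ i ∈ X, v i) := fun X => (map_prod f v X).symm
  refine ⟨S.card, fun i => by rw [← map_mul, S.sq, map_one], by rw [← map_mul, S.dsq, map_one],
    fun h => S.dne (f.injective (by rw [h, map_one])), fun X h1 h2 => ?_, fun X hX h => ?_,
    fun X hX => ?_, fun b => ?_⟩
  · rw [e]
    exact ⟨fun h => (S.indep X h1 h2).1 (f.injective (by rw [h, map_one])),
      fun h => (S.indep X h1 h2).2 (f.injective h)⟩
  · rw [e] at h ⊢
    exact congrArg f (S.six X hX (h.imp (fun h => f.injective (by rw [h, map_one])) fun h => f.injective h))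
  · obtain ⟨R, h1, h2, h3⟩ := S.hex X hX
    exact ⟨R, h1, h2, by rw [e, h3]⟩
  · obtain ⟨a, rfl⟩ := f.surjective b
    obtain ⟨X, h1, h2⟩ := S.gen a
    exact ⟨X, h1, by rw [e, ← map_mul]; exact h2.imp (congrArg f) (congrArg f)⟩

end OrbitTwentyThree

variable {X C : Type*} [Group X] [Group C] [Finite X] [Finite C] {E : Set X} {π : C →* X} {d : C}

namespace DCover

variable (K : DCover π d) (P : M22Prim E) {σ : X → C} (S : Sec E π σ) {W : Set X} (hW : MaxSet E W)
include K P hW

theorem maxSet_elemAb : Cfsg.IsElementaryAbelian 2 (Subgroup.closure W) := by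
  haveI hc : IsMulCommutative ↥(Subgroup.closure W) :=
    Subgroup.isMulCommutative_closure fun a ha b hb => (hW.comm a ha b hb).eq
  refine ⟨hc, fun a ha => ?_⟩
  induction ha using Subgroup.closure_induction with
  | mem y hy => rw [pow_two]; exact P.data.mul_self (hW.sub hy)
  | one => simp
  | mul p q hp hq h1 h2 =>
    have : Commute p q := congrArg Subtype.val (hc.is_comm.comm ⟨p, hp⟩ ⟨q, hq⟩)
    rw [this.mul_pow, h1, h2, one_mul]
  | inv p _ h1 => rw [inv_pow, h1, inv_one]

theorem maxSet_rep {x : X} (hx : x ∈ Subgroup.closure W) :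
    ∃ m, Fac E m ∧ InSet W m ∧ m.length ≤ 3 ∧ m.prod = x := by
  have h := K.maxSet_elemAb P hW
  obtain ⟨m, hm, hlen, hp⟩ := P.factor_three (x := x) (by rw [← pow_two]; exact h.2 x hx)
  refine ⟨m, hm, P.factor_mem hW hm hlen fun w hw => ?_, hlen, hp⟩
  rw [hp]
  exact congrArg Subtype.val (h.1.is_comm.comm ⟨w, Subgroup.subset_closure hw⟩ ⟨x, hx⟩)

/-- The preimage of the group generated by a maximal set is elementary abelian. -/
theorem comap_elemAb : Cfsg.IsElementaryAbelian 2 ((Subgroup.closure W).comap π) := by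
  obtain ⟨σ, S⟩ := K.exists_sec P
  have h := K.maxSet_elemAb P hW
  have rep : ∀ a ∈ (Subgroup.closure W).comap π, ∃ m, InSet W m ∧ (a = ev σ m ∨ a = ev σ m * d) := by
    intro a ha
    obtain ⟨m, -, hm, -, hp⟩ := K.maxSet_rep P hW ha
    exact ⟨m, hm, K.eq_or (by rw [K.map_ev P S fun y hy => hW.sub (hm y hy), hp])⟩
  have hcomm : ∀ m m', InSet W m → InSet W m' → Commute (ev σ m) (ev σ m') := fun m m' hm hm' =>
    Commute.list_prod_right _ _ fun z hz => (Commute.list_prod_right _ _ fun z' hz' => by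
      obtain ⟨u, hu, rfl⟩ := List.mem_map.1 hz
      obtain ⟨u', hu', rfl⟩ := List.mem_map.1 hz'
      exact K.sec_comm P S (hW.sub (hm' u hu)) (hW.sub (hm u' hu'))
        (hW.comm u (hm' u hu) u' (hm u' hu'))).symm
  refine ⟨⟨⟨fun a b => Subtype.ext ?_⟩⟩, fun a ha => ?_⟩
  · obtain ⟨m, hm, ea⟩ := rep a a.2
    obtain ⟨m', hm', eb⟩ := rep b b.2
    have hc := hcomm m m' hm hm'
    have hd : ∀ c, Commute c d := fun c => (K.central c).symm
    show ((a : C) * (b : C)) = (b : C) * (a : C)
    rcases ea with ea | ea <;> rcases eb with eb | eb <;> rw [ea, eb]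
    · exact hc.eq
    · exact (hc.mul_right (hd _)).eq
    · exact (hc.mul_left (hd _).symm).eq
    · exact ((hc.mul_right (hd _)).mul_left ((hd _).symm.mul_right (Commute.refl d))).eq
  · rw [pow_two]
    exact K.lift_sq P (by rw [← pow_two]; exact h.2 _ ha)

/-- Lifts of twenty-two commuting transpositions. -/
theorem sys (hS : Sec E π σ) [IsMulCommutative ↥((Subgroup.closure W).comap π)] [Fintype ↥W] [DecidableEq ↥W]
    (v : ↥W → ↥((Subgroup.closure W).comap π)) (hv : ∀ i, (v i : C) = σ i)
    (dA : ↥((Subgroup.closure W).comap π)) (hdA : (dA : C) = d) :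
    OrbitTwentyThree.Sys v dA := by
  classical
  let j : ↥((Subgroup.closure W).comap π) →* C := ((Subgroup.closure W).comap π).subtype
  have jinj : Function.Injective j := fun a b h => Subtype.ext h
  have coe : ∀ Y : Finset ↥W, j (∏ i ∈ Y, v i) = ev σ (Y.toList.map Subtype.val) := fun Y => by
    rw [← Finset.prod_map_toList, map_list_prod, List.map_map, ev, List.map_map]
    exact congrArg List.prod (List.map_congr_left fun i _ => hv i)
  have inW : ∀ Y : Finset ↥W, InSet W (Y.toList.map Subtype.val) := fun Y y hy => by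
    obtain ⟨i, -, rfl⟩ := List.mem_map.1 hy
    exact i.2
  have nd : ∀ Y : Finset ↥W, (Y.toList.map Subtype.val).Nodup := fun Y =>
    Y.nodup_toList.map Subtype.val_injective
  have len : ∀ Y : Finset ↥W, (Y.toList.map Subtype.val).length = Y.card := fun Y => by simp
  have mapY : ∀ Y : Finset ↥W, π (j (∏ i ∈ Y, v i)) = (Y.toList.map Subtype.val).prod := fun Y => by
    rw [coe, K.map_ev P hS fun y hy => hW.sub (inW Y y hy)]
  have inv : ∀ Y : Finset ↥W, ∏ i ∈ Y, v i = 1 ∨ ∏ i ∈ Y, v i = dA →
      (Y.toList.map Subtype.val).prod = 1 := fun Y h => by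
    rw [← mapY]
    rcases h with h | h <;> rw [h]
    · rw [map_one, map_one]
    · show π (dA : C) = 1
      rw [hdA, K.map_d]
  refine ⟨?_, fun i => jinj ?_, jinj ?_, fun h => ?_, fun Y hY h5 => ?_, fun Y hY h => jinj ?_,
    fun Y hY => ?_, fun a => ?_⟩
  · rw [← Nat.card_eq_fintype_card, Nat.card_coe_set_eq, hW.card]
  · rw [map_mul, map_one]
    show (v i : C) * (v i : C) = 1
    rw [hv, K.sec_sq P hS (hW.sub i.2)]
  · rw [map_mul, map_one]
    show (dA : C) * (dA : C) = 1
    rw [hdA, K.sq]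
  · exact K.ne (by rw [← hdA, h]; rfl)
  · obtain ⟨i, hi⟩ := hY
    have hne : (Y.toList.map Subtype.val).prod ≠ 1 :=
      P.hyp.indeps (hW.sub i.2) Y.card (Finset.card_pos.2 ⟨i, hi⟩) h5 _ (nd Y) (len Y)
        (fun y hy => hW.sub (inW Y y hy)) fun y hy z hz => hW.comm y (inW Y y hy) z (inW Y z hz)
    exact ⟨fun h => hne (inv Y (Or.inl h)), fun h => hne (inv Y (Or.inr h))⟩
  · rw [coe, show j dA = d from hdA]
    exact K.hexad_value P hS hW (nd Y) (inW Y) ((len Y).trans hY) (inv Y h)
  · obtain ⟨a, b, c, hab, hac, hbc, rfl⟩ := Finset.card_eq_three.1 hY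
    have hf := hW.fac a.2 b.2 c.2 (fun e => hab (Subtype.ext e)) (fun e => hac (Subtype.ext e))
      (fun e => hbc (Subtype.ext e))
    obtain ⟨s, hs, hl, hp, hm⟩ := P.hset_list hf
    have hsW : InSet W s := fun y hy => P.hset_subset hW a.2 b.2 c.2 ((hm y).1 hy)
    obtain ⟨ma, mb, mc⟩ := M22Prim.mem_hset_self hf
    set R : Finset ↥W := Finset.univ.filter fun i : ↥W => (i : X) ∈ s
    have hperm : (R.toList.map Subtype.val).Perm s := (List.perm_ext_iff_of_nodup (nd R) hs.nodup).2
      fun y => by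
        rw [List.mem_map]
        constructor
        · rintro ⟨i, hi, rfl⟩
          exact (Finset.mem_filter.1 (Finset.mem_toList.1 hi)).2
        · intro hy
          exact ⟨⟨y, hsW y hy⟩, Finset.mem_toList.2 (Finset.mem_filter.2 ⟨Finset.mem_univ _, hy⟩), rfl⟩
    have hR : R.card = 6 := by rw [← len R, hperm.length_eq, hl]
    refine ⟨R, ?_, hR, jinj ?_⟩
    · intro i hi
      simp only [Finset.mem_insert, Finset.mem_singleton] at hi
      refine Finset.mem_filter.2 ⟨Finset.mem_univ _, (hm _).2 ?_⟩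
      rcases hi with rfl | rfl | rfl <;> assumption
    · rw [coe, show j dA = d from hdA]
      refine K.hexad_value P hS hW (nd R) (inW R) ((len R).trans hR) ?_
      rw [fac_perm_prod (fun y hy z hz => hW.comm y (inW R y hy) z (inW R z hz)) hperm, hp]
  · obtain ⟨m, hm, hmW, hlen, hp⟩ := K.maxSet_rep P hW (a.2 : π (a : C) ∈ Subgroup.closure W)
    set Y : Finset ↥W := Finset.univ.filter fun i : ↥W => (i : X) ∈ m
    have hperm : (Y.toList.map Subtype.val).Perm m := (List.perm_ext_iff_of_nodup (nd Y) hm.nodup).2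
      fun y => by
        rw [List.mem_map]
        constructor
        · rintro ⟨i, hi, rfl⟩
          exact (Finset.mem_filter.1 (Finset.mem_toList.1 hi)).2
        · intro hy
          exact ⟨⟨y, hmW y hy⟩, Finset.mem_toList.2 (Finset.mem_filter.2 ⟨Finset.mem_univ _, hy⟩), rfl⟩
    refine ⟨Y, by rw [← len Y, hperm.length_eq]; exact hlen, ?_⟩
    have := K.eq_or (x := ev σ m) (y := (a : C)) (by rw [K.map_ev P hS fun y hy => hW.sub (hmW y hy), hp])
    rw [← K.ev_perm P hS hW (inW Y) hperm, ← coe] at this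
    rcases this with e | e
    · exact Or.inl (jinj e)
    · refine Or.inr (jinj ?_)
      rw [map_mul, show j dA = d from hdA, (K.central _).eq]
      exact e

end DCover

namespace DCover

variable (K : DCover π d) (P : M22Prim E) (T : Sylow 2 C)
include K P

/-- The Thompson subgroup of a Sylow 2-subgroup. -/
theorem thompson : ∃ W, MaxSet E W ∧
    Cfsg.thompsonSubgroupOf 2 (T : Subgroup C) = (Subgroup.closure W).comap π ∧
    ∀ B : Subgroup C, Cfsg.IsElementaryAbelian 2 B →
      Nat.card ↥((Subgroup.closure W).comap π) ≤ Nat.card ↥B →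
      ∃ c : C, B.map (MulAut.conj c).toMonoidHom = (Subgroup.closure W).comap π := by
  classical
  haveI : Fact (Nat.Prime 2) := ⟨Nat.prime_two⟩
  set TX : Sylow 2 X := Sylow.mapSurjective K.surj T
  set W : Set X := {x | x ∈ E ∧ x ∈ (TX : Subgroup X)} with hWdef
  have hW : MaxSet E W := ⟨fun x hx => hx.1,
    fun a ha b hb => P.data.commute_of_mem_pGroup TX.isPGroup' ha.1 hb.1 ha.2 hb.2,
    (P.sylow_transpositions TX).1⟩
  set J := (Subgroup.closure W).comap π
  have hd : d ∈ (T : Subgroup C) := by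
    have hp : IsPGroup 2 ↥(Subgroup.zpowers d) := fun z => ⟨1, Subtype.ext (by
      obtain ⟨k, hk⟩ := Subgroup.mem_zpowers_iff.1 z.2
      show (z : C) ^ (2 ^ 1) = 1
      rw [← hk, pow_one, pow_two, ← zpow_add, ← two_mul, zpow_mul, zpow_two, K.sq, one_zpow])⟩
    haveI hn : (Subgroup.zpowers d).Normal := ⟨fun z hz g => by
      obtain ⟨k, rfl⟩ := Subgroup.mem_zpowers_iff.1 hz
      rw [← ((K.central g).zpow_left k).eq, mul_inv_cancel_right]
      exact Subgroup.zpow_mem_zpowers d k⟩
    obtain ⟨R, hR⟩ := hp.exists_le_sylow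
    obtain ⟨c, hc⟩ := MulAction.exists_smul_eq C R T
    rw [← hc, Sylow.coe_subgroup_smul]
    refine ⟨d, hR (Subgroup.mem_zpowers d), ?_⟩
    show c * d * c⁻¹ = d
    rw [← (K.central c).eq, mul_inv_cancel_right]
  -- the preimage of the Sylow subgroup
  have hTX : ∀ c, π c ∈ (TX : Subgroup X) → c ∈ (T : Subgroup C) := fun c hc => by
    rw [Sylow.coe_mapSurjective] at hc
    obtain ⟨t, ht, e⟩ := hc
    rcases K.eq_or e with rfl | rfl
    · exact ht
    · exact mul_mem ht hd
  have hWT : Subgroup.closure W ≤ (TX : Subgroup X) := (Subgroup.closure_le _).2 fun x hx => hx.2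
  have hJT : J ≤ (T : Subgroup C) := fun c hc => hTX c (hWT hc)
  have hJ := K.comap_elemAb P hW
  have hEW := K.maxSet_elemAb P hW
  have hthm : Subgroup.closure W = Cfsg.thompsonSubgroupOf 2 (TX : Subgroup X) := P.thompson TX
  -- the largest elementary abelian subgroups
  have hmax : ∀ B : Subgroup X, B ≤ (TX : Subgroup X) → Cfsg.IsElementaryAbelian 2 B →
      Nat.card ↥(Subgroup.closure W) ≤ Nat.card ↥B → B = Subgroup.closure W := by
    intro B hB hBe hc
    obtain ⟨M, hM, hMmax⟩ := Set.exists_max_image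
      {B : Subgroup X | B ≤ (TX : Subgroup X) ∧ Cfsg.IsElementaryAbelian 2 B} (fun B => Nat.card ↥B)
      (Set.toFinite _) ⟨B, hB, hBe⟩
    have hMm : M ∈ maxElemAbIn 2 (TX : Subgroup X) := ⟨hM.1, hM.2, fun A h1 h2 => hMmax A ⟨h1, h2⟩⟩
    have hML : M ≤ Subgroup.closure W := hthm ▸ le_thompsonSubgroupOf hMm
    have hBm : B ∈ maxElemAbIn 2 (TX : Subgroup X) := ⟨hB, hBe, fun A h1 h2 =>
      (hMmax A ⟨h1, h2⟩).trans ((Subgroup.card_le_of_le hML).trans hc)⟩
    exact Subgroup.eq_of_le_of_card_ge (hthm ▸ le_thompsonSubgroupOf hBm) hc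
  have hcardJ : Nat.card ↥J = 2 * Nat.card ↥(Subgroup.closure W) := by
    have h2 : Nat.card ↥π.ker = 2 := by
      rw [show π.ker = Subgroup.zpowers d by
        ext c
        rw [MonoidHom.mem_ker, K.ker]
        constructor
        · rintro (h | h) <;> rw [h]
          exacts [one_mem _, Subgroup.mem_zpowers d]
        · intro hc
          obtain ⟨k, rfl⟩ := Subgroup.mem_zpowers_iff.1 hc
          rcases Int.even_or_odd k with ⟨j, rfl⟩ | ⟨j, rfl⟩
          · left; rw [← two_mul, zpow_mul, zpow_two, K.sq, one_zpow]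
          · right; rw [zpow_add_one, zpow_mul, zpow_two, K.sq, one_zpow, one_mul], Nat.card_zpowers]
      exact orderOf_eq_prime (by rw [pow_two, K.sq]) K.ne
    set f := π.subgroupComap (Subgroup.closure W)
    have hs : Function.Surjective f := π.subgroupComap_surjective_of_surjective _ K.surj
    have hker : f.ker = π.ker.subgroupOf J := by
      ext x
      exact Subtype.ext_iff
    have hle : π.ker ≤ J := fun c hc => by
      show π c ∈ Subgroup.closure W
      rw [MonoidHom.mem_ker.1 hc]
      exact one_mem _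
    rw [← Subgroup.card_mul_index f.ker, Subgroup.index_ker, MonoidHom.range_eq_top.2 hs,
      Subgroup.card_top, hker, Nat.card_congr (Subgroup.subgroupOfEquivOfLe hle).toEquiv, h2]
  have main : ∀ B : Subgroup C, B ≤ (T : Subgroup C) → Cfsg.IsElementaryAbelian 2 B →
      Nat.card ↥J ≤ Nat.card ↥B → B = J := by
    intro B hB hBe hc
    have hle : Nat.card ↥(Subgroup.closure W) ≤ Nat.card ↥(B.map π) := by
      have h1 := Subgroup.card_mul_index (π.subgroupMap B).ker
      rw [Subgroup.index_ker, MonoidHom.range_eq_top.2 (π.subgroupMap_surjective B),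
        Subgroup.card_top] at h1
      have h2 : Nat.card ↥(π.subgroupMap B).ker ≤ 2 := by
        refine le_trans (Nat.card_le_card_of_injective (fun z : ↥(π.subgroupMap B).ker =>
          (⟨(((z : ↥B) : C)), ?_⟩ : ↥({1, d} : Set C))) fun a b h => ?_) ?_
        · have := congrArg Subtype.val z.2
          rcases (K.ker _).1 this with e | e <;> simp [e]
        · exact Subtype.ext (Subtype.ext (congrArg (fun w : ↥({1, d} : Set C) => (w : C)) h))
        · rw [Nat.card_coe_set_eq]
          exact (Set.ncard_insert_le _ _).trans (by rw [Set.ncard_singleton])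
      rw [← h1] at hc
      have := hc.trans (Nat.mul_le_mul_right _ h2)
      omega
    have hBX : B.map π ≤ (TX : Subgroup X) := by
      rw [Sylow.coe_mapSurjective]; exact Subgroup.map_mono hB
    have he := hmax _ hBX (elemAb_map π hBe) hle
    refine Subgroup.eq_of_le_of_card_ge (fun c hc' => ?_) hc
    show π c ∈ Subgroup.closure W
    rw [← he]
    exact ⟨c, hc', rfl⟩
  refine ⟨W, hW, ?_, fun B hB hc => ?_⟩
  · rw [thompsonSubgroupOf_eq_sSup]
    refine le_antisymm (sSup_le fun B hB => ?_) (le_sSup ⟨hJT, hJ, fun B hB hBe => ?_⟩)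
    · exact (main B hB.1 hB.2.1 (hB.2.2 J hJT hJ)).le
    · by_contra hlt
      push Not at hlt
      rw [main B hB hBe hlt.le] at hlt
      exact lt_irrefl _ hlt
  · have hp : IsPGroup 2 ↥B := fun z => ⟨1, Subtype.ext (by
      show (z : C) ^ (2 ^ 1) = 1
      rw [pow_one]; exact hB.2 _ z.2)⟩
    obtain ⟨R, hR⟩ := hp.exists_le_sylow
    obtain ⟨c, hc'⟩ := MulAction.exists_smul_eq C R T
    refine ⟨c, main _ ?_ (elemAb_map _ hB) ?_⟩
    · rw [← hc', Sylow.coe_subgroup_smul]
      exact Subgroup.map_mono hR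
    · rw [Subgroup.card_map_of_injective (MulAut.conj c).injective]
      exact hc

end DCover

end Cfsg.Agent.TTLink
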