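import Mathlib.GroupTheory.Index
import Mathlib.GroupTheory.PGroup
import Mathlib.GroupTheory.Sylow
import Mathlib.GroupTheory.Perm.Cycle.Type
import Mathlib.Data.Finset.SymmDiff
import Mathlib.Algebra.BigOperators.Ring.Finset

/-!
An elementary abelian 2-group of automorphisms of a system of twenty-two involutions with hexads
(six with product one through any three, none fewer) has order less than the index of its fixed
points in the group they lie in.
-/

set_option autoImplicit false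

namespace Cfsg.Agent.TTLink.SteinerOffender

open Finset
open scoped symmDiff

variable {Ω E : Type*} [Fintype Ω] [DecidableEq Ω] [CommGroup E]

/-- Twenty-two involutions, any three of them in exactly one set of six with product one. -/
structure Sys (v : Ω → E) : Prop where
  card : Fintype.card Ω = 22
  sq : ∀ i, v i * v i = 1
  indep : ∀ S : Finset Ω, S.Nonempty → S.card ≤ 5 → ∏ i ∈ S, v i ≠ 1
  six : ∀ S : Finset Ω, S.card = 3 → ∃ H : Finset Ω, S ⊆ H ∧ H.card = 6 ∧ ∏ i ∈ H, v i = 1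
  uniq : ∀ S H H' : Finset Ω, S.card = 3 → S ⊆ H → S ⊆ H' → H.card = 6 → H'.card = 6 →
    ∏ i ∈ H, v i = 1 → ∏ i ∈ H', v i = 1 → H = H'

/-- A set of six with product one. -/
def IsHexad (v : Ω → E) (H : Finset Ω) : Prop := H.card = 6 ∧ ∏ i ∈ H, v i = 1

namespace Sys

variable {v : Ω → E} (S : Sys v)
include S

theorem prod_symm (X Y : Finset Ω) :
    (∏ i ∈ X, v i) * ∏ i ∈ Y, v i = ∏ i ∈ X ∆ Y, v i := by
  have hX := Finset.prod_inter_mul_prod_diff X Y v
  have hY := Finset.prod_inter_mul_prod_diff Y X v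
  rw [Finset.inter_comm Y X] at hY
  have h1 : (∏ i ∈ X ∩ Y, v i) * ∏ i ∈ X ∩ Y, v i = 1 := by
    rw [← Finset.prod_mul_distrib]
    exact Finset.prod_eq_one fun i _ => S.sq i
  have hdis : Disjoint (X \ Y) (Y \ X) := disjoint_sdiff_sdiff
  rw [← hX, ← hY, mul_mul_mul_comm, h1, one_mul, symmDiff_def, Finset.sup_eq_union,
    Finset.prod_union hdis]

theorem eq_of_prod_eq {X Y : Finset Ω} (h : ∏ i ∈ X, v i = ∏ i ∈ Y, v i)
    (hc : (X ∆ Y).card ≤ 5) : X = Y := by
  have h1 : ∏ i ∈ X ∆ Y, v i = 1 := by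
    rw [← S.prod_symm, h, S.prod_symm, symmDiff_self]
    rfl
  rcases (X ∆ Y).eq_empty_or_nonempty with e | e
  · exact symmDiff_eq_bot.1 e
  · exact absurd h1 (S.indep _ e hc)

theorem inj {i j : Ω} (h : v i = v j) : i = j :=
  Finset.singleton_injective (S.eq_of_prod_eq (X := {i}) (Y := {j}) (by simpa using h)
    (le_trans (Finset.card_le_card symmDiff_le_sup) (le_trans (Finset.card_union_le _ _) (by simp))))

theorem meet {H H' : Finset Ω} (h : IsHexad v H) (h' : IsHexad v H') {T : Finset Ω}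
    (hT : 3 ≤ T.card) (hTH : T ⊆ H) (hTH' : T ⊆ H') : H = H' := by
  obtain ⟨U, hU, hU3⟩ := Finset.exists_subset_card_eq hT
  exact S.uniq U H H' hU3 (hU.trans hTH) (hU.trans hTH') h.1 h'.1 h.2 h'.2

theorem hexad_of {T : Finset Ω} (hT : T.card = 3) : ∃ H, IsHexad v H ∧ T ⊆ H := by
  obtain ⟨H, h1, h2, h3⟩ := S.six T hT
  exact ⟨H, ⟨h2, h3⟩, h1⟩

open Classical in
theorem count {T : Finset Ω} (hT : T.card ≤ 2) :
    (Finset.univ.filter fun H => IsHexad v H ∧ T ⊆ H).card * Nat.choose (6 - T.card) (3 - T.card) =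
      Nat.choose (22 - T.card) (3 - T.card) := by
  set F := Finset.univ.filter fun H => IsHexad v H ∧ T ⊆ H
  have hF : ∀ H ∈ F, IsHexad v H ∧ T ⊆ H := fun H hH => (Finset.mem_filter.1 hH).2
  have hdis : (F : Set (Finset Ω)).PairwiseDisjoint
      fun H => Finset.powersetCard (3 - T.card) (H \ T) := by
    intro H hH H' hH' hne
    refine Finset.disjoint_left.2 fun U hU hU' => hne ?_
    rw [Finset.mem_powersetCard] at hU hU'
    have hd : Disjoint T U := Finset.disjoint_right.2 fun i hi => (Finset.mem_sdiff.1 (hU.1 hi)).2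
    refine S.meet (hF H hH).1 (hF H' hH').1 (T := T ∪ U) ?_
      (Finset.union_subset (hF H hH).2 (hU.1.trans Finset.sdiff_subset))
      (Finset.union_subset (hF H' hH').2 (hU'.1.trans Finset.sdiff_subset))
    rw [Finset.card_union_of_disjoint hd, hU.2]
    omega
  have hu : F.biUnion (fun H => Finset.powersetCard (3 - T.card) (H \ T)) =
      Finset.powersetCard (3 - T.card) (Finset.univ \ T) := by
    ext U
    simp only [Finset.mem_biUnion, Finset.mem_powersetCard]
    constructor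
    · rintro ⟨H, -, hU, hc⟩
      exact ⟨hU.trans (Finset.sdiff_subset_sdiff (Finset.subset_univ _) le_rfl), hc⟩
    · rintro ⟨hU, hc⟩
      have hd : Disjoint T U := Finset.disjoint_right.2 fun i hi => (Finset.mem_sdiff.1 (hU hi)).2
      obtain ⟨H, hH, hTU⟩ := S.hexad_of (T := T ∪ U)
        (by rw [Finset.card_union_of_disjoint hd, hc]; omega)
      exact ⟨H, Finset.mem_filter.2 ⟨Finset.mem_univ _, hH, Finset.union_subset_left hTU⟩,
        fun i hi => Finset.mem_sdiff.2 ⟨Finset.union_subset_right hTU hi,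
          (Finset.mem_sdiff.1 (hU hi)).2⟩, hc⟩
  have hcard := congrArg Finset.card hu
  rw [Finset.card_biUnion hdis, Finset.card_powersetCard, Finset.card_sdiff_of_subset
    (Finset.subset_univ _), Finset.card_univ, S.card] at hcard
  rw [← hcard, Finset.sum_congr rfl fun H hH => ?_, Finset.sum_const, smul_eq_mul]
  rw [Finset.card_powersetCard, Finset.card_sdiff_of_subset (hF H hH).2, (hF H hH).1.1]

open Classical in
theorem two_le_meet {R H : Finset Ω} (hR : IsHexad v R) (hH : IsHexad v H) {r : Ω} (hrR : r ∈ R)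
    (hrH : r ∈ H) : ∃ s ∈ R, s ≠ r ∧ s ∈ H := by
  let F : Finset Ω → Finset (Finset Ω) := fun T => Finset.univ.filter fun X => IsHexad v X ∧ T ⊆ X
  have mem : ∀ {T X}, X ∈ F T ↔ IsHexad v X ∧ T ⊆ X := fun {T X} => by simp [F]
  have h1 : (F {r}).card = 21 := by
    have h := S.count (T := {r}) (by simp)
    rw [Finset.card_singleton, show Nat.choose (6 - 1) (3 - 1) = 10 from rfl,
      show Nat.choose (22 - 1) (3 - 1) = 210 from rfl] at h
    change (F {r}).card * 10 = 210 at h
    omega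
  have h2 : ∀ s ∈ R.erase r, ((F {r, s}).erase R).card = 4 := by
    intro s hs
    obtain ⟨hsr, hsR⟩ := Finset.mem_erase.1 hs
    have hc : ({r, s} : Finset Ω).card = 2 := Finset.card_pair (Ne.symm hsr)
    have h := S.count (T := {r, s}) (by rw [hc])
    rw [hc, show Nat.choose (6 - 2) (3 - 2) = 4 from rfl,
      show Nat.choose (22 - 2) (3 - 2) = 20 from rfl] at h
    change (F {r, s}).card * 4 = 20 at h
    rw [Finset.card_erase_of_mem (mem.2 ⟨hR, by simp [Finset.insert_subset_iff, hrR, hsR]⟩)]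
    omega
  set U := (R.erase r).biUnion fun s => (F {r, s}).erase R
  have hU : U.card = 20 := by
    rw [Finset.card_biUnion, Finset.sum_congr rfl h2, Finset.sum_const,
      Finset.card_erase_of_mem hrR, hR.1, smul_eq_mul]
    intro s hs s' hs' hne
    refine Finset.disjoint_left.2 fun X hX hX' => ?_
    obtain ⟨hXR, hX⟩ := Finset.mem_erase.1 hX
    obtain ⟨hX1, hX2⟩ := mem.1 hX
    obtain ⟨-, hX3⟩ := mem.1 (Finset.mem_erase.1 hX').2
    simp only [Finset.coe_erase, Set.mem_diff, Finset.mem_coe, Set.mem_singleton_iff] at hs hs'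
    simp only [Finset.insert_subset_iff, Finset.singleton_subset_iff] at hX2 hX3
    exact hXR (S.meet hX1 hR (T := {r, s, s'})
      (by rw [Finset.card_insert_of_notMem (by simp [Ne.symm hs.2, Ne.symm hs'.2]),
        Finset.card_pair hne])
      (by simp [Finset.insert_subset_iff, hX2.1, hX2.2, hX3.2])
      (by simp [Finset.insert_subset_iff, hrR, hs.1, hs'.1]))
  by_contra hno
  push Not at hno
  have hHR : H ≠ R := by
    rintro rfl
    obtain ⟨s, hs, hsr⟩ := Finset.exists_mem_ne (by rw [hR.1]; norm_num : 1 < H.card) r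
    exact hno s hs hsr hs
  have hsub : insert H (insert R U) ⊆ F {r} := by
    intro X hX
    rcases Finset.mem_insert.1 hX with rfl | hX
    · exact mem.2 ⟨hH, by simpa using hrH⟩
    rcases Finset.mem_insert.1 hX with rfl | hX
    · exact mem.2 ⟨hR, by simpa using hrR⟩
    · obtain ⟨s, -, hs⟩ := Finset.mem_biUnion.1 hX
      obtain ⟨h, h'⟩ := mem.1 (Finset.mem_erase.1 hs).2
      exact mem.2 ⟨h, (Finset.singleton_subset_iff.2 (h' (by simp)))⟩
  have hle := Finset.card_le_card hsub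
  have hRU : R ∉ U := fun hX => by
    obtain ⟨s, -, hs⟩ := Finset.mem_biUnion.1 hX
    exact (Finset.mem_erase.1 hs).1 rfl
  have hHU : H ∉ insert R U := fun hX => by
    rcases Finset.mem_insert.1 hX with e | hX
    · exact hHR e
    · obtain ⟨s, hs, hs'⟩ := Finset.mem_biUnion.1 hX
      obtain ⟨-, h'⟩ := mem.1 (Finset.mem_erase.1 hs').2
      exact hno s (Finset.mem_erase.1 hs).2 (Finset.mem_erase.1 hs).1 (h' (by simp))
  rw [Finset.card_insert_of_notMem hHU, Finset.card_insert_of_notMem hRU, hU, h1] at hle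
  omega

end Sys

/-! ### Actions -/

/-- A group of permutations together with the endomorphisms it induces. -/
structure Act (v : Ω → E) (A : Subgroup (Equiv.Perm Ω)) (φ : ↥A → E →* E) : Prop where
  gen : ∀ (a : ↥A) (i : Ω), φ a (v i) = v ((a : Equiv.Perm Ω) i)
  sq : ∀ a ∈ A, a * a = 1

/-- The fixed points of a part of the group. -/
def fix {A : Subgroup (Equiv.Perm Ω)} (φ : ↥A → E →* E) (X : Set ↥A) : Subgroup E where
  carrier := {e | ∀ a ∈ X, φ a e = e}
  one_mem' := fun a _ => map_one _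
  mul_mem' := fun {x y} hx hy a ha => by rw [map_mul, hx a ha, hy a ha]
  inv_mem' := fun {x} hx a ha => by rw [map_inv, hx a ha]

section main

variable {v : Ω → E} (S : Sys v) {A : Subgroup (Equiv.Perm Ω)} {φ : ↥A → E →* E} (hφ : Act v A φ)
include S hφ

theorem pair_fixed {p q : Ω} (hpq : p ≠ q) {a : ↥A} (h : φ a (v p * v q) = v p * v q) :
    (a : Equiv.Perm Ω) p = p ∨ (a : Equiv.Perm Ω) p = q := by
  set a' := (a : Equiv.Perm Ω)
  rw [map_mul, hφ.gen, hφ.gen] at h
  have h2 : ({a' p, a' q} : Finset Ω) = {p, q} := by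
    refine S.eq_of_prod_eq ?_ ?_
    · rw [Finset.prod_pair (fun e => hpq (a'.injective e)), Finset.prod_pair hpq]
      exact h
    · refine le_trans (Finset.card_le_card symmDiff_le_sup) (le_trans (Finset.card_union_le _ _) ?_)
      have := Finset.card_le_two (a := a' p) (b := a' q)
      have := Finset.card_le_two (a := p) (b := q)
      omega
  have : a' p ∈ ({p, q} : Finset Ω) := h2 ▸ Finset.mem_insert_self _ _
  simpa using this

theorem hexad_image (a : ↥A) {H : Finset Ω} (h : IsHexad v H) :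
    IsHexad v (H.map (a : Equiv.Perm Ω).toEmbedding) := by
  refine ⟨by rw [Finset.card_map, h.1], ?_⟩
  rw [Finset.prod_map, ← map_one (φ a), ← h.2, map_prod]
  exact Finset.prod_congr rfl fun i _ => (hφ.gen a i).symm

theorem eq_of_two_fixed {H : Finset Ω} (h : IsHexad v H) (a : ↥A) {p q r : Ω} (hp : p ∈ H)
    (hq : q ∈ H) (hr : r ∈ H) (hpq : p ≠ q) (hpr : p ≠ r) (hqr : q ≠ r)
    (ep : (a : Equiv.Perm Ω) p = p) (eq : (a : Equiv.Perm Ω) q = q) (er : (a : Equiv.Perm Ω) r = r) :
    H.map (a : Equiv.Perm Ω).toEmbedding = H := by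
  refine S.meet (hexad_image S hφ a h) h (T := {p, q, r}) ?_ ?_
    (by simp [Finset.insert_subset_iff, hp, hq, hr])
  · rw [Finset.card_insert_of_notMem (by simp [hpq, hpr]), Finset.card_pair hqr]
  · intro i hi
    simp only [Finset.mem_insert, Finset.mem_singleton] at hi
    rcases hi with rfl | rfl | rfl
    exacts [Finset.mem_map.2 ⟨_, hp, ep⟩, Finset.mem_map.2 ⟨_, hq, eq⟩, Finset.mem_map.2 ⟨_, hr, er⟩]

variable {R : Finset Ω} (hR : IsHexad v R)
include hR

theorem semiregular (a : ↥A) (hfix : ∀ r ∈ R, (a : Equiv.Perm Ω) r = r) {g : Ω} (hg : g ∉ R)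
    (eg : (a : Equiv.Perm Ω) g = g) : a = 1 := by
  set a' := (a : Equiv.Perm Ω)
  suffices hall : ∀ h, a' h = h by
    exact Subtype.ext (Equiv.ext fun h => by simpa using hall h)
  intro h
  by_contra hh
  have hhR : h ∉ R := fun e => hh (hfix h e)
  have hhg : h ≠ g := fun e => hh (e ▸ eg)
  -- hexads through two members of `R`, the fixed point and `h`
  have key : ∀ r ∈ R, ∃ H, IsHexad v H ∧ H.map a'.toEmbedding = H ∧ r ∈ H ∧ g ∈ H ∧ h ∈ H ∧ H ≠ R := by
    intro r hr
    have hrg : r ≠ g := fun e => hg (e ▸ hr)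
    have hrh : r ≠ h := fun e => hhR (e ▸ hr)
    obtain ⟨H, hH, hsub⟩ := S.hexad_of (T := {r, g, h})
      (by rw [Finset.card_insert_of_notMem (by simp [hrg, hrh]), Finset.card_pair hhg.symm])
    simp only [Finset.insert_subset_iff, Finset.singleton_subset_iff] at hsub
    obtain ⟨s, hs, hsr, hsH⟩ := S.two_le_meet hR hH hr hsub.1
    exact ⟨H, hH, eq_of_two_fixed S hφ hH a hsub.1 hsH hsub.2.1 (Ne.symm hsr) hrg
      (fun e => hg (e ▸ hs)) (hfix r hr) (hfix s hs) eg, hsub.1, hsub.2.1, hsub.2.2,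
      fun e => hg (e ▸ hsub.2.1)⟩
  obtain ⟨r₁, hr₁⟩ : R.Nonempty := Finset.card_pos.1 (by rw [hR.1]; norm_num)
  obtain ⟨H₁, h₁, e₁, hr1, hg1, hh1, hne₁⟩ := key r₁ hr₁
  obtain ⟨r₂, hr₂, hr₂'⟩ : ∃ r ∈ R, r ∉ H₁ := by
    by_contra hsub
    push Not at hsub
    exact hne₁ (Finset.eq_of_subset_of_card_le hsub (by rw [h₁.1, hR.1])).symm
  obtain ⟨H₂, h₂, e₂, hr2, hg2, hh2, -⟩ := key r₂ hr₂
  have m1 : a' h ∈ H₁ := e₁ ▸ Finset.mem_map_of_mem _ hh1
  have m2 : a' h ∈ H₂ := e₂ ▸ Finset.mem_map_of_mem _ hh2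
  have hgh : a' h ≠ g := fun e => hhg (a'.injective (e.trans eg.symm))
  exact hr₂' (S.meet h₁ h₂ (T := {g, h, a' h})
    (by rw [Finset.card_insert_of_notMem (by simp [hhg.symm, hgh.symm]), Finset.card_pair (Ne.symm hh)])
    (by simp [Finset.insert_subset_iff, hg1, hh1, m1])
    (by simp [Finset.insert_subset_iff, hg2, hh2, m2]) ▸ hr2)

theorem fix_outside (a : ↥A) (hout : ∀ g, g ∉ R → (a : Equiv.Perm Ω) g = g) {r : Ω} (hr : r ∈ R) :
    (a : Equiv.Perm Ω) r = r := by
  set a' := (a : Equiv.Perm Ω)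
  by_contra hne
  have hrimg : ∀ i ∈ R, a' i ∈ R := fun i hi => by
    by_contra hni
    exact hni ((a'.injective (hout _ hni)).symm ▸ hi)
  obtain ⟨s, hs, hs'⟩ := Finset.exists_mem_notMem_of_card_lt_card (s := ({r, a' r} : Finset Ω)) (t := R)
    (lt_of_le_of_lt Finset.card_le_two (by rw [hR.1]; norm_num))
  simp only [Finset.mem_insert, Finset.mem_singleton, not_or] at hs'
  obtain ⟨g, -, hg⟩ := Finset.exists_mem_notMem_of_card_lt_card (s := R) (t := (Finset.univ : Finset Ω))
    (by rw [hR.1, Finset.card_univ, S.card]; norm_num)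
  have hrg : r ≠ g := fun e => hg (e ▸ hr)
  have hsg : s ≠ g := fun e => hg (e ▸ hs)
  obtain ⟨H, hH, hsub⟩ := S.hexad_of (T := {r, s, g})
    (by rw [Finset.card_insert_of_notMem (by simp [Ne.symm hs'.1, hrg]), Finset.card_pair hsg])
  simp only [Finset.insert_subset_iff, Finset.singleton_subset_iff] at hsub
  -- at most two of the six lie in `R`
  have h2 : (H ∩ R).card ≤ 2 := by
    by_contra h3
    exact hg ((S.meet hH hR (T := H ∩ R) (by omega) Finset.inter_subset_left
      Finset.inter_subset_right) ▸ hsub.2.2)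
  have hout4 : 4 ≤ (H \ R).card := by
    have := Finset.card_sdiff_add_card_inter H R
    rw [hH.1] at this
    omega
  obtain ⟨U, hU, hU3⟩ := Finset.exists_subset_card_eq (s := H \ R) (n := 3) (by omega)
  have e : H.map a'.toEmbedding = H := by
    refine S.meet (hexad_image S hφ a hH) hH (T := U) (by omega) ?_ (hU.trans Finset.sdiff_subset)
    intro i hi
    obtain ⟨hiH, hiR⟩ := Finset.mem_sdiff.1 (hU hi)
    exact Finset.mem_map.2 ⟨i, hiH, hout i hiR⟩
  have hm : a' r ∈ H := e ▸ Finset.mem_map_of_mem _ hsub.1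
  have h3 : ({r, a' r, s} : Finset Ω) ⊆ H ∩ R := by
    simp [Finset.insert_subset_iff, hsub.1, hr, hm, hrimg r hr, hsub.2.1, hs]
  have := Finset.card_le_card h3
  rw [Finset.card_insert_of_notMem (by simp [Ne.symm hne, Ne.symm hs'.1]),
    Finset.card_pair (Ne.symm hs'.2)] at this
  omega

end main

/-- The part fixing the hexad pointwise. -/
def fixSix (A : Subgroup (Equiv.Perm Ω)) (R : Finset Ω) : Subgroup ↥A where
  carrier := {a | ∀ r ∈ R, (a : Equiv.Perm Ω) r = r}
  one_mem' := fun r _ => rfl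
  mul_mem' := fun {a b} ha hb r hr => by
    show (a : Equiv.Perm Ω) ((b : Equiv.Perm Ω) r) = r
    rw [hb r hr, ha r hr]
  inv_mem' := fun {a} ha r hr => by
    show ((a : Equiv.Perm Ω)⁻¹) r = r
    exact Equiv.Perm.inv_eq_iff_eq.2 (ha r hr).symm



/-- A power of two above `m` is at least the next one. -/
theorem pow_two_bound {n : ℕ} (h : ∃ k, n = 2 ^ k) {m k : ℕ} (hm : m < n) (hk : 2 ^ k ≤ 2 * m + 1) :
    2 ^ k ≤ n := by
  obtain ⟨l, rfl⟩ := h
  rcases Nat.lt_or_ge l k with hlk | hlk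
  · have h2 : 2 ^ (l + 1) ≤ 2 ^ k := Nat.pow_le_pow_right (by norm_num) hlk
    rw [pow_succ] at h2
    omega
  · exact Nat.pow_le_pow_right (by norm_num) hlk

omit [Fintype Ω] [DecidableEq Ω] in
theorem index_two_pow [Finite E] (hE : IsPGroup 2 E) (H K : Subgroup E) : ∃ k, H.relIndex K = 2 ^ k := by
  haveI : Fact (Nat.Prime 2) := ⟨Nat.prime_two⟩
  exact (hE.to_subgroup K).index (H.subgroupOf K)

omit [Fintype Ω] [DecidableEq Ω] in
/-- Counting cosets hit by a family avoiding the subgroup. -/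
theorem card_lt_relIndex [Finite E] {ι : Type*} (H K : Subgroup E) (s : Finset ι) (f : ι → E)
    (hmem : ∀ i ∈ s, f i ∈ K) (hne : ∀ i ∈ s, f i ∉ H)
    (hinj : ∀ i ∈ s, ∀ j ∈ s, (f i)⁻¹ * f j ∈ H → i = j) : s.card < H.relIndex K := by
  classical
  haveI : Fintype (↥K ⧸ H.subgroupOf K) := Fintype.ofFinite _
  have e : H.relIndex K = Fintype.card (↥K ⧸ H.subgroupOf K) := by
    rw [← Nat.card_eq_fintype_card]
    rfl
  rw [e]
  let c : ↥s → ↥K ⧸ H.subgroupOf K := fun i => QuotientGroup.mk (⟨f i.1, hmem _ i.2⟩ : ↥K)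
  have hci : Function.Injective c := fun i j hij =>
    Subtype.ext (hinj _ i.2 _ j.2 (by simpa [c, QuotientGroup.eq, Subgroup.mem_subgroupOf] using hij))
  have hone : ∀ i, c i ≠ QuotientGroup.mk (1 : ↥K) := fun i h => hne _ i.2 (by
    simpa [c, QuotientGroup.eq, Subgroup.mem_subgroupOf] using h)
  have h := Fintype.card_lt_of_injective_of_notMem c hci
    (b := QuotientGroup.mk (1 : ↥K)) (by rintro ⟨i, hi⟩; exact hone i hi)
  simpa using h

omit [Fintype Ω] [DecidableEq Ω] in
theorem prod_mem' {v : Ω → E} (T R : Finset Ω) (h : T ⊆ R) :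
    ∏ i ∈ T, v i ∈ Subgroup.closure (v '' ↑R) :=
  Subgroup.prod_mem _ fun i hi => Subgroup.subset_closure ⟨i, h hi, rfl⟩

open Classical in
omit [Fintype Ω] in
theorem mem_span {v : Ω → E} (hsq : ∀ i, v i * v i = 1) {R : Finset Ω} {e : E}
    (he : e ∈ Subgroup.closure (v '' ↑R)) : ∃ T ⊆ R, ∏ i ∈ T, v i = e := by
  have inv : ∀ i, (v i)⁻¹ = v i := fun i => inv_eq_of_mul_eq_one_right (hsq i)
  induction he using Subgroup.closure_induction'' with
  | one => exact ⟨∅, Finset.empty_subset _, Finset.prod_empty⟩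
  | mem x hx =>
    obtain ⟨i, hi, rfl⟩ := hx
    exact ⟨{i}, Finset.singleton_subset_iff.2 hi, Finset.prod_singleton _ _⟩
  | inv_mem x hx =>
    obtain ⟨i, hi, rfl⟩ := hx
    exact ⟨{i}, Finset.singleton_subset_iff.2 hi, by rw [Finset.prod_singleton, inv]⟩
  | mul x y _ _ hx hy =>
    obtain ⟨X, hX, rfl⟩ := hx
    obtain ⟨Y, hY, rfl⟩ := hy
    refine ⟨X ∆ Y, symmDiff_le_sup.trans (Finset.union_subset hX hY), ?_⟩
    have hX' := Finset.prod_inter_mul_prod_diff X Y v
    have hY' := Finset.prod_inter_mul_prod_diff Y X v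
    rw [Finset.inter_comm Y X] at hY'
    have h1 : (∏ i ∈ X ∩ Y, v i) * ∏ i ∈ X ∩ Y, v i = 1 := by
      rw [← Finset.prod_mul_distrib]
      exact Finset.prod_eq_one fun i _ => hsq i
    rw [← hX', ← hY', mul_mul_mul_comm, h1, one_mul, symmDiff_def, Finset.sup_eq_union,
      Finset.prod_union disjoint_sdiff_sdiff]

theorem perm_six_card {α : Type*} [Fintype α] [DecidableEq α] (hα : Fintype.card α = 6)
    (B : Subgroup (Equiv.Perm α)) (hB : ∀ b ∈ B, b * b = 1) :
    Nat.card B = 1 ∨ Nat.card B = 2 ∨ Nat.card B = 4 ∨ Nat.card B = 8 := by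
  haveI : Fact (Nat.Prime 2) := ⟨Nat.prime_two⟩
  have hp : IsPGroup 2 ↥B := fun b => ⟨1, Subtype.ext (by simpa [pow_two] using hB _ b.2)⟩
  obtain ⟨k, hk⟩ := IsPGroup.iff_card.1 hp
  have hcard : Nat.card (Equiv.Perm α) = 720 := by
    rw [Nat.card_eq_fintype_card, Fintype.card_perm, hα]
    rfl
  have hd := Subgroup.card_subgroup_dvd_card B
  rw [hcard, hk] at hd
  have hk4 : k ≤ 4 := by
    by_contra h
    have h32 : 32 ∣ 720 := (Nat.pow_dvd_pow 2 (show 5 ≤ k by omega)).trans hd
    norm_num at h32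
  have hne : k ≠ 4 := by
    rintro rfl
    -- otherwise a Sylow 2-subgroup would have exponent two, against a 4-cycle
    have hfac : Nat.factorization 720 2 = 4 := by
      rw [show (720 : ℕ) = 2 ^ 4 * 45 by norm_num, Nat.factorization_mul (by norm_num) (by norm_num),
        Finsupp.add_apply, Nat.Prime.factorization_pow Nat.prime_two, Finsupp.single_eq_same,
        Nat.factorization_eq_zero_of_not_dvd (by norm_num)]
    let Q : Sylow 2 (Equiv.Perm α) := Sylow.ofCard B (by rw [hk, hcard, hfac])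
    let e : Fin 6 ≃ α := (Fintype.equivFinOfCardEq hα).symm
    set c : Equiv.Perm α := e.permCongrHom (List.formPerm [(0 : Fin 6), 1, 2, 3]) with hc
    have h0 : (List.formPerm [(0 : Fin 6), 1, 2, 3]) ^ 4 = 1 ∧
        List.formPerm [(0 : Fin 6), 1, 2, 3] * List.formPerm [(0 : Fin 6), 1, 2, 3] ≠ 1 := by
      decide
    have hcp : IsPGroup 2 ↥(Subgroup.zpowers c) := by
      obtain ⟨j, -, hj⟩ := (Nat.dvd_prime_pow Nat.prime_two).1
        (orderOf_dvd_of_pow_eq_one (x := c) (n := 2 ^ 2) (by rw [hc, ← map_pow, show (2 : ℕ) ^ 2 = 4 from rfl, h0.1, map_one]))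
      exact IsPGroup.iff_card.2 ⟨j, by rw [Nat.card_zpowers, hj]⟩
    obtain ⟨Q', hQ'⟩ := hcp.exists_le_sylow
    obtain ⟨g, hg⟩ := MulAction.exists_smul_eq (Equiv.Perm α) Q' Q
    have hmem : g * c * g⁻¹ ∈ B := by
      show g * c * g⁻¹ ∈ (Q : Subgroup (Equiv.Perm α))
      rw [← hg, Sylow.coe_subgroup_smul]
      exact ⟨c, hQ' (Subgroup.mem_zpowers c), rfl⟩
    have h := hB _ hmem
    rw [show g * c * g⁻¹ * (g * c * g⁻¹) = g * (c * c) * g⁻¹ by group, conj_eq_one_iff, hc, ← map_mul,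
      EmbeddingLike.map_eq_one_iff] at h
    exact h0.2 h
  interval_cases k <;> simp_all

open Classical in
/-- Elements determined by whether they move some points, each point having one possible image. -/
theorem card_le_pow {α : Type*} [Finite α] (B : Subgroup (Equiv.Perm α)) (hB : ∀ b ∈ B, b * b = 1)
    (P : Finset α) (huniq : ∀ p ∈ P, ∀ b ∈ B, ∀ c ∈ B, b p ≠ p → c p ≠ p → b p = c p)
    (hfaith : ∀ b ∈ B, (∀ p ∈ P, b p = p) → b = 1) : Nat.card B ≤ 2 ^ P.card := by
  have h := Nat.card_le_card_of_injective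
    (fun (b : ↥B) (p : ↥P) => decide ((b : Equiv.Perm α) p = p)) (fun b c hbc => by
      have heq : ∀ p ∈ P, (b : Equiv.Perm α) p = (c : Equiv.Perm α) p := fun p hp => by
        have hb := congrFun hbc ⟨p, hp⟩
        simp only [decide_eq_decide] at hb
        by_cases h : (b : Equiv.Perm α) p = p
        · rw [h, hb.1 h]
        · exact huniq p hp _ b.2 _ c.2 h (fun e => h (hb.2 e))
      have h1 := hfaith ((c : Equiv.Perm α) * b) (B.mul_mem c.2 b.2) fun p hp => by
        rw [Equiv.Perm.mul_apply, heq p hp, ← Equiv.Perm.mul_apply, hB _ c.2]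
        rfl
      exact Subtype.ext (mul_left_cancel (h1.trans (hB _ c.2).symm)))
  simpa [Nat.card_fun, Nat.card_eq_fintype_card] using h

open Classical in
/-- The bound inside the six. -/
theorem six_bound [Finite E] {α : Type*} [Fintype α] [DecidableEq α] (hα : Fintype.card α = 6)
    (B : Subgroup (Equiv.Perm α)) (hB : ∀ b ∈ B, b * b = 1) (F M : Subgroup E) (hE : IsPGroup 2 E)
    (w : α → E) (hw : ∀ p, w p ∈ M) (hsq : ∀ p, w p * w p = 1)
    (hone : ∀ p, w p ∈ F → ∀ b ∈ B, b p = p)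
    (htwo : ∀ p q, p ≠ q → w p * w q ∈ F → ∀ b ∈ B, b p = p ∨ b p = q)
    (hthree : ∀ p q r, p ≠ q → p ≠ r → q ≠ r → w p * (w q * w r) ∈ F → ∀ b ∈ B, b p = p →
      b q = p ∨ b q = q ∨ b q = r) :
    Nat.card B ≤ F.relIndex M := by
  have inv : ∀ p, (w p)⁻¹ = w p := fun p => inv_eq_of_mul_eq_one_right (hsq p)
  have hp := index_two_pow hE F M
  have hpos : 0 < F.relIndex M := by
    obtain ⟨k, hk⟩ := hp
    rw [hk]
    positivity
  have four : ∀ f : Fin 4 → E, (∀ i, f i ∈ M) → (∀ i, f i ∉ F) →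
      (∀ i j, i < j → (f i)⁻¹ * f j ∉ F) → 8 ≤ F.relIndex M := by
    intro f h1 h2 h3
    refine pow_two_bound hp (k := 3) (card_lt_relIndex F M Finset.univ f (fun i _ => h1 i)
      (fun i _ => h2 i) fun i _ j _ h => ?_) (by simp)
    rcases lt_trichotomy i j with l | l | l
    · exact absurd h (h3 i j l)
    · exact l
    · exact absurd (by simpa using F.inv_mem h) (h3 j i l)
  -- an orbit with four points
  by_cases hbig : ∃ i, ∃ b ∈ B, ∃ c ∈ B, b i ≠ i ∧ c i ≠ i ∧ b i ≠ c i
  · obtain ⟨i, b, hb, c, hc, hbi, hci, hbc⟩ := hbig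
    have h8 : Nat.card B ≤ 8 := by
      rcases perm_six_card hα B hB with e | e | e | e <;> omega
    refine h8.trans ?_
    set f : Fin 4 → α := ![i, b i, c i, b (c i)]
    have sq : ∀ {x : Equiv.Perm α}, x ∈ B → ∀ y, x (x y) = y := fun hx y => by
      rw [← Equiv.Perm.mul_apply, hB _ hx]; rfl
    have comm : ∀ y, b (c y) = c (b y) := fun y => by
      have h := congrArg (fun σ : Equiv.Perm α => c (b (σ y))) (hB _ (B.mul_mem hb hc))
      simp only [Equiv.Perm.mul_apply, sq hb, sq hc, Equiv.Perm.one_apply] at h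
      exact h
    have hd : b (c i) ≠ i := fun e => hbc (by rw [← sq hb (c i), e])
    have hinj : Function.Injective f := by
      intro p q h
      have n4 : b (c i) ≠ b i := fun e => hci (b.injective e)
      have n5 : b (c i) ≠ c i := fun e => hbi (c.injective ((comm i).symm.trans e))
      fin_cases p <;> fin_cases q <;> simp [f] at h ⊢ <;>
        first
          | exact absurd h (Ne.symm hbi)
          | exact absurd h (Ne.symm hci)
          | exact absurd h (Ne.symm hd)
          | exact absurd h hbi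
          | exact absurd h hci
          | exact absurd h hd
          | exact absurd h hbc
          | exact absurd h (Ne.symm hbc)
          | exact absurd h n4
          | exact absurd h (Ne.symm n4)
          | exact absurd h n5
          | exact absurd h (Ne.symm n5)
    -- everything is reached from every point
    have horb : ∀ p q, ∃ x ∈ B, x (f p) = f q := by
      intro p q
      have h1 : ∀ r, ∃ x ∈ B, x i = f r := by
        intro r
        fin_cases r
        exacts [⟨1, B.one_mem, rfl⟩, ⟨b, hb, rfl⟩, ⟨c, hc, rfl⟩, ⟨b * c, B.mul_mem hb hc, rfl⟩]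
      obtain ⟨x, hx, ex⟩ := h1 p
      obtain ⟨y, hy, ey⟩ := h1 q
      exact ⟨y * x, B.mul_mem hy hx, by rw [Equiv.Perm.mul_apply, ← ex, sq hx, ey]⟩
    refine four (fun r => w (f r)) (fun r => hw _) (fun r h => ?_) fun p q hpq h => ?_
    · obtain ⟨s, hs⟩ := exists_ne r
      obtain ⟨x, hx, ex⟩ := horb r s
      exact hs (hinj (ex.symm.trans (hone _ h x hx)))
    · rw [inv] at h
      obtain ⟨s, hs⟩ := Finset.exists_mem_notMem_of_card_lt_card (s := ({p, q} : Finset (Fin 4)))
        (t := Finset.univ) (lt_of_le_of_lt Finset.card_le_two (by simp))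
      simp only [Finset.mem_insert, Finset.mem_singleton, not_or] at hs
      obtain ⟨x, hx, ex⟩ := horb p s
      rcases htwo _ _ (fun e => hpq.ne (hinj e)) h x hx with e | e
      · exact hs.2.1 (hinj (ex.symm.trans e))
      · exact hs.2.2 (hinj (ex.symm.trans e))
  push Not at hbig
  have huniq : ∀ p, ∀ b ∈ B, ∀ c ∈ B, b p ≠ p → c p ≠ p → b p = c p := hbig
  -- at most three orbits of length two
  by_cases h0 : ∀ b ∈ B, b = 1
  · have h := card_le_pow B hB ∅ (by simp) (fun b hb _ => h0 b hb)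
    rw [Finset.card_empty, pow_zero] at h
    omega
  push Not at h0
  obtain ⟨b₁, hb₁, hb₁'⟩ := h0
  obtain ⟨i₁, hi₁⟩ : ∃ i, b₁ i ≠ i := by
    by_contra h
    push Not at h
    exact hb₁' (Equiv.ext h)
  have moved_not : ∀ p, ∀ b ∈ B, b p ≠ p → w p ∉ F := fun p b hb h hF => h (hone p hF b hb)
  by_cases h1 : ∀ b ∈ B, b i₁ = i₁ → b = 1
  · have h := card_le_pow B hB {i₁} (by simpa using huniq i₁) (fun b hb h => h1 b hb (h _ (by simp)))
    refine h.trans (pow_two_bound hp (card_lt_relIndex F M {i₁} w (fun i _ => hw i) ?_ ?_) (by simp))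
    · intro i hi
      rw [Finset.mem_singleton.1 hi]
      exact moved_not _ _ hb₁ hi₁
    · intro i hi j hj _
      rw [Finset.mem_singleton.1 hi, Finset.mem_singleton.1 hj]
  push Not at h1
  obtain ⟨b₂, hb₂, hb₂i, hb₂'⟩ := h1
  obtain ⟨i₂, hi₂⟩ : ∃ i, b₂ i ≠ i := by
    by_contra h
    push Not at h
    exact hb₂' (Equiv.ext h)
  have h12 : i₁ ≠ i₂ := fun e => hi₂ (e ▸ hb₂i)
  have swap : ∀ {p q}, p ≠ q → ∀ {b}, b ∈ B → b q ≠ q → b p = p → w p * w q ∉ F := fun {p q} hpq b hb hq hp' h => by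
    rcases htwo q p hpq.symm (by rwa [mul_comm]) b hb with e | e
    · exact hq e
    · exact hpq.symm (b.injective (e.trans hp'.symm))
  have n12 : w i₁ * w i₂ ∉ F := swap h12 hb₂ hi₂ hb₂i
  by_cases h2 : ∀ b ∈ B, b i₁ = i₁ → b i₂ = i₂ → b = 1
  · have h := card_le_pow B hB {i₁, i₂} (fun p _ => huniq p)
      (fun b hb h => h2 b hb (h _ (by simp)) (h _ (by simp)))
    rw [Finset.card_pair h12] at h
    refine h.trans (pow_two_bound hp (card_lt_relIndex F M {i₁, i₂} w (fun i _ => hw i) ?_ ?_) ?_)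
    · simp [moved_not _ _ hb₁ hi₁, moved_not _ _ hb₂ hi₂]
    · intro i hi j hj h
      simp only [Finset.mem_insert, Finset.mem_singleton] at hi hj
      rw [inv] at h
      rcases hi with rfl | rfl <;> rcases hj with rfl | rfl
      · rfl
      · exact absurd h n12
      · exact absurd (by rwa [mul_comm]) n12
      · rfl
    · rw [Finset.card_pair h12]; norm_num
  push Not at h2
  obtain ⟨b₃, hb₃, hb₃i, hb₃j, hb₃'⟩ := h2
  obtain ⟨i₃, hi₃⟩ : ∃ i, b₃ i ≠ i := by
    by_contra h
    push Not at h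
    exact hb₃' (Equiv.ext h)
  have h13 : i₁ ≠ i₃ := fun e => hi₃ (e ▸ hb₃i)
  have h23 : i₂ ≠ i₃ := fun e => hi₃ (e ▸ hb₃j)
  have h8 : Nat.card B ≤ 8 := by
    rcases perm_six_card hα B hB with e | e | e | e <;> omega
  refine h8.trans ?_
  have n123 : w i₁ * (w i₂ * w i₃) ∉ F := fun h => by
    rcases hthree _ _ _ h12 h13 h23 h b₂ hb₂ hb₂i with e | e | e
    · exact h12.symm (b₂.injective (e.trans hb₂i.symm))
    · exact hi₂ e
    · refine hi₃ ?_
      have e' : b₂ i₃ = i₂ := by rw [← e, ← Equiv.Perm.mul_apply, hB _ hb₂]; rfl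
      exact absurd (b₃.injective ((huniq i₃ b₃ hb₃ b₂ hb₂ hi₃ (e' ▸ h23)).trans
        (e'.trans hb₃j.symm))) h23.symm
  refine four ![w i₁, w i₂, w i₃, w i₁ * w i₂] ?_ ?_ ?_
  · intro i
    fin_cases i
    exacts [hw _, hw _, hw _, M.mul_mem (hw _) (hw _)]
  · intro i
    fin_cases i
    exacts [moved_not _ _ hb₁ hi₁, moved_not _ _ hb₂ hi₂, moved_not _ _ hb₃ hi₃, n12]
  · intro i j hij
    match i, j, hij with
    | 0, 1, _ =>
      show (w i₁)⁻¹ * w i₂ ∉ F
      rw [inv]; exact n12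
    | 0, 2, _ =>
      show (w i₁)⁻¹ * w i₃ ∉ F
      rw [inv]; exact swap h13 hb₃ hi₃ hb₃i
    | 0, 3, _ =>
      show (w i₁)⁻¹ * (w i₁ * w i₂) ∉ F
      rw [inv_mul_cancel_left]; exact moved_not _ _ hb₂ hi₂
    | 1, 2, _ =>
      show (w i₂)⁻¹ * w i₃ ∉ F
      rw [inv]; exact swap h23 hb₃ hi₃ hb₃j
    | 1, 3, _ =>
      show (w i₂)⁻¹ * (w i₁ * w i₂) ∉ F
      rw [mul_comm (w i₁), inv_mul_cancel_left]; exact moved_not _ _ hb₁ hi₁
    | 2, 3, _ =>
      show (w i₃)⁻¹ * (w i₁ * w i₂) ∉ F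
      rw [inv, mul_comm, mul_assoc]; exact n123
    | 0, 0, h | 1, 0, h | 1, 1, h | 2, 0, h | 2, 1, h | 2, 2, h | 3, 0, h | 3, 1, h | 3, 2, h | 3, 3, h =>
      exact absurd h (by decide)

open Classical in
/-- The order of the group is less than the index of its fixed points. -/
theorem card_lt_index [Finite E] {v : Ω → E} (S : Sys v) {A : Subgroup (Equiv.Perm Ω)}
    {φ : ↥A → E →* E} (hφ : Act v A φ) (hE : IsPGroup 2 E) (hA : A ≠ ⊥) {R : Finset Ω}
    (hR : IsHexad v R) (hRinv : ∀ a ∈ A, ∀ r ∈ R, a r ∈ R) :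
    Nat.card ↥A < (fix φ Set.univ).index := by
  haveI : Fact (Nat.Prime 2) := ⟨Nat.prime_two⟩
  set F := fix φ Set.univ
  set SR := Subgroup.closure (v '' ↑R)
  have asq : ∀ (a : ↥A) y, (a : Equiv.Perm Ω) ((a : Equiv.Perm Ω) y) = y := fun a y => by
    rw [← Equiv.Perm.mul_apply, hφ.sq _ a.2]; rfl
  have hout : ∀ (a : ↥A) g, g ∉ R → (a : Equiv.Perm Ω) g ∉ R := fun a g hg h =>
    hg (asq a g ▸ hRinv _ a.2 _ h)
  -- the group induced on the six
  let res : ↥A →* Equiv.Perm {i // i ∈ R} :=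
    { toFun := fun a => (a : Equiv.Perm Ω).subtypePerm fun i => ⟨fun h => by
        have h2 := hRinv _ a.2 _ h
        rwa [asq] at h2, fun h => hRinv _ a.2 _ h⟩
      map_one' := Equiv.ext fun _ => rfl
      map_mul' := fun _ _ => Equiv.ext fun _ => rfl }
  have happ : ∀ (a : ↥A) (i : {i // i ∈ R}), ((res a i : {i // i ∈ R}) : Ω) = (a : Equiv.Perm Ω) i :=
    fun a i => rfl
  set K := fixSix A R
  have hker : res.ker = K := by
    ext a
    constructor
    · intro h r hr
      have := congrArg (fun σ : Equiv.Perm {i // i ∈ R} => ((σ ⟨r, hr⟩ : {i // i ∈ R}) : Ω)) h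
      simpa [happ] using this
    · intro h
      exact MonoidHom.mem_ker.2 (Equiv.ext fun i => Subtype.ext (by rw [happ]; exact h i i.2))
  have hAcard : Nat.card ↥A = Nat.card ↥res.range * Nat.card ↥K := by
    rw [← hker, ← Subgroup.index_ker, mul_comm]
    exact (Subgroup.card_mul_index _).symm
  have inv2 : ∀ i, (v i)⁻¹ = v i := fun i => inv_eq_of_mul_eq_one_right (S.sq i)
  have hSR : ∀ i ∈ R, v i ∈ SR := fun i hi => Subgroup.subset_closure ⟨i, hi, rfl⟩
  -- the six
  have hs : Nat.card ↥res.range ≤ F.relIndex SR := by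
    refine six_bound (by rw [Fintype.card_coe, hR.1]) _ ?_ F SR hE (fun i => v i) (fun i => hSR _ i.2)
      (fun i => S.sq _) ?_ ?_ ?_
    · rintro _ ⟨a, rfl⟩
      rw [← map_mul, show a * a = 1 from Subtype.ext (hφ.sq _ a.2), map_one]
    · rintro p hp _ ⟨a, rfl⟩
      exact Subtype.ext (S.inj ((hφ.gen a p).symm.trans (hp a trivial)))
    · rintro p q hpq h _ ⟨a, rfl⟩
      exact (pair_fixed S hφ (fun e => hpq (Subtype.ext e)) (h a trivial)).imp Subtype.ext Subtype.ext
    · rintro p q r hpq hpr hqr h _ ⟨a, rfl⟩ hp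
      have hp' : (a : Equiv.Perm Ω) p = p := congrArg Subtype.val hp
      have h' := h a trivial
      rw [map_mul, map_mul, hφ.gen, hφ.gen, hφ.gen] at h'
      have c3 : ∀ {x y z : Ω}, x ≠ y → x ≠ z → y ≠ z → ∏ i ∈ ({x, y, z} : Finset Ω), v i = v x * (v y * v z) :=
        fun {x y z} h1 h2 h3 => by
          rw [Finset.prod_insert (by simp [h1, h2]), Finset.prod_pair h3]
      have e : ({(p : Ω), (a : Equiv.Perm Ω) q, (a : Equiv.Perm Ω) r} : Finset Ω) = {(p : Ω), (q : Ω), (r : Ω)} := by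
        have npq : (p : Ω) ≠ q := fun e => hpq (Subtype.ext e)
        have npr : (p : Ω) ≠ r := fun e => hpr (Subtype.ext e)
        have nqr : (q : Ω) ≠ r := fun e => hqr (Subtype.ext e)
        refine S.eq_of_prod_eq ?_ ?_
        · rw [c3 (fun e => npq ((a : Equiv.Perm Ω).injective (hp'.trans e)))
            (fun e => npr ((a : Equiv.Perm Ω).injective (hp'.trans e)))
            (fun e => nqr ((a : Equiv.Perm Ω).injective e)), c3 npq npr nqr]
          rwa [hp'] at h'
        · refine le_trans (Finset.card_le_card (t := ({(a : Equiv.Perm Ω) q, (a : Equiv.Perm Ω) r} : Finset Ω) ∪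
            {(q : Ω), (r : Ω)}) ?_) (le_trans (Finset.card_union_le _ _) ?_)
          · intro i hi
            simp only [Finset.mem_symmDiff, Finset.mem_insert, Finset.mem_singleton, Finset.mem_union] at hi ⊢
            tauto
          · have := Finset.card_le_two (a := (a : Equiv.Perm Ω) q) (b := (a : Equiv.Perm Ω) r)
            have := Finset.card_le_two (a := (q : Ω)) (b := (r : Ω))
            omega
      have hm : (a : Equiv.Perm Ω) q ∈ ({(p : Ω), (q : Ω), (r : Ω)} : Finset Ω) := e ▸ by simp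
      simp only [Finset.mem_insert, Finset.mem_singleton] at hm
      exact hm.imp Subtype.ext (Or.imp Subtype.ext Subtype.ext)
  have hpos : 0 < F.relIndex SR := lt_of_lt_of_le Nat.card_pos hs
  -- any intermediate group of index at least twice the kernel will do
  suffices ∃ M : Subgroup E, F ≤ M ∧ SR ≤ M ∧ 2 * Nat.card ↥K ≤ M.index by
    obtain ⟨M, hFM, hRM, hM⟩ := this
    have h1 : F.relIndex SR ≤ F.relIndex M :=
      Subgroup.relIndex_le_of_le_right hRM Subgroup.FiniteIndex.index_ne_zero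
    rw [← Subgroup.relIndex_mul_index hFM, hAcard]
    have hKpos : 0 < Nat.card ↥K := Nat.card_pos
    calc Nat.card ↥res.range * Nat.card ↥K < Nat.card ↥res.range * (2 * Nat.card ↥K) :=
          Nat.mul_lt_mul_of_pos_left (by omega) Nat.card_pos
      _ ≤ F.relIndex M * M.index := Nat.mul_le_mul (hs.trans h1) hM
  have hO : (Finset.univ \ R).card = 16 := by
    rw [Finset.card_sdiff_of_subset (Finset.subset_univ _), Finset.card_univ, S.card, hR.1]
  have idx : ∀ {M : Subgroup E}, ∃ k, M.relIndex ⊤ = 2 ^ k := fun {M} => index_two_pow hE M ⊤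
  by_cases hK : K = ⊥
  · refine ⟨F ⊔ SR, le_sup_left, le_sup_right, ?_⟩
    rw [hK, Subgroup.card_bot, mul_one, ← Subgroup.relIndex_top_right]
    obtain ⟨g, hg, a, ha⟩ : ∃ g, g ∉ R ∧ ∃ a : ↥A, (a : Equiv.Perm Ω) g ≠ g := by
      by_contra h
      push Not at h
      refine hA (le_bot_iff.1 fun a ha => Subgroup.mem_bot.2 (Equiv.ext fun i => ?_))
      by_cases hi : i ∈ R
      · exact fix_outside S hφ hR ⟨a, ha⟩ (fun g hg => h g hg ⟨a, ha⟩) hi
      · exact h i hi ⟨a, ha⟩
    refine pow_two_bound idx (k := 1) (card_lt_relIndex _ ⊤ {g} v (fun _ _ => trivial) ?_ ?_) (by simp)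
    · intro i hi hmem
      rw [Finset.mem_singleton.1 hi] at hmem
      obtain ⟨f, hf, s, hs', e⟩ := Subgroup.mem_sup.1 hmem
      obtain ⟨T, hT, rfl⟩ := mem_span S.sq hs'
      have h1 := congrArg (φ a) e
      rw [map_mul, hf a trivial, hφ.gen, map_prod, Finset.prod_congr rfl fun i _ => hφ.gen a i] at h1
      set T' := T.map (a : Equiv.Perm Ω).toEmbedding
      have hT'R : T' ⊆ R := fun i hi => by
        obtain ⟨j, hj, rfl⟩ := Finset.mem_map.1 hi
        exact hRinv _ a.2 _ (hT hj)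
      have h2 : ∏ i ∈ ({g, (a : Equiv.Perm Ω) g} : Finset Ω), v i = ∏ i ∈ T ∆ T', v i := by
        rw [Finset.prod_pair (Ne.symm ha), ← S.prod_symm, ← h1, ← e, Finset.prod_map, mul_mul_mul_comm,
          show f * f = 1 from ?_, one_mul]
        · rfl
        · have hfT : f = v g * ∏ i ∈ T, v i := by
            have hh : (∏ i ∈ T, v i) * ∏ i ∈ T, v i = 1 := by
              rw [← Finset.prod_mul_distrib]; exact Finset.prod_eq_one fun i _ => S.sq i
            rw [← e, mul_assoc, hh, mul_one]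
          have hh : (∏ i ∈ T, v i) * ∏ i ∈ T, v i = 1 := by
            rw [← Finset.prod_mul_distrib]; exact Finset.prod_eq_one fun i _ => S.sq i
          rw [hfT, mul_mul_mul_comm, S.sq, hh, one_mul]
      have hU : T ∆ T' ⊆ R := symmDiff_le_sup.trans (Finset.union_subset hT hT'R)
      obtain ⟨U, hUR, hU3, hUp⟩ : ∃ U ⊆ R, U.card ≤ 3 ∧ ∏ i ∈ U, v i = ∏ i ∈ T ∆ T', v i := by
        by_cases h3 : (T ∆ T').card ≤ 3
        · exact ⟨_, hU, h3, rfl⟩
        · refine ⟨R \ (T ∆ T'), Finset.sdiff_subset, ?_, ?_⟩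
          · rw [Finset.card_sdiff_of_subset hU, hR.1]; omega
          · have h := Finset.prod_sdiff (f := v) hU
            rw [hR.2] at h
            rw [eq_inv_of_mul_eq_one_left h, ← Finset.prod_inv_distrib]
            exact Finset.prod_congr rfl fun i _ => inv2 i
      have heq := S.eq_of_prod_eq (h2.trans hUp.symm) (le_trans (Finset.card_le_card symmDiff_le_sup)
        (le_trans (Finset.card_union_le _ _) (by
          have := Finset.card_le_two (a := g) (b := (a : Equiv.Perm Ω) g)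
          omega)))
      exact hg (hUR (heq ▸ Finset.mem_insert_self _ _))
    · intro i hi j hj _
      rw [Finset.mem_singleton.1 hi, Finset.mem_singleton.1 hj]
  refine ⟨fix φ (K : Set ↥A), fun e he a _ => he a trivial, ?_, ?_⟩
  · refine (Subgroup.closure_le _).2 ?_
    rintro _ ⟨i, hi, rfl⟩ a ha
    rw [hφ.gen, ha i hi]
  rw [← Subgroup.relIndex_top_right]
  have hmoved : ∀ g, g ∉ R → v g ∉ fix φ (K : Set ↥A) := fun g hg h => by
    obtain ⟨⟨k, hk⟩, hk1'⟩ := Subgroup.ne_bot_iff_exists_ne_one.1 hK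
    have hk1 : k ≠ 1 := fun e => hk1' (Subtype.ext e)
    exact hk1 (semiregular S hφ hR k hk hg (S.inj ((hφ.gen k g).symm.trans (h k hk))))
  -- pairs fixed by the kernel
  have hpairK : ∀ {p q}, p ∉ R → p ≠ q → (v p)⁻¹ * v q ∈ fix φ (K : Set ↥A) →
      ∀ k : ↥K, ((k : ↥A) : Equiv.Perm Ω) p = p ∨ ((k : ↥A) : Equiv.Perm Ω) p = q := fun {p q} _ hpq h k =>
    pair_fixed S hφ hpq (by rw [inv2] at h; exact h _ k.2)
  have hinjK : ∀ p, p ∉ R → Function.Injective fun k : ↥K => ((k : ↥A) : Equiv.Perm Ω) p := fun p hp k l hkl => by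
    have h1 := semiregular S hφ hR ((k : ↥A)⁻¹ * (l : ↥A)) (K.mul_mem (K.inv_mem k.2) l.2) hp (by
      show ((k : ↥A) : Equiv.Perm Ω)⁻¹ (((l : ↥A) : Equiv.Perm Ω) p) = p
      rw [← show ((k : ↥A) : Equiv.Perm Ω) p = ((l : ↥A) : Equiv.Perm Ω) p from hkl]
      simp)
    exact Subtype.ext (inv_mul_eq_one.1 h1)
  obtain ⟨g, hg⟩ := Finset.card_pos.1 (by rw [hO]; norm_num : 0 < (Finset.univ \ R).card)
  have hg' := (Finset.mem_sdiff.1 hg).2
  have hK16 : Nat.card ↥K ≤ 16 := by
    rw [← hO, ← Nat.card_eq_finsetCard (Finset.univ \ R)]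
    exact Nat.card_le_card_of_injective (fun k : ↥K => (⟨((k : ↥A) : Equiv.Perm Ω) g,
      Finset.mem_sdiff.2 ⟨Finset.mem_univ _, hout _ g hg'⟩⟩ : ↥(Finset.univ \ R)))
      fun k l h => hinjK g hg' (congrArg Subtype.val h)
  by_cases h2 : Nat.card ↥K ≤ 2
  · -- two classes
    obtain ⟨q, hq, hq'⟩ := Finset.exists_mem_notMem_of_card_lt_card
      (s := Finset.image (fun k : ↥K => ((k : ↥A) : Equiv.Perm Ω) g) Finset.univ ∪ {g}) (t := Finset.univ \ R) (by
        refine lt_of_le_of_lt (Finset.card_union_le _ _) ?_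
        rw [Finset.card_singleton, hO]
        have := Finset.card_image_le (s := (Finset.univ : Finset ↥K))
          (f := fun k : ↥K => ((k : ↥A) : Equiv.Perm Ω) g)
        rw [Finset.card_univ, ← Nat.card_eq_fintype_card] at this
        omega)
    simp only [Finset.mem_union, Finset.mem_singleton, Finset.mem_image, Finset.mem_univ, true_and,
      not_or, not_exists] at hq'
    have hq2 := (Finset.mem_sdiff.1 hq).2
    have hgq : (v g)⁻¹ * v q ∉ fix φ (K : Set ↥A) := fun h => by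
      have hKbot : ∀ k : ↥K, k = 1 := fun k => by
        rcases hpairK hg' (Ne.symm hq'.2) h k with e | e
        · exact hinjK g hg' (e.trans rfl)
        · exact absurd e (hq'.1 k)
      exact hK (Subgroup.eq_bot_iff_forall _ |>.2 fun k hk => congrArg Subtype.val (hKbot ⟨k, hk⟩))
    refine le_trans (by omega : 2 * Nat.card ↥K ≤ 4)
      (pow_two_bound idx (k := 2) (card_lt_relIndex _ ⊤ {g, q} v (fun _ _ => trivial) ?_ ?_) ?_)
    · intro i hi
      simp only [Finset.mem_insert, Finset.mem_singleton] at hi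
      rcases hi with rfl | rfl
      exacts [hmoved _ hg', hmoved _ hq2]
    · intro i hi j hj h
      simp only [Finset.mem_insert, Finset.mem_singleton] at hi hj
      rcases hi with rfl | rfl <;> rcases hj with rfl | rfl
      · rfl
      · exact absurd h hgq
      · exact absurd (by simpa using (fix φ (K : Set ↥A)).inv_mem h) hgq
      · rfl
    · rw [Finset.card_pair (Ne.symm hq'.2)]; norm_num
  · refine le_trans (by omega : 2 * Nat.card ↥K ≤ 32)
      (pow_two_bound idx (k := 5) (card_lt_relIndex _ ⊤ (Finset.univ \ R) v (fun _ _ => trivial)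
        (fun i hi => hmoved i (Finset.mem_sdiff.1 hi).2) fun p hp q _ h => ?_) ?_)
    · by_contra hpq
      have hp' := (Finset.mem_sdiff.1 hp).2
      refine h2 ?_
      have h' := Nat.card_le_card_of_injective
        (fun k : ↥K => decide (((k : ↥A) : Equiv.Perm Ω) p = p)) fun k l hkl => by
          simp only [decide_eq_decide] at hkl
          refine hinjK p hp' ?_
          rcases hpairK hp' hpq h k with e | e <;> rcases hpairK hp' hpq h l with e' | e'
          · exact e.trans e'.symm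
          · exact e.trans (hkl.1 e).symm
          · exact (hkl.2 e').trans e'.symm
          · exact e.trans e'.symm
      simpa using h'
    · rw [hO]; norm_num

end Cfsg.Agent.TTLink.SteinerOffender
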