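import Cfsg.Agent.TTLink.M22Hexads
import Cfsg.Agent.TTLink.M22Order
import Cfsg.Agent.TTLink.M22Classes
import Cfsg.Agent.TTLink.SteinerOffender
import Cfsg.Agent.Sporadic.ThreeTranspMaximal
import Cfsg.Agent.Modules.Thompson

/-!
In a primitive group of type M(22) the transpositions of a Sylow 2-subgroup generate its Thompson
subgroup.
-/

set_option autoImplicit false

namespace Cfsg.Agent.TTLink

open Cfsg.Agent.ThreeTransp45 Cfsg.Agent.SporB Cfsg.Agent.Modules

variable {G : Type*} [Group G] [Finite G] {D : Set G}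

namespace M22Prim

variable (P : M22Prim D)
include P

theorem sylow_transpositions (T : Sylow 2 G) :
    {x | x ∈ D ∧ x ∈ (T : Subgroup G)}.ncard = 22 ∧
      ∀ y ∈ D, (∀ x ∈ D, x ∈ (T : Subgroup G) → Commute y x) → y ∈ (T : Subgroup G) := by
  classical
  haveI : Fact (Nat.Prime 2) := ⟨Nat.prime_two⟩
  have hD := P.data
  set W := {x | x ∈ D ∧ x ∈ (T : Subgroup G)} with hW
  have hcomm : ∀ a ∈ W, ∀ b ∈ W, Commute a b := fun a ha b hb =>
    hD.commute_of_mem_pGroup T.isPGroup' ha.1 hb.1 ha.2 hb.2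
  set N := {n : ℕ | ∃ E : Set G, E ⊆ D ∧ E.Finite ∧ (∀ a ∈ E, ∀ b ∈ E, Commute a b) ∧ E.ncard = n}
  have hbdd : BddAbove N := ⟨Nat.card G, fun n ⟨E, _, _, _, he⟩ => he ▸ Set.ncard_le_card E⟩
  have hw : sSup N = 22 := P.width_eq
  have hle : ∀ E : Set G, E ⊆ D → (∀ a ∈ E, ∀ b ∈ E, Commute a b) → E.ncard ≤ 22 := fun E h1 h2 =>
    hw ▸ le_csSup hbdd ⟨E, h1, Set.toFinite _, h2, rfl⟩
  have hne : N.Nonempty := ⟨0, ∅, Set.empty_subset _, Set.finite_empty, by simp, Set.ncard_empty G⟩
  obtain ⟨C, hC1, -, hC2, hC3⟩ := Nat.sSup_mem hne hbdd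
  rw [hw] at hC3
  obtain ⟨Q, hQ⟩ := (hD.isPGroup_closure hC1 hC2).exists_le_sylow
  obtain ⟨g, hg⟩ := MulAction.exists_smul_eq G Q T
  have hsub : cj g '' C ⊆ W := by
    rintro _ ⟨c, hc, rfl⟩
    refine ⟨hD.inv' g c (hC1 hc), ?_⟩
    rw [← hg, Sylow.coe_subgroup_smul]
    exact ⟨c, hQ (Subgroup.subset_closure hc), rfl⟩
  have h22 : W.ncard = 22 := by
    refine le_antisymm (hle W (fun x hx => hx.1) hcomm) ?_
    rw [← hC3, ← Set.ncard_image_of_injective C (cj_injective g)]
    exact Set.ncard_le_ncard hsub (Set.toFinite _)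
  refine ⟨h22, fun y hy hc => ?_⟩
  by_contra hyT
  have h := hle (insert y W) (Set.insert_subset hy fun x hx => hx.1) (by
    rintro a (rfl | ha) b (rfl | hb)
    exacts [Commute.refl _, hc b hb.1 hb.2, (hc a ha.1 ha.2).symm, hcomm a ha b hb])
  rw [Set.ncard_insert_of_notMem (fun h => hyT h.2) (Set.toFinite _)] at h
  omega

theorem thompson (T : Sylow 2 G) :
    Subgroup.closure {x : G | x ∈ D ∧ x ∈ (T : Subgroup G)} =
      Cfsg.thompsonSubgroupOf 2 (T : Subgroup G) := by
  classical
  haveI : Fact (Nat.Prime 2) := ⟨Nat.prime_two⟩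
  have hD := P.data
  obtain ⟨h22, hmax⟩ := P.sylow_transpositions T
  set W := {x : G | x ∈ D ∧ x ∈ (T : Subgroup G)}
  have hcomm : ∀ a ∈ W, ∀ b ∈ W, Commute a b := fun a ha b hb =>
    hD.commute_of_mem_pGroup T.isPGroup' ha.1 hb.1 ha.2 hb.2
  set E := Subgroup.closure W with hEdef
  haveI hEc : IsMulCommutative ↥E := Subgroup.isMulCommutative_closure fun a ha b hb => (hcomm a ha b hb).eq
  letI : CommGroup ↥E := { (inferInstance : Group ↥E) with mul_comm := hEc.is_comm.comm }
  have hET : E ≤ (T : Subgroup G) := (Subgroup.closure_le _).2 fun x hx => hx.2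
  have hEp : IsPGroup 2 ↥E := hD.isPGroup_closure (fun x hx => hx.1) hcomm
  letI : Fintype ↥W := Fintype.ofFinite _
  let v : ↥W → ↥E := fun i => ⟨i, Subgroup.subset_closure i.2⟩
  -- products over sets as products over lists
  have coe : ∀ X : Finset ↥W, ((∏ i ∈ X, v i : ↥E) : G) = (X.toList.map Subtype.val).prod ∧
      Fac D (X.toList.map Subtype.val) ∧ (X.toList.map Subtype.val).length = X.card ∧
      ∀ y, y ∈ X.toList.map Subtype.val ↔ ∃ h : y ∈ W, (⟨y, h⟩ : ↥W) ∈ X := by
    intro X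
    refine ⟨?_, ⟨X.nodup_toList.map Subtype.val_injective, ?_, ?_⟩, by simp, fun y => by simp⟩
    · rw [← Finset.prod_map_toList, ← E.coe_subtype, map_list_prod, List.map_map]
      rfl
    · intro y hy
      obtain ⟨i, -, rfl⟩ := List.mem_map.1 hy
      exact i.2.1
    · intro y hy z hz
      obtain ⟨i, -, rfl⟩ := List.mem_map.1 hy
      obtain ⟨j, -, rfl⟩ := List.mem_map.1 hz
      exact hcomm _ i.2 _ j.2
  have fromList : ∀ {s : List G}, Fac D s → (∀ y ∈ s, y ∈ W) →
      ∀ X : Finset ↥W, (∀ i : ↥W, i ∈ X ↔ (i : G) ∈ s) →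
        ((∏ i ∈ X, v i : ↥E) : G) = s.prod ∧ X.card = s.length := by
    intro s hs hsW X hX
    obtain ⟨h1, h2, h3, h4⟩ := coe X
    have hp : (X.toList.map Subtype.val).Perm s := (List.perm_ext_iff_of_nodup h2.nodup hs.nodup).2
      fun y => by
        rw [h4]
        exact ⟨fun ⟨h, hy⟩ => (hX _).1 hy, fun hy => ⟨hsW y hy, (hX _).2 hy⟩⟩
    exact ⟨h1.trans (fac_perm_prod h2.comm hp), h3 ▸ hp.length_eq⟩
  have S : SteinerOffender.Sys v := by
    refine ⟨?_, ?_, ?_, ?_, ?_⟩
    · rw [← Nat.card_eq_fintype_card, Nat.card_coe_set_eq, h22]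
    · exact fun i => Subtype.ext (hD.mul_self i.2.1)
    · intro X hX hX5 h
      obtain ⟨h1, h2, h3, -⟩ := coe X
      obtain ⟨a, ha⟩ := hX
      exact P.hyp.indeps a.2.1 X.card (Finset.card_pos.2 ⟨a, ha⟩) hX5 _ h2.nodup h3 h2.mem h2.comm
        (h1.symm.trans (congrArg Subtype.val h))
    · intro X hX
      obtain ⟨a, b, c, hab, hac, hbc, rfl⟩ := Finset.card_eq_three.1 hX
      have na : (a : G) ≠ b := fun e => hab (Subtype.ext e)
      have nb : (a : G) ≠ c := fun e => hac (Subtype.ext e)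
      have nc : (b : G) ≠ c := fun e => hbc (Subtype.ext e)
      have hf : Fac D [(a : G), b, c] := by
        refine ⟨by simp [na, nb, nc], ?_, ?_⟩
        · intro y hy
          simp only [List.mem_cons, List.not_mem_nil, or_false] at hy
          rcases hy with rfl | rfl | rfl
          exacts [a.2.1, b.2.1, c.2.1]
        · intro y hy z hz
          have : ∀ y ∈ [(a : G), b, c], y ∈ W := by
            intro y hy
            simp only [List.mem_cons, List.not_mem_nil, or_false] at hy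
            rcases hy with rfl | rfl | rfl
            exacts [a.2, b.2, c.2]
          exact hcomm _ (this y hy) _ (this z hz)
      obtain ⟨s, hs, hl, hp, hm⟩ := P.hset_list hf
      have hsW : ∀ y ∈ s, y ∈ W := fun y hy => by
        obtain ⟨yD, -, -, -, hy'⟩ := (hm y).1 hy
        exact ⟨yD, hmax y yD fun x hx hxT => (hy' x hx (hcomm x ⟨hx, hxT⟩ _ a.2)
          (hcomm x ⟨hx, hxT⟩ _ b.2) (hcomm x ⟨hx, hxT⟩ _ c.2)).symm⟩
      obtain ⟨e1, e2⟩ := fromList hs hsW (Finset.univ.filter fun i : ↥W => (i : G) ∈ s) (by simp)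
      obtain ⟨ma, mb, mc⟩ := mem_hset_self hf
      exact ⟨_, by simp [Finset.insert_subset_iff, (hm _).2 ma, (hm _).2 mb, (hm _).2 mc],
        e2.trans hl, Subtype.ext (e1.trans hp)⟩
    · intro X H H' hX hH hH' c6 c6' p1 p1'
      obtain ⟨a, b, c, hab, hac, hbc, rfl⟩ := Finset.card_eq_three.1 hX
      simp only [Finset.insert_subset_iff, Finset.singleton_subset_iff] at hH hH'
      have na : (a : G) ≠ b := fun e => hab (Subtype.ext e)
      have nb : (a : G) ≠ c := fun e => hac (Subtype.ext e)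
      have nc : (b : G) ≠ c := fun e => hbc (Subtype.ext e)
      have key : ∀ {H : Finset ↥W}, a ∈ H → b ∈ H → c ∈ H → H.card = 6 → ∏ i ∈ H, v i = 1 →
          ∀ i : ↥W, i ∈ H ↔ (i : G) ∈ hset D a b c := by
        intro H ha hb hc h6 h1 i
        obtain ⟨e1, e2, e3, e4⟩ := coe H
        rw [← P.hset_of_six e2 (e3.trans h6) (e1.symm.trans (congrArg Subtype.val h1))
          ((e4 _).2 ⟨a.2, ha⟩) ((e4 _).2 ⟨b.2, hb⟩) ((e4 _).2 ⟨c.2, hc⟩) na nb nc i, e4]
        exact ⟨fun h => ⟨i.2, h⟩, fun ⟨_, h⟩ => h⟩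
      ext i
      rw [key hH.1 hH.2.1 hH.2.2 c6 p1, key hH'.1 hH'.2.1 hH'.2.2 c6' p1']
  -- an elementary abelian subgroup of the Sylow subgroup
  have main : ∀ A : Subgroup G, A ≤ (T : Subgroup G) → Cfsg.IsElementaryAbelian 2 A →
      Nat.card ↥E ≤ Nat.card ↥A → A = E := by
    intro A hAT hA hcard
    have asq : ∀ a : ↥A, a * a = 1 := fun a => Subtype.ext (by simpa [pow_two] using hA.2 _ a.2)
    have hWn : ∀ a : ↥A, ∀ w : ↥W, cj (a : G) w ∈ W := fun a w =>
      ⟨hD.inv' _ _ w.2.1, Subgroup.mul_mem _ (Subgroup.mul_mem _ (hAT a.2) w.2.2)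
        (Subgroup.inv_mem _ (hAT a.2))⟩
    let π : ↥A →* Equiv.Perm ↥W :=
      { toFun := fun a =>
          { toFun := fun w => ⟨cj (a : G) w, hWn a w⟩
            invFun := fun w => ⟨cj (a : G) w, hWn a w⟩
            left_inv := fun w => Subtype.ext (by
              show cj (a : G) (cj (a : G) w) = w
              rw [← cj_mul, show (a : G) * a = 1 from congrArg Subtype.val (asq a)]
              simp [cj])
            right_inv := fun w => Subtype.ext (by
              show cj (a : G) (cj (a : G) w) = w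
              rw [← cj_mul, show (a : G) * a = 1 from congrArg Subtype.val (asq a)]
              simp [cj]) }
        map_one' := Equiv.ext fun w => Subtype.ext (by simp [cj])
        map_mul' := fun a b => Equiv.ext fun w => Subtype.ext (cj_mul (a : G) (b : G) (w : G)) }
    have hEn : ∀ a : ↥A, ∀ e ∈ E, cj (a : G) e ∈ E := by
      intro a e he
      induction he using Subgroup.closure_induction with
      | mem y hy => exact Subgroup.subset_closure (hWn a ⟨y, hy⟩)
      | one => simp [cj]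
      | mul y z _ _ hy hz => rw [cj_map_mul]; exact E.mul_mem hy hz
      | inv y _ hy => rw [cj_map_inv]; exact E.inv_mem hy
    let ψ : ↥A → ↥E →* ↥E := fun a =>
      ((MulAut.conj (a : G)).toMonoidHom.comp E.subtype).codRestrict E fun e => hEn a _ e.2
    let φ : ↥π.range → ↥E →* ↥E := fun b => ψ (Classical.choose (MonoidHom.mem_range.1 b.2))
    have hφ : SteinerOffender.Act v π.range φ := by
      refine ⟨fun b i => Subtype.ext ?_, ?_⟩
      · conv_rhs => rw [← Classical.choose_spec (MonoidHom.mem_range.1 b.2)]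
        rfl
      · rintro _ ⟨a, rfl⟩
        rw [← map_mul, asq, map_one]
    -- the kernel lies among the fixed points
    have hkerE : ∀ y ∈ π.ker, (y : G) ∈ E := by
      intro y hy
      have hw : ∀ w ∈ W, Commute (y : G) w := fun w hw => (cj_eq_self_iff (y : G) w).1
        (congrArg (fun σ : Equiv.Perm ↥W => ((σ ⟨w, hw⟩ : ↥W) : G)) hy)
      obtain ⟨m, hm, hlen, hmp⟩ := P.factor_three (x := (y : G)) (congrArg Subtype.val (asq y))
      rw [← hmp]
      refine Subgroup.list_prod_mem _ fun b hb => Subgroup.subset_closure ⟨hm.mem b hb, hmax b (hm.mem b hb) ?_⟩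
      intro x hx hxT
      exact (commute_prod hD hm hlen hx (by rw [hmp]; exact (hw x ⟨hx, hxT⟩).symm) b hb).symm
    by_cases hπ : π.range = ⊥
    · have hAE : A ≤ E := fun x hx => hkerE ⟨x, hx⟩ (Subgroup.mem_bot.1 (hπ ▸ ⟨⟨x, hx⟩, rfl⟩))
      exact Subgroup.eq_of_le_of_card_ge hAE hcard
    exfalso
    have hπp : IsPGroup 2 ↥π.range := fun b => ⟨1, Subtype.ext (by
      simpa [pow_two] using hφ.sq _ b.2)⟩
    -- an invariant hexad
    let Hex := {H : Finset ↥W // SteinerOffender.IsHexad v H}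
    letI : MulAction ↥π.range Hex :=
      { smul := fun a H => ⟨H.1.map (a : Equiv.Perm ↥W).toEmbedding,
          SteinerOffender.hexad_image S hφ a H.2⟩
        one_smul := fun H => Subtype.ext (Finset.map_refl)
        mul_smul := fun a b H => Subtype.ext (by
          show H.1.map _ = (H.1.map _).map _
          rw [Finset.map_map]
          rfl) }
    haveI : Finite Hex := inferInstance
    have hodd : ¬ 2 ∣ Nat.card Hex := by
      have h := S.count (T := ∅) (by simp)
      rw [Finset.card_empty, show Nat.choose (6 - 0) (3 - 0) = 20 from rfl,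
        show Nat.choose (22 - 0) (3 - 0) = 1540 from rfl] at h
      rw [Nat.card_eq_fintype_card, Fintype.card_subtype]
      simp only [Finset.empty_subset, and_true] at h
      omega
    obtain ⟨R, hR⟩ := hπp.nonempty_fixed_point_of_prime_not_dvd_card Hex hodd
    have hlt := SteinerOffender.card_lt_index S hφ hEp hπ R.2 fun a ha r hr => by
      have := congrArg Subtype.val (hR ⟨a, ha⟩)
      exact (Finset.ext_iff.1 this _).1 (Finset.mem_map_of_mem _ hr)
    set F := SteinerOffender.fix φ Set.univ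
    have hk : Nat.card ↥π.ker ≤ Nat.card ↥F := by
      refine Nat.card_le_card_of_injective (fun y : ↥π.ker =>
        (⟨⟨((y : ↥A) : G), hkerE y.1 y.2⟩, fun b _ => Subtype.ext ?_⟩ : ↥F)) fun y z h => ?_
      · set n := Classical.choose (MonoidHom.mem_range.1 b.2)
        show cj (n : G) ((y : ↥A) : G) = ((y : ↥A) : G)
        exact (cj_eq_self_iff _ _).2 (congrArg Subtype.val (hA.1.is_comm.comm n (y : ↥A)))
      · exact Subtype.ext (Subtype.ext (congrArg (fun e : ↥F => ((e : ↥E) : G)) h))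
    have h1 : Nat.card ↥A = Nat.card ↥π.range * Nat.card ↥π.ker := by
      rw [← Subgroup.index_ker, mul_comm]
      exact (Subgroup.card_mul_index _).symm
    have h2 : Nat.card ↥E = F.index * Nat.card ↥F := (Subgroup.index_mul_card F).symm
    have hFpos : 0 < Nat.card ↥F := Nat.card_pos
    have : Nat.card ↥A < Nat.card ↥E := by
      rw [h1, h2]
      calc _ ≤ Nat.card ↥π.range * Nat.card ↥F := Nat.mul_le_mul_left _ hk
        _ < _ := Nat.mul_lt_mul_of_pos_right hlt hFpos
    omega
  rw [thompsonSubgroupOf_eq_sSup]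
  have hEA : Cfsg.IsElementaryAbelian 2 E := ⟨hEc, fun a ha => by
    induction ha using Subgroup.closure_induction with
    | mem y hy => rw [pow_two]; exact hD.mul_self hy.1
    | one => simp
    | mul p q hp hq h1 h2 =>
      have : Commute p q := congrArg Subtype.val (hEc.is_comm.comm ⟨p, hp⟩ ⟨q, hq⟩)
      rw [this.mul_pow, h1, h2, one_mul]
    | inv p _ h1 => rw [inv_pow, h1, inv_one]⟩
  have hmaxE : E ∈ maxElemAbIn 2 (T : Subgroup G) := by
    refine ⟨hET, hEA, fun B hB hBe => ?_⟩
    by_contra hlt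
    have := main B hB hBe (by omega)
    rw [this] at hlt
    exact hlt le_rfl
  refine le_antisymm (le_sSup hmaxE) (sSup_le fun B hB => ?_)
  exact (main B hB.1 hB.2.1 (hB.2.2 E hET hEA)).le

end M22Prim

end Cfsg.Agent.TTLink
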