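import Cfsg.Agent.TTLink.M24PairStructure
import Cfsg.Agent.TTLink.M24Layer
import Cfsg.Agent.SporB.FiTwoTwo.Out

/-!
The centraliser of a product of two commuting transpositions in type M(24) in terms of Fi22, given
that its inner quotient is Fi22.
-/

set_option autoImplicit false

namespace Cfsg.Agent.TTLink

open Cfsg.Agent.ThreeTransp45 Cfsg.Agent.SporB

variable {G : Type*} [Group G] [Finite G] {D : Set G}

namespace M24Prim

variable (P : M24Prim D)
include P

/-- The transpositions lie outside the commutator subgroup. -/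
theorem not_mem_commutator_group {y : G} (hy : y ∈ D) : y ∉ commutator G := by
  obtain ⟨χ, d, hd, hχ⟩ := P.exists_parity_hom
  obtain ⟨g, rfl⟩ := P.cl d hd y hy
  intro h
  have h1 : χ (cj g d) = 1 := Abelianization.commutator_subset_ker χ h
  rw [cj, map_mul, map_mul, map_inv, mul_comm (χ g), mul_inv_cancel_right, hχ] at h1
  exact absurd h1 (by decide)

/-- The product centraliser in terms of Fi22. -/
theorem pair_product_fi22 {d₁ d₂ : G} (h₁ : d₁ ∈ D) (h₂ : d₂ ∈ link D d₁)
    (hiso : Nonempty (PairFiQuot h₂ ≃* Cfsg.Spor.Fi22)) (K CL : Subgroup G)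
    (hK : K = commutator G ⊓ Subgroup.centralizer ({d₁, d₂} : Set G))
    (hCL : CL = commutator G ⊓ Subgroup.centralizer ({d₁ * d₂} : Set G))
    [hn : ((Subgroup.zpowers (d₁ * d₂)).subgroupOf CL).Normal] :
    Cfsg.IsQuasisimple ↥K ∧ K = (Cfsg.generalizedFittingSubgroup ↥CL).map CL.subtype ∧ K ≤ CL ∧
      (K.subgroupOf CL).index = 2 ∧ d₁ * d₂ ∈ K ∧
      Nonempty (↥CL ⧸ (Subgroup.zpowers (d₁ * d₂)).subgroupOf CL ≃* MulAut Cfsg.Spor.Fi22) := by
  obtain ⟨r1, r2, r3, r4, r5, Ψ, hker, hind⟩ :=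
    P.pair_product_structure h₁ h₂ (fun _ hd => P.not_mem_commutator_group hd) K CL hK hCL
  obtain ⟨e⟩ := hiso
  have hz : Subgroup.center Cfsg.Spor.Fi22 = ⊥ := by
    rw [eq_bot_iff]
    intro x hx
    obtain ⟨y, rfl⟩ := e.surjective x
    have hy : y ∈ Subgroup.center (PairFiQuot h₂) := Subgroup.mem_center_iff.2 fun g => e.injective (by
      rw [map_mul, map_mul, Subgroup.mem_center_iff.1 hx (e g)])
    rw [(P.pair_base h₁ h₂).type.1, Subgroup.mem_bot] at hy
    rw [hy, map_one]
    exact one_mem _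
  exact ⟨r1, r2, r3, r4, r5, quot_equiv_mulAut Ψ _ hker e hz FischerU.card_out_fi hind⟩

end M24Prim

end Cfsg.Agent.TTLink
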