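import Cfsg.Agent.TTLink.M24Parity
import Cfsg.Agent.PSU62Mult.Upper
import Cfsg.Agent.IsoPSU42.Main

/-!
The joint centraliser of three commuting transpositions in a primitive group of type M(24) is not
perfect: otherwise it would be a stem extension of PSU(6, 2) with kernel of order eight, and the
multiplier of PSU(6, 2) has order at most twelve.
-/

set_option autoImplicit false

namespace Cfsg.Agent.TTLink

open Cfsg.Agent.ThreeTransp45 Cfsg.Agent.SporB

variable {G : Type*} [Group G] [Finite G] {D : Set G}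

open Cfsg.Agent.GFour25 in
theorem M24Prim.not_perfect_triple (P : M24Prim D) {d₁ d₂ d₃ : G} (h₁ : d₁ ∈ D) (h₂ : d₂ ∈ link D d₁)
    (h₃ : d₃ ∈ link D d₁) (h23 : d₂ ≠ d₃) (c23 : Commute d₂ d₃) :
    commutator ↥(Subgroup.centralizer ({d₁, d₂, d₃} : Set G)) ≠ ⊤ := by
  classical
  intro hperf
  have hD := P.data
  set K₃ := Subgroup.centralizer ({d₁, d₂, d₃} : Set G) with hK₃
  obtain ⟨F, i1, i2, hF, π, hπ, hker, -, -⟩ := P.triple_proj h₁ h₂ h₃ h23 c23 K₃ hK₃
  obtain ⟨e⟩ : Nonempty (F ≃+* F4) := ⟨FiniteField.ringEquivOfCardEq (by rw [hF, card_F4])⟩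
  obtain ⟨e1⟩ := IsoPSU42.nonempty_su_equiv 6 2 e
  obtain ⟨ψ⟩ := IsoPSU42.centerQuot_congr e1
  set τ : ↥K₃ →* Cfsg.PSU 6 F4 2 := ψ.toMonoidHom.comp π with hτdef
  have hτk : ∀ k, k ∈ τ.ker ↔ π k = 1 := fun k => by
    rw [MonoidHom.mem_ker, hτdef, MonoidHom.comp_apply]
    exact ⟨fun h => ψ.injective (h.trans ψ.map_one.symm), fun h => by rw [h]; exact ψ.map_one⟩
  have hdK : d₁ ∈ K₃ ∧ d₂ ∈ K₃ ∧ d₃ ∈ K₃ := by
    simp only [hK₃, Subgroup.mem_centralizer_iff, Set.mem_insert_iff, Set.mem_singleton_iff,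
      forall_eq_or_imp, forall_eq]
    exact ⟨⟨trivial, h₂.2.2.eq.symm, h₃.2.2.eq.symm⟩, ⟨h₂.2.2.eq, trivial, c23.eq.symm⟩,
      ⟨h₃.2.2.eq, c23.eq, trivial⟩⟩
  have hcen : ∀ x ∈ ({d₁, d₂, d₃} : Set G), ∀ k : ↥K₃, x * k = k * x := fun x hx k =>
    Subgroup.mem_centralizer_iff.1 (hK₃ ▸ k.2) x hx
  have hstem : Cfsg.IsStemExtension τ := by
    refine ⟨ψ.surjective.comp hπ, fun k hk => Subgroup.mem_center_iff.2 fun g => ?_, hperf.symm ▸ le_top⟩
    have a := hcen d₁ (by simp) g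
    have b := hcen d₂ (by simp) g
    have c := hcen d₃ (by simp) g
    have a' : Commute d₁ (g : G) := a
    have b' : Commute d₂ (g : G) := b
    have c' : Commute d₃ (g : G) := c
    refine Subtype.ext ?_
    show (g : G) * k = k * g
    rcases (hker k).1 ((hτk k).1 hk) with e | e | e | e | e | e | e | e <;> rw [e]
    · simp
    · exact a'.symm.eq
    · exact b'.symm.eq
    · exact (b'.mul_left a').symm.eq
    · exact c'.symm.eq
    · exact (c'.mul_left a').symm.eq
    · exact (c'.mul_left b').symm.eq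
    · exact ((c'.mul_left b').mul_left a').symm.eq
  have h8 : 8 ∣ Nat.card τ.ker := by
    have hp : IsPGroup 2 τ.ker := by
      refine fun k => ⟨1, Subtype.ext (Subtype.ext ?_)⟩
      have hk := (hker k.1).1 ((hτk k.1).1 k.2)
      have c12 := h₂.2.2
      have c13 := h₃.2.2
      have s1 := hD.mul_self h₁
      have s2 := hD.mul_self h₂.1
      have s3 := hD.mul_self h₃.1
      show ((k.1 : G)) ^ (2 ^ 1) = 1
      rw [pow_one, pow_two]
      rcases hk with e | e | e | e | e | e | e | e <;> rw [e]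
      · rw [one_mul]
      · exact s1
      · exact s2
      · rw [c12.mul_mul_mul_comm, s2, s1, one_mul]
      · exact s3
      · rw [c13.mul_mul_mul_comm, s3, s1, one_mul]
      · rw [c23.mul_mul_mul_comm, s3, s2, one_mul]
      · rw [(c13.mul_right c12).mul_mul_mul_comm, c23.mul_mul_mul_comm, s3, s2, s1,
          one_mul, one_mul]
    obtain ⟨n, hn⟩ := IsPGroup.iff_card.1 hp
    have mem : ∀ x : ↥K₃, π x = 1 → x ∈ τ.ker := fun x => (hτk x).2
    let f : Fin 5 → τ.ker := ![1, ⟨⟨d₁, hdK.1⟩, mem _ ((hker _).2 (by simp))⟩,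
      ⟨⟨d₂, hdK.2.1⟩, mem _ ((hker _).2 (by simp))⟩, ⟨⟨d₃, hdK.2.2⟩, mem _ ((hker _).2 (by simp))⟩,
      ⟨⟨d₂ * d₁, K₃.mul_mem hdK.2.1 hdK.1⟩, mem _ ((hker _).2 (by simp))⟩]
    have hf : Function.Injective f := by
      have n1 : ∀ {x}, x ∈ D → (1 : G) ≠ x := fun h e => ThreeTransp.ne_one hD.set h e.symm
      have np : ∀ {x}, x ∈ D → d₂ * d₁ ≠ x := fun h e =>
        pair_not_mem hD P.cl P.twinFree h₂.1 h₁ h₂.2.1 (e ▸ h)
      have n0 : d₂ * d₁ ≠ 1 := fun e => h₂.2.1 (by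
        rw [mul_eq_one_iff_eq_inv, hD.inv_eq h₁] at e; exact e)
      have key : List.Nodup [(1 : G), d₁, d₂, d₃, d₂ * d₁] := by
        simp only [List.nodup_cons, List.mem_cons, List.not_mem_nil, or_false, not_or,
          List.nodup_nil, and_true, not_false_eq_true]
        exact ⟨⟨n1 h₁, n1 h₂.1, n1 h₃.1, n0.symm⟩, ⟨h₂.2.1.symm, h₃.2.1.symm, (np h₁).symm⟩,
          ⟨h23, (np h₂.1).symm⟩, (np h₃.1).symm⟩
      intro i j hij
      have h := congrArg (fun x : τ.ker => ((x : ↥K₃) : G)) hij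
      have e : ∀ i, ((f i : ↥K₃) : G) = [(1 : G), d₁, d₂, d₃, d₂ * d₁].get i := by
        intro i; fin_cases i <;> rfl
      simp only [e] at h
      exact key.injective_get h
    have h5 := Nat.card_le_card_of_injective f hf
    rw [Nat.card_fin, hn] at h5
    rw [hn, show (8 : ℕ) = 2 ^ 3 from rfl]
    refine pow_dvd_pow 2 (by_contra fun h => ?_)
    have : n ≤ 2 := by omega
    have := Nat.pow_le_pow_right (show 0 < 2 by norm_num) this
    omega
  have h3 : 3 ∣ Nat.card (CentralExt.schurMult (Cfsg.PSU 6 F4 2)) := by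
    have hs : Cfsg.IsStemExtension (QuotientGroup.mk' (Subgroup.center SporB.FischerU.SUSix)) :=
      ⟨QuotientGroup.mk'_surjective _, by rw [QuotientGroup.ker_mk'],
        PSU62Mult.perfect_SUSix.symm ▸ le_top⟩
    have h := CentralExt.card_ker_dvd_schurMult hs
    rwa [QuotientGroup.ker_mk',
      Classical.U.card_center_SU SporB.FischerU.sqField_F4 (by norm_num)] at h
  have h8' := h8.trans (CentralExt.card_ker_dvd_schurMult hstem)
  have hle := PSU62Mult.card_schurMult_PSU_le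
  have hpos : 0 < Nat.card (CentralExt.schurMult (Cfsg.PSU 6 F4 2)) := Nat.card_pos
  have := Nat.le_of_dvd hpos ((by norm_num : Nat.Coprime 3 8).mul_dvd_of_dvd_of_dvd h3 h8')
  omega

/-- The transpositions of a primitive group of type M(24) lie outside the commutator subgroup. -/
theorem M24Prim.parity' (P : M24Prim D) :
    (∃ ε : G →* ℤˣ, ∀ d ∈ D, ε d = -1) ∧ ∀ d ∈ D, d ∉ commutator G :=
  P.parity_of_triples fun ha hb hc hne hcom => P.not_perfect_triple ha hb hc hne hcom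

end Cfsg.Agent.TTLink
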