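import Cfsg.Agent.TTLink.QuadTables

/-!
The ovoids of the quadrangle closed under third points, and the two-fold cover of their set in the space
of 126 points.
-/

set_option autoImplicit false
set_option maxRecDepth 100000

namespace Cfsg.Agent.TTLink.Quad

open Cfsg.Agent.TTLink.QuadData Cfsg.Agent.SchurBound

/-- A bit. -/
def bitB (n i : ℕ) : Bool := Nat.beq (Nat.land (Nat.shiftRight n i) 1) 1

theorem bitB_eq (n i : ℕ) : bitB n i = n.testBit i := by
  rw [bitB, Nat.testBit, show Nat.land (Nat.shiftRight n i) 1 = (n >>> i) &&& 1 from rfl, Nat.and_comm,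
    Nat.one_and_eq_mod_two]
  rcases Nat.mod_two_eq_zero_or_one (n >>> i) with h | h <;> rw [h] <;> rfl

/-- The number of the points of a list in a set. -/
def cntIn (S : ℕ → Bool) (l : List ℕ) : ℕ := (l.filter S).length

/-- A line excludes all completions. -/
def badLine (Kn T : ℕ) (l : List ℕ) : Bool :=
  Nat.blt 2 (cntIn (fun x => bitB Kn x && bitB T x) l) ||
    Nat.blt (cntIn (fun x => !(bitB Kn x) || bitB T x) l) 2

/-- A triple excludes all completions. -/
def badTri (Kn T : ℕ) (t : ℕ × ℕ × ℕ) : Bool :=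
  bitB Kn t.1 && bitB Kn t.2.1 && bitB Kn t.2.2 &&
    Nat.beq (cntIn (fun x => bitB T x) [t.1, t.2.1, t.2.2]) 2

/-- Branch and bound. -/
def search : List (ℕ × List ℕ × List ℕ) → ℕ → ℕ → Bool
  | [], Kn, T => ovoidL.contains T && Nat.beq Kn (2 ^ 45 - 1)
  | (v, ls, ts) :: rest, Kn, T =>
    (let K' := Nat.lor Kn (Nat.shiftLeft 1 v)
     ls.any (fun i => badLine K' T (lineL.getD i [0, 0, 0])) ||
       ts.any (fun i => badTri K' T (triL.getD i (0, 0, 0))) || search rest K' T) &&
    (let K' := Nat.lor Kn (Nat.shiftLeft 1 v)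
     let T' := Nat.lor T (Nat.shiftLeft 1 v)
     ls.any (fun i => badLine K' T' (lineL.getD i [0, 0, 0])) ||
       ts.any (fun i => badTri K' T' (triL.getD i (0, 0, 0))) || search rest K' T')

theorem search_ok : search schedL 0 0 = true := by decide +kernel

theorem sched_ok : (schedL.all fun e => Nat.blt e.1 45 && e.2.1.all (fun i => Nat.blt i lineL.length) &&
    e.2.2.all fun i => Nat.blt i triL.length) = true := by decide +kernel

theorem tri_ok : (triL.all fun t => Nat.blt t.1 45 && Nat.blt t.2.1 45 && Nat.blt t.2.2 45 &&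
    !(g45 t.1 t.2.1) && Nat.beq (third t.1 t.2.1) t.2.2 && !(g45 t.2.1 t.2.2) &&
    Nat.beq (third t.2.1 t.2.2) t.1 && !(g45 t.1 t.2.2) && Nat.beq (third t.1 t.2.2) t.2.1) = true := by
  decide +kernel

theorem cntIn_mono {S S' : ℕ → Bool} {l : List ℕ} (h : ∀ x ∈ l, S x = true → S' x = true) :
    cntIn S l ≤ cntIn S' l := by
  unfold cntIn
  induction l with
  | nil => simp
  | cons a l ih =>
    have := ih fun x hx => h x (List.mem_cons_of_mem _ hx)
    have ha := h a (List.mem_cons_self ..)
    rw [List.filter_cons, List.filter_cons]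
    cases hS : S a
    · by_cases h' : S' a = true
      · rw [if_pos h', if_neg (by simp)]; simp; omega
      · rw [if_neg h', if_neg (by simp)]; exact this
    · rw [if_pos rfl, if_pos (ha hS)]; simp; omega

/-- The ovoid condition and closure under third points. -/
structure Ovoid (s : ℕ → Bool) : Prop where
  line : ∀ l ∈ lineL, cntIn s l = 2
  third : ∀ i < 45, ∀ j < 45, g45 i j = false → s i = true → s j = true → s (third i j) = true

theorem Ovoid.not_badLine {s : ℕ → Bool} (hs : Ovoid s) {Kn T : ℕ}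
    (hI : ∀ x, (bitB Kn x = true → bitB T x = s x)) {l : List ℕ} (hl : l ∈ lineL) :
    badLine Kn T l = false := by
  have h1 : cntIn (fun x => bitB Kn x && bitB T x) l ≤ 2 := by
    rw [← hs.line l hl]
    refine cntIn_mono fun x _ hx => ?_
    rw [Bool.and_eq_true] at hx
    rw [← hI x hx.1, hx.2]
  have h2 : 2 ≤ cntIn (fun x => !(bitB Kn x) || bitB T x) l := by
    rw [← hs.line l hl]
    refine cntIn_mono fun x _ hx => ?_
    cases hk : bitB Kn x
    · rfl
    · simpa [hI x hk] using hx
  rw [badLine]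
  simp only [Bool.or_eq_false_iff]
  exact ⟨Bool.eq_false_iff.2 fun h => by rw [Nat.blt_eq] at h; omega,
    Bool.eq_false_iff.2 fun h => by rw [Nat.blt_eq] at h; omega⟩

theorem Ovoid.not_badTri {s : ℕ → Bool} (hs : Ovoid s) {Kn T : ℕ}
    (hI : ∀ x, (bitB Kn x = true → bitB T x = s x)) {t : ℕ × ℕ × ℕ} (ht : t ∈ triL) :
    badTri Kn T t = false := by
  have h := List.all_eq_true.1 tri_ok t ht
  simp only [Bool.and_eq_true, Nat.blt_eq, Nat.beq_eq, Bool.not_eq_true'] at h
  obtain ⟨⟨⟨⟨⟨⟨⟨⟨ha, hb⟩, hc⟩, gab⟩, eab⟩, gbc⟩, ebc⟩, gac⟩, eac⟩ := h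
  refine Bool.eq_false_iff.2 fun hb' => ?_
  simp only [badTri, Bool.and_eq_true, Nat.beq_eq] at hb'
  obtain ⟨⟨⟨k1, k2⟩, k3⟩, hc2⟩ := hb'
  simp only [cntIn, List.filter_cons, List.filter_nil, hI _ k1, hI _ k2, hI _ k3] at hc2
  cases e1 : s t.1 <;> cases e2 : s t.2.1 <;> cases e3 : s t.2.2 <;> simp [e1, e2, e3] at hc2
  · have := hs.third _ hb _ hc gbc e2 e3
    rw [ebc, e1] at this; cases this
  · have := hs.third _ ha _ hc gac e1 e3
    rw [eac, e2] at this; cases this
  · have := hs.third _ ha _ hb gab e1 e2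
    rw [eab, e3] at this; cases this

theorem Ovoid.search_sound {s : ℕ → Bool} (hs : Ovoid s) : ∀ (L : List (ℕ × List ℕ × List ℕ)),
    (∀ e ∈ L, e ∈ schedL) → ∀ Kn T, (∀ x, bitB Kn x = true → bitB T x = s x) →
    (∀ x, bitB T x = true → bitB Kn x = true) → search L Kn T = true →
      ∃ T' ∈ ovoidL, ∀ x < 45, bitB T' x = s x
  | [], _, Kn, T, hI, _, h => by
    simp only [search, Bool.and_eq_true, List.contains_iff_mem, Nat.beq_eq] at h
    refine ⟨T, h.1, fun x hx => hI x ?_⟩
    rw [bitB_eq, h.2, Nat.testBit_two_pow_sub_one]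
    simp [hx]
  | (v, ls, ts) :: rest, hL, Kn, T, hI, hT, h => by
    simp only [search, Bool.and_eq_true] at h
    have hin := List.all_eq_true.1 sched_ok _ (hL _ (List.mem_cons_self ..))
    simp only [Bool.and_eq_true, List.all_eq_true, Nat.blt_eq] at hin
    have hrest := fun e he => hL e (List.mem_cons_of_mem _ he)
    have hK : ∀ x, bitB (Nat.lor Kn (Nat.shiftLeft 1 v)) x = (bitB Kn x || decide (v = x)) := fun x => by
      rw [bitB_eq, bitB_eq, show Nat.lor Kn (Nat.shiftLeft 1 v) = Kn ||| (1 <<< v) from rfl,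
        Nat.testBit_or, Nat.one_shiftLeft, Nat.testBit_two_pow]
    have go : ∀ T', (∀ x, bitB (Nat.lor Kn (Nat.shiftLeft 1 v)) x = true → bitB T' x = s x) →
        (∀ x, bitB T' x = true → bitB (Nat.lor Kn (Nat.shiftLeft 1 v)) x = true) →
        (ls.any (fun i => badLine (Nat.lor Kn (Nat.shiftLeft 1 v)) T' (lineL.getD i [0, 0, 0])) ||
          ts.any (fun i => badTri (Nat.lor Kn (Nat.shiftLeft 1 v)) T' (triL.getD i (0, 0, 0))) ||
          search rest (Nat.lor Kn (Nat.shiftLeft 1 v)) T') = true →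
        ∃ T'' ∈ ovoidL, ∀ x < 45, bitB T'' x = s x := by
      intro T' hI' hT' h'
      rw [Bool.or_eq_true, Bool.or_eq_true] at h'
      rcases h' with (h' | h') | h'
      · obtain ⟨i, hi, hb⟩ := List.any_eq_true.1 h'
        rw [List.getD_eq_getElem _ _ (hin.1.2 i hi), hs.not_badLine hI' (List.getElem_mem _)] at hb
        cases hb
      · obtain ⟨i, hi, hb⟩ := List.any_eq_true.1 h'
        rw [List.getD_eq_getElem _ _ (hin.2 i hi), hs.not_badTri hI' (List.getElem_mem _)] at hb
        cases hb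
      · exact Ovoid.search_sound hs rest hrest _ T' hI' hT' h'
    cases hv : s v
    · refine go T (fun x hx => ?_) (fun x hx => by rw [hK, hT x hx, Bool.true_or]) h.1
      rw [hK, Bool.or_eq_true, decide_eq_true_eq] at hx
      rcases hx with hx | rfl
      · exact hI x hx
      · cases hb : bitB T v
        · exact hv.symm
        · rw [← hb, hI v (hT v hb)]
    · refine go (Nat.lor T (Nat.shiftLeft 1 v)) (fun x hx => ?_) (fun x hx => ?_) h.2
      · rw [hK, Bool.or_eq_true, decide_eq_true_eq] at hx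
        rw [bitB_eq, show Nat.lor T (Nat.shiftLeft 1 v) = T ||| (1 <<< v) from rfl, Nat.testBit_or,
          Nat.one_shiftLeft, Nat.testBit_two_pow, ← bitB_eq]
        rcases hx with hx | rfl
        · rw [hI x hx]
          by_cases e : v = x
          · subst e; simp [hv]
          · simp [e]
        · simp [hv]
      · rw [bitB_eq, show Nat.lor T (Nat.shiftLeft 1 v) = T ||| (1 <<< v) from rfl, Nat.testBit_or,
          Nat.one_shiftLeft, Nat.testBit_two_pow, ← bitB_eq, Bool.or_eq_true] at hx
        rw [hK, Bool.or_eq_true]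
        exact hx.imp (hT x) id

/-- The ovoids closed under third points are the tabulated ones. -/
theorem Ovoid.tabulated {s : ℕ → Bool} (hs : Ovoid s) : ∃ t < 40, ∀ x < 45, bitB (ovoidL.getD t 0) x = s x := by
  obtain ⟨T, hT, h⟩ := hs.search_sound schedL (fun _ h => h) 0 0 (fun x hx => by simp [bitB_eq] at hx)
    (fun x hx => by simp [bitB_eq] at hx) search_ok
  obtain ⟨t, ht, rfl⟩ := List.mem_iff_getElem.1 hT
  refine ⟨t, lt_of_lt_of_eq ht (by decide +kernel), fun x hx => ?_⟩
  rw [List.getD_eq_getElem _ _ ht]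
  exact h x hx

/-! ### The cover -/

/-- A point adjacent to the base point. -/
def lk (i : ℕ) : ℕ := link126.getD i 0

/-- A point over an ovoid. -/
def rp (t : ℕ) : ℕ := repL.getD t 0

/-- The other point over an ovoid. -/
def tw (t : ℕ) : ℕ := twinL.getD t 0

/-- An ovoid. -/
def ov (t : ℕ) : ℕ := ovoidL.getD t 0

/-- A set of the 45 points contains an adjacent pair. -/
def hasPair (s : ℕ) : Bool :=
  (List.range 45).any fun i => bitB s i && !(Nat.beq (Nat.land (nm i) s) (Nat.shiftLeft 1 i))

/-- The reflections as tables. -/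
def rmv (c k : ℕ) : ℕ := J2.look (SUSixU43.tvTabs.getD c 0) k

theorem link_ok : allN (fun i => Nat.blt (lk i) 126 && g126 18 (lk i) && !(Nat.beq (lk i) 18) &&
    allN (fun j => g126 (lk i) (lk j) == g45 i j && (Nat.beq i j || !(Nat.beq (lk i) (lk j)))) 45) 45 = true := by
  decide +kernel

theorem far_ok : allN (fun t => Nat.blt (rp t) 126 && Nat.blt (tw t) 126 && !(g126 18 (rp t)) &&
    !(g126 18 (tw t)) && Nat.beq (rmv 18 (rp t)) (tw t) && !(g126 (rp t) (tw t)) &&
    allN (fun i => bitB (ov t) i == g126 (rp t) (lk i) && bitB (ov t) i == g126 (tw t) (lk i)) 45) 40 = true := by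
  decide +kernel

theorem cover_ok : allN (fun k => Nat.beq k 18 || link126.contains k || repL.contains k || twinL.contains k) 126 =
    true ∧ link126.length = 45 ∧ repL.length = 40 ∧ twinL.length = 40 := by
  decide +kernel

theorem matched_ok : allN (fun t => allN (fun u => Nat.beq t u ||
    ((g126 (rp t) (rp u) || g126 (rp t) (tw u)) == hasPair (Nat.land (ov t) (ov u)) &&
      !(g126 (rp t) (rp u) && g126 (rp t) (tw u)) &&
      g126 (tw t) (tw u) == g126 (rp t) (rp u) && g126 (tw t) (rp u) == g126 (rp t) (tw u) &&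
      !(Nat.beq (ov t) (ov u)))) 40) 40 = true := by
  decide +kernel

theorem basic126 : allN (fun c => g126 c c && allN (fun k => g126 c k == g126 k c) 126) 126 = true := by
  decide +kernel

theorem tree_ok : allN (fun t => Nat.beq t 0 ||
    (Nat.blt (parL.getD t 0) t && g126 (rp (parL.getD t 0)) (rp t))) 40 = true := by decide +kernel

/-- A pair is recorded. -/
def hasP (known a b : ℕ) : Bool := bitB known (40 * a + b) || bitB known (40 * b + a)

/-- One step of the propagation. -/
def stepB (known : ℕ) (s : ℕ × ℕ × ℕ) : Bool :=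
  let aj := g126 (rp s.1) (rp s.2.1)
  let ak := g126 (rp s.1) (rp s.2.2)
  hasP known s.1 s.2.1 && hasP known s.1 s.2.2 && Nat.blt s.1 40 && Nat.blt s.2.1 40 && Nat.blt s.2.2 40 &&
    !(Nat.beq s.1 s.2.1) && !(Nat.beq s.1 s.2.2) && !(Nat.beq s.2.1 s.2.2) &&
    hasPair (Nat.land (ov s.1) (ov s.2.1)) && hasPair (Nat.land (ov s.1) (ov s.2.2)) &&
    hasPair (Nat.land (ov s.2.1) (ov s.2.2)) &&
    g126 (rp s.2.1) (rp s.2.2) ==
      ((aj == ak) == hasPair (Nat.land (ov s.1) (Nat.land (ov s.2.1) (ov s.2.2))))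

/-- The record of one more pair. -/
def addP (known a b : ℕ) : ℕ := Nat.lor known (Nat.shiftLeft 1 (40 * a + b))

/-- The whole propagation. -/
def runSteps : List (ℕ × ℕ × ℕ) → ℕ → Bool
  | [], known => allN (fun t => allN (fun u => Nat.beq t u || hasP known t u ||
      !(hasPair (Nat.land (ov t) (ov u)))) 40) 40
  | s :: rest, known => stepB known s && runSteps rest (addP known s.2.1 s.2.2)

/-- The edges of the tree. -/
def treeEdges : ℕ := (List.range 39).foldl (fun k i => addP k (parL.getD (i + 1) 0) (i + 1)) 0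

theorem run_ok : runSteps stepL treeEdges = true := by decide +kernel

/-- The points of the pairs of the generators. -/
def usedL : List ℕ := (List.range 10).flatMap fun i => [(SUSixU43.pairOf i).1, (SUSixU43.pairOf i).2]

theorem twin126_ok : (usedL.all fun c => allN (fun k => g126 c k ||
    allN (fun l => g126 c l || Nat.beq l k || Nat.beq l (rmv c k) ||
      !(Nat.beq (Nat.land (nM c) (nM l)) (Nat.land (nM c) (nM k)))) 126) 126) = true := by
  decide +kernel

end Cfsg.Agent.TTLink.Quad
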