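import Cfsg.Agent.TTLink.QuadDefs
import Cfsg.Agent.TTLink.QuadSearch

/-!
The adjacency preserving permutations of the 126 points: an upper bound for their number, and a lower
bound for the group generated by the reflections at the points adjacent to the base point.
-/

set_option autoImplicit false
set_option maxRecDepth 100000

namespace Cfsg.Agent.TTLink.Quad

open Cfsg.Agent.TTLink.QuadData Cfsg.Agent.SchurBound Cfsg.Agent.SUSixU43 Equiv

/-! ### Chains -/

/-- The elements of a subgroup fixing some points. -/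
def fixG (H : Subgroup (Perm (Fin 126))) (pre : List ℕ) : Subgroup (Perm (Fin 126)) where
  carrier := {σ | σ ∈ H ∧ ∀ x : Fin 126, (x : ℕ) ∈ pre → σ x = x}
  mul_mem' {σ τ} hσ hτ := ⟨H.mul_mem hσ.1 hτ.1, fun x hx => by rw [Perm.mul_apply, hτ.2 x hx, hσ.2 x hx]⟩
  one_mem' := ⟨H.one_mem, fun _ _ => rfl⟩
  inv_mem' {σ} hσ := ⟨H.inv_mem hσ.1, fun x hx => Perm.inv_eq_iff_eq.2 (hσ.2 x hx).symm⟩

theorem mem_fixG {H : Subgroup (Perm (Fin 126))} {pre : List ℕ} {σ : Perm (Fin 126)} :
    σ ∈ fixG H pre ↔ σ ∈ H ∧ ∀ x : Fin 126, (x : ℕ) ∈ pre → σ x = x := Iff.rfl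

theorem mem_fixG_cons {H : Subgroup (Perm (Fin 126))} {pre : List ℕ} {σ : Perm (Fin 126)} (b : Fin 126) :
    σ ∈ fixG H ((b : ℕ) :: pre) ↔ σ ∈ fixG H pre ∧ σ b = b := by
  refine ⟨fun h => ⟨⟨h.1, fun x hx => h.2 x (List.mem_cons_of_mem _ hx)⟩, h.2 b (List.mem_cons_self ..)⟩,
    fun h => ⟨h.1.1, fun x hx => ?_⟩⟩
  rcases List.mem_cons.1 hx with hx | hx
  · rw [Fin.ext hx]; exact h.2
  · exact h.1.2 x hx

/-- A point with the adjacencies of `b` to the fixed points, and not one of them. -/
def candB (pre : List ℕ) (b q : ℕ) : Bool :=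
  !(pre.contains q) && pre.all fun p => g126 p q == g126 p b

/-- The candidates for the image of a point. -/
def candL (pre : List ℕ) (b : ℕ) : List ℕ := (List.range 126).filter (candB pre b)

theorem card_step {pre : List ℕ} {b n : ℕ} (hb : b < 126) (hlt : ∀ p ∈ pre, p < 126)
    (hpre : pre.contains b = false)
    (hn : (candL pre b).length ≤ n) :
    Nat.card (fixG adj126 pre) ≤ n * Nat.card (fixG adj126 (b :: pre)) := by
  classical
  set B : Fin 126 := ⟨b, hb⟩
  have hmem : ∀ σ : fixG adj126 pre, (σ.1 B : ℕ) ∈ candL pre b := fun σ => by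
    refine List.mem_filter.2 ⟨List.mem_range.2 (σ.1 B).2, ?_⟩
    rw [candB, Bool.and_eq_true, Bool.not_eq_true', List.all_eq_true]
    refine ⟨Bool.eq_false_iff.2 fun h => ?_, fun p hp => ?_⟩
    · rw [List.contains_iff_mem] at h
      have h1 := σ.2.2 (σ.1 B) h
      rw [σ.1.injective h1] at h
      exact absurd (List.contains_iff_mem.2 h) (Bool.eq_false_iff.1 hpre)
    · rw [beq_iff_eq]
      rcases lt_or_ge p 126 with hp' | hp'
      · have h1 := σ.2.1 ⟨p, hp'⟩ B
        rw [σ.2.2 ⟨p, hp'⟩ hp] at h1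
        exact h1
      · exact absurd hp' (Nat.not_le.2 (hlt p hp))
  let r : ℕ → fixG adj126 pre := fun y => if h : ∃ σ : fixG adj126 pre, (σ.1 B : ℕ) = y then h.choose else 1
  have hr : ∀ σ : fixG adj126 pre, ((r (σ.1 B : ℕ)).1 B : ℕ) = (σ.1 B : ℕ) := fun σ => by
    have hex : ∃ τ : fixG adj126 pre, (τ.1 B : ℕ) = (σ.1 B : ℕ) := ⟨σ, rfl⟩
    simp only [r, dif_pos hex]
    exact hex.choose_spec
  let f : fixG adj126 pre → {y // y ∈ (candL pre b).toFinset} × fixG adj126 (b :: pre) := fun σ =>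
    (⟨(σ.1 B : ℕ), List.mem_toFinset.2 (hmem σ)⟩,
      ⟨((r (σ.1 B : ℕ))⁻¹ * σ).1, (mem_fixG_cons B).2 ⟨((r (σ.1 B : ℕ))⁻¹ * σ).2, by
        simp only [Subgroup.coe_mul, Subgroup.coe_inv, Perm.mul_apply]
        rw [Perm.inv_eq_iff_eq]
        exact (Fin.ext (hr σ)).symm⟩⟩)
  have hf : Function.Injective f := fun σ τ h => by
    have h1 : (σ.1 B : ℕ) = (τ.1 B : ℕ) := congrArg (fun z => z.1.1) h
    have h2 : ((r (σ.1 B : ℕ))⁻¹ * σ).1 = ((r (τ.1 B : ℕ))⁻¹ * τ).1 := congrArg (fun z => z.2.1) h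
    rw [h1] at h2
    exact mul_left_cancel (Subtype.ext h2)
  refine (Nat.card_le_card_of_injective f hf).trans ?_
  rw [Nat.card_prod, Nat.card_eq_finsetCard]
  exact Nat.mul_le_mul_right _ ((List.toFinset_card_le _).trans hn)

/-- The points determined by the base points, round after round. -/
def grow (F : List ℕ) : List ℕ :=
  F ++ (List.range 126).filter fun q => allN (fun q' => Nat.beq q' q || F.contains q' ||
    F.any fun p => g126 p q != g126 p q') 126

theorem fix_grow {σ : Perm (Fin 126)} (hσ : σ ∈ adj126) {F : List ℕ}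
    (hlt : ∀ p ∈ F, p < 126) (h : ∀ x : Fin 126, (x : ℕ) ∈ F → σ x = x) : ∀ x : Fin 126, (x : ℕ) ∈ grow F → σ x = x := by
  intro x hx
  rcases List.mem_append.1 hx with hx | hx
  · exact h x hx
  obtain ⟨-, hx⟩ := List.mem_filter.1 hx
  have h1 := allN_iff hx (σ x : ℕ) (σ x).2
  simp only [Bool.or_eq_true, Nat.beq_eq, List.contains_iff_mem, List.any_eq_true, bne_iff_ne] at h1
  rcases h1 with (h1 | h1) | ⟨p, hp, h1⟩
  · exact Fin.ext h1
  · exact σ.injective (h (σ x) h1)
  · rcases lt_or_ge p 126 with hp' | hp'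
    · refine absurd ?_ h1
      have h2 := hσ ⟨p, hp'⟩ x
      rw [h ⟨p, hp'⟩ hp] at h2
      exact h2.symm
    · exact absurd hp' (Nat.not_le.2 (hlt p hp))

/-- The base of the chain. -/
def upBase : List ℕ := [0, 39, 101, 12, 109, 50, 18]

theorem grow_ok : allN (fun q => (grow (grow upBase)).contains q) 126 = true := by decide +kernel

theorem grow_lt : ((grow upBase).all fun p => Nat.blt p 126) = true := by decide +kernel

theorem sizes_ok : (candL [] 18).length ≤ 126 ∧ (candL [18] 50).length ≤ 45 ∧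
    (candL [50, 18] 109).length ≤ 12 ∧ (candL [109, 50, 18] 12).length ≤ 8 ∧
    (candL [12, 109, 50, 18] 101).length ≤ 6 ∧ (candL [101, 12, 109, 50, 18] 39).length ≤ 2 ∧
    (candL [39, 101, 12, 109, 50, 18] 0).length ≤ 2 := by decide +kernel

theorem fixG_base : fixG adj126 upBase = ⊥ := by
  refine (Subgroup.eq_bot_iff_forall _).2 fun σ hσ => Equiv.ext fun x => ?_
  exact fix_grow hσ.1 (fun p hp => List.all_eq_true.1 grow_lt p hp |> Nat.blt_eq.mp)
    (fix_grow hσ.1 (by decide) hσ.2) x (List.contains_iff_mem.1 (allN_iff grow_ok x x.2))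

/-- At most 13063680 permutations preserve adjacency. -/
theorem card_adj126 : Nat.card adj126 ≤ 13063680 := by
  obtain ⟨h1, h2, h3, h4, h5, h6, h7⟩ := sizes_ok
  have e0 : fixG adj126 [] = adj126 := by
    ext σ
    exact ⟨fun h => h.1, fun h => ⟨h, fun x hx => absurd hx List.not_mem_nil⟩⟩
  have s1 := card_step (by decide) (by decide) (by decide) h1
  have s2 := card_step (by decide) (by decide) (by decide) h2
  have s3 := card_step (by decide) (by decide) (by decide) h3
  have s4 := card_step (by decide) (by decide) (by decide) h4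
  have s5 := card_step (by decide) (by decide) (by decide) h5
  have s6 := card_step (by decide) (by decide) (by decide) h6
  have s7 := card_step (by decide) (by decide) (by decide) h7
  rw [show [0, 39, 101, 12, 109, 50, 18] = upBase from rfl, fixG_base, Subgroup.card_bot] at s7
  rw [e0] at s1
  omega

/-! ### The lower bound -/

/-- The point of a generator. -/
def gpt (i : ℕ) : ℕ := (18 :: link126).getD i 0

/-- The image of a point under a word. -/
def evalW (w : List ℕ) (x : ℕ) : ℕ := w.foldr (fun i y => J2.look (tvTabs.getD (gpt i) 0) y) x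

/-- The permutation of a word. -/
def wordP (w : List ℕ) : Perm (Fin 126) := (w.map fun i => tvP (gpt i)).prod

theorem gpt_lt : allN (fun i => Nat.blt (gpt i) 126) 46 = true := by decide +kernel

theorem wordP_apply : ∀ (w : List ℕ), (∀ i ∈ w, i < 46) → ∀ x : Fin 126, (wordP w x : ℕ) = evalW w x
  | [], _, x => rfl
  | i :: w, h, x => by
    have hi : gpt i < 126 := Nat.blt_eq.mp (allN_iff gpt_lt i (h i (List.mem_cons_self ..)))
    rw [show wordP (i :: w) = tvP (gpt i) * wordP w from List.prod_cons, Perm.mul_apply, tvP_apply hi,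
      wordP_apply w (fun j hj => h j (List.mem_cons_of_mem _ hj)) x]
    rfl

/-- The group generated by the reflections at the base point and at the adjacent points. -/
def linkG : Subgroup (Perm (Fin 126)) :=
  Subgroup.closure ({tau | tau = tvP 18 ∨ ∃ i < 45, tau = tvP (lk i)})

theorem wordP_mem {w : List ℕ} (h : ∀ i ∈ w, i < 46) : wordP w ∈ linkG := by
  refine Subgroup.list_prod_mem _ fun g hg => ?_
  obtain ⟨i, hi, rfl⟩ := List.mem_map.1 hg
  refine Subgroup.subset_closure ?_
  rcases Nat.eq_zero_or_pos i with rfl | hp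
  · exact Or.inl rfl
  · obtain ⟨j, rfl⟩ : ∃ j, i = j + 1 := ⟨i - 1, by omega⟩
    exact Or.inr ⟨j, by have := h _ hi; omega, rfl⟩

/-- Levels of a chain with words in the reflections. -/
def levels : List (ℕ × List (ℕ × List ℕ)) :=
  [(50, [(6, [22]), (7, [17]), (8, [1, 17]), (12, [32]), (13, [1, 27]), (14, [37]), (15, [42]), (16, [27]),
    (17, [1, 37]), (33, [38]), (34, [1, 45]), (35, [31]), (36, [33]), (37, [45]), (38, [1, 31]), (39, [4,
    42]), (40, [39]), (41, [30]), (43, [2]), (48, [1]), (50, []), (54, [44]), (56, [12]), (58, [13]), (62,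
    [10]), (64, [34]), (69, [14]), (72, [25]), (74, [1, 25]), (79, [18]), (80, [8]), (85, [4]), (87, [40]),
    (91, [26]), (93, [2, 26]), (95, [1, 26]), (101, [1, 21]), (103, [23]), (105, [21]), (109, [1, 36]), (111,
    [36]), (116, [2, 36]), (117, [6]), (122, [7]), (124, [29])]),
(109, [(8, [35]), (13, [20]), (17, [3, 20]), (34, [3, 19]), (38, [19]), (39, [43]), (74, [5]), (93, [3, 16]),
    (95, [16]), (101, [15]), (109, []), (116, [3])]),
(12, [(7, [11]), (12, []), (36, [9, 11]), (40, [9]), (43, [9, 41]), (58, [24]), (85, [41]), (91, [9, 24])]),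
(101, [(8, [36, 1, 25, 42]), (13, [28]), (39, [31, 1, 25, 44]), (95, [24, 5, 44, 1, 13]), (101, []), (116,
    [24, 19, 34, 1, 10])]),
(0, [(0, []), (21, [0])])]

/-- A level is witnessed. -/
def levelB (pre : List ℕ) (l : ℕ × List (ℕ × List ℕ)) : Bool :=
  Nat.blt l.1 126 && decide (l.2.map Prod.fst).Nodup && l.2.all fun e =>
    (e.2.all fun i => Nat.blt i 46) && Nat.beq (evalW e.2 l.1) e.1 &&
      pre.all fun p => Nat.beq (evalW e.2 p) p

/-- A chain of levels is witnessed. -/
def chainB : List (ℕ × List (ℕ × List ℕ)) → List ℕ → Bool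
  | [], _ => true
  | l :: ls, pre => levelB pre l && chainB ls (l.1 :: pre)

theorem card_level {pre : List ℕ} {b : ℕ} {L : List (ℕ × List ℕ)} (h : levelB pre (b, L) = true) :
    L.length * Nat.card (fixG linkG (b :: pre)) ≤ Nat.card (fixG linkG pre) := by
  classical
  simp only [levelB, Bool.and_eq_true, Nat.blt_eq, decide_eq_true_eq, List.all_eq_true, Nat.beq_eq] at h
  obtain ⟨⟨hb, hnd⟩, h⟩ := h
  set B : Fin 126 := ⟨b, hb⟩
  have hw : ∀ i : Fin L.length, wordP (L[i.1]).2 ∈ fixG linkG pre := fun i => by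
    obtain ⟨⟨h1, -⟩, h3⟩ := h _ (List.getElem_mem i.2)
    exact ⟨wordP_mem h1, fun x hx => Fin.ext (by rw [wordP_apply _ h1]; exact h3 x hx)⟩
  let f : Fin L.length × fixG linkG (b :: pre) → fixG linkG pre := fun z =>
    ⟨wordP (L[z.1.1]).2 * z.2.1, (fixG linkG pre).mul_mem (hw z.1) ((mem_fixG_cons B).1 z.2.2).1⟩
  have hval : ∀ z, ((f z).1 B : ℕ) = (L[z.1.1]).1 := fun z => by
    obtain ⟨⟨h1, h2⟩, -⟩ := h _ (List.getElem_mem z.1.2)
    show ((wordP (L[z.1.1]).2 * z.2.1) B : ℕ) = _
    rw [Perm.mul_apply, ((mem_fixG_cons B).1 z.2.2).2, wordP_apply _ h1]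
    exact h2
  have hf : Function.Injective f := fun y z hyz => by
    have h1 : (L[y.1.1]).1 = (L[z.1.1]).1 := by rw [← hval, ← hval, hyz]
    have h2 : y.1 = z.1 := by
      refine Fin.ext ((hnd.getElem_inj_iff (hi := by simp) (hj := by simp)).1 ?_)
      simp only [List.getElem_map]
      exact h1
    obtain ⟨i, s⟩ := y
    obtain ⟨j, t⟩ := z
    obtain rfl : i = j := h2
    have h3 : wordP (L[i.1]).2 * s.1 = wordP (L[i.1]).2 * t.1 := congrArg Subtype.val hyz
    rw [Subtype.ext (mul_left_cancel h3)]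
  have := Nat.card_le_card_of_injective f hf
  rwa [Nat.card_prod, Nat.card_fin] at this

theorem card_chain : ∀ (ls : List (ℕ × List (ℕ × List ℕ))) (pre : List ℕ), chainB ls pre = true →
    (ls.map fun l => l.2.length).prod ≤ Nat.card (fixG linkG pre)
  | [], pre, _ => Nat.card_pos
  | (b, L) :: ls, pre, h => by
    rw [chainB, Bool.and_eq_true] at h
    rw [List.map_cons, List.prod_cons]
    exact (Nat.mul_le_mul_left _ (card_chain ls _ h.2)).trans (card_level h.1)

theorem levels_ok : chainB levels [] = true ∧ (levels.map fun l => l.2.length).prod = 51840 := by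
  decide +kernel

/-- The reflections at the base point and at the adjacent points generate at least 51840 elements. -/
theorem card_link_group : 51840 ≤ Nat.card (Subgroup.closure
    ({tau | tau = SUSixU43.tvP 18 ∨ ∃ i < 45, tau = SUSixU43.tvP (lk i)}) : Subgroup (Perm (Fin 126))) := by
  rw [← levels_ok.2]
  refine (card_chain levels [] levels_ok.1).trans_eq (congrArg (fun H : Subgroup _ => Nat.card H) ?_)
  ext σ
  exact ⟨fun h => h.1, fun h => ⟨h, fun x hx => absurd hx List.not_mem_nil⟩⟩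

end Cfsg.Agent.TTLink.Quad
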