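import Cfsg.Agent.TTLink.QuadPairs

/-!
The chart of the factorisations by the 126 points.
-/

set_option autoImplicit false
set_option maxRecDepth 100000

namespace Cfsg.Agent.TTLink.Quad

open Cfsg.Agent.TTLink.QuadData Cfsg.Agent.ThreeTransp45 Cfsg.Agent.SporB Cfsg.Agent.SchurBound

theorem rep_distinct : allN (fun t => allN (fun u => !(Nat.beq (rp t) (tw u)) &&
    (Nat.beq t u || (!(Nat.beq (rp t) (rp u)) && !(Nat.beq (tw t) (tw u))))) 40) 40 = true := by
  decide +kernel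

theorem g18_ok : g126 18 18 = true := by decide +kernel

theorem addP_bit {known a b x y : ℕ} (hy : y < 40) (hb : b < 40)
    (h : bitB (addP known a b) (40 * x + y) = true) : bitB known (40 * x + y) = true ∨ (x = a ∧ y = b) := by
  rw [bitB_eq, addP, show Nat.lor known (Nat.shiftLeft 1 (40 * a + b)) = known ||| (1 <<< (40 * a + b))
    from rfl, Nat.testBit_or, Nat.one_shiftLeft, Nat.testBit_two_pow, Bool.or_eq_true,
    decide_eq_true_eq, ← bitB_eq] at h
  exact h.imp id fun e => ⟨by omega, by omega⟩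

theorem par_lt {t : ℕ} (ht : t < 40) (h0 : t ≠ 0) :
    parL.getD t 0 < t ∧ g126 (rp (parL.getD t 0)) (rp t) = true := by
  have h := allN_iff tree_ok t ht
  simp only [Bool.or_eq_true, Nat.beq_eq, h0, false_or, Bool.and_eq_true, Nat.blt_eq] at h
  exact h

theorem hasP_addP {known a b x y : ℕ} (hx : x < 40) (hy : y < 40) (hb : b < 40)
    (h : hasP (addP known a b) x y = true) :
    hasP known x y = true ∨ (x = a ∧ y = b) ∨ (x = b ∧ y = a) := by
  rw [hasP, Bool.or_eq_true] at h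
  rcases h with h | h
  · rcases addP_bit hy hb h with h | h
    · exact Or.inl (by rw [hasP, h, Bool.true_or])
    · exact Or.inr (Or.inl h)
  · rcases addP_bit hx hb h with h | h
    · exact Or.inl (by rw [hasP, h, Bool.or_true])
    · exact Or.inr (Or.inr ⟨h.2, h.1⟩)

theorem hasP_tree {x y : ℕ} (hx : x < 40) (hy : y < 40) (h : hasP treeEdges x y = true) :
    (y ≠ 0 ∧ x = parL.getD y 0) ∨ (x ≠ 0 ∧ y = parL.getD x 0) := by
  have key : ∀ n, n ≤ 39 → hasP ((List.range n).foldl (fun k i => addP k (parL.getD (i + 1) 0) (i + 1)) 0) x y =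
      true → (y ≠ 0 ∧ x = parL.getD y 0) ∨ (x ≠ 0 ∧ y = parL.getD x 0) := by
    intro n
    induction n with
    | zero => intro _ h; simp [hasP, bitB_eq] at h
    | succ n ih =>
      intro hn h
      rw [List.range_succ, List.foldl_append, List.foldl_cons, List.foldl_nil] at h
      rcases hasP_addP hx hy (by omega) h with h | ⟨e1, e2⟩ | ⟨e1, e2⟩
      · exact ih (by omega) h
      · exact Or.inl ⟨by omega, e2 ▸ e1⟩
      · exact Or.inr ⟨by omega, e1 ▸ e2⟩
  exact key 39 le_rfl h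

theorem matched {t u : ℕ} (ht : t < 40) (hu : u < 40) (h : t ≠ u) :
    ((g126 (rp t) (rp u) = true ∨ g126 (rp t) (tw u) = true) ↔ hasPair (Nat.land (ov t) (ov u)) = true) ∧
      ¬ (g126 (rp t) (rp u) = true ∧ g126 (rp t) (tw u) = true) ∧
      g126 (tw t) (tw u) = g126 (rp t) (rp u) ∧ g126 (tw t) (rp u) = g126 (rp t) (tw u) := by
  have h' := allN_iff (allN_iff matched_ok t ht) u hu
  simp only [Bool.or_eq_true, Nat.beq_eq, h, false_or, Bool.and_eq_true, beq_iff_eq, Bool.not_eq_true'] at h'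
  obtain ⟨⟨⟨⟨a, b⟩, c⟩, d⟩, -⟩ := h'
  refine ⟨?_, fun e => ?_, c, d⟩
  · rw [← Bool.or_eq_true, a]
  · rw [e.1, e.2] at b
    exact Bool.noConfusion b

theorem sym126 {a b : ℕ} (ha : a < 126) (hb : b < 126) : g126 a b = g126 b a := by
  have := allN_iff (Bool.and_eq_true_iff.1 (allN_iff basic126 a ha)).2 b hb
  exact beq_iff_eq.1 this

variable {G : Type*} [Group G] [Finite G] {D : Set G} {z : G} {x : G} {f : G → ℕ} {nb : ℕ → G}

/-- Oriented representatives of the far factorisations. -/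
structure Reps (D : Set G) (z x : G) (nb ρ : ℕ → G) : Prop where
  ovr : ∀ t < 40, Over D z x nb (ρ t) t
  tree : ∀ t < 40, t ≠ 0 → Commute (ρ (parL.getD t 0)) (ρ t)

theorem Base.exists_reps (B : Base D z x f nb) (S : Space D z) (F : SixFacts D z) :
    ∃ ρ, Reps D z x nb ρ := by
  classical
  have hY : ∀ t, ∃ y, t < 40 → Over D z x nb y t := fun t => by
    by_cases ht : t < 40
    · obtain ⟨y, hy⟩ := B.exists_point S F.two ht
      exact ⟨y, fun _ => hy⟩
    · exact ⟨1, fun h => absurd h ht⟩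
  choose Y hY using hY
  suffices h : ∀ n ≤ 40, ∃ ρ : ℕ → G, (∀ t < n, Over D z x nb (ρ t) t) ∧
      ∀ t < n, t ≠ 0 → Commute (ρ (parL.getD t 0)) (ρ t) by
    obtain ⟨ρ, h1, h2⟩ := h 40 le_rfl
    exact ⟨ρ, h1, h2⟩
  intro n
  induction n with
  | zero => exact fun _ => ⟨Y, fun t ht => absurd ht (Nat.not_lt_zero t), fun t ht => absurd ht (Nat.not_lt_zero t)⟩
  | succ n ih =>
    intro hn
    obtain ⟨ρ, h1, h2⟩ := ih (by omega)
    have key : ∃ w, Over D z x nb w n ∧ (n ≠ 0 → Commute (ρ (parL.getD n 0)) w) := by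
      by_cases h0 : n = 0
      · exact ⟨Y n, hY n (by omega), fun h => absurd h0 h⟩
      obtain ⟨hp, hg⟩ := par_lt (show n < 40 by omega) h0
      have hne : parL.getD n 0 ≠ n := by omega
      have hpair := (matched (by omega) (show n < 40 by omega) hne).1.1 (Or.inl hg)
      rcases B.comm_or S (h1 _ hp) (hY n (by omega)) hne hpair with c | c
      · exact ⟨_, hY n (by omega), fun _ => c⟩
      · exact ⟨_, (hY n (by omega)).twin S B, fun _ => c⟩
    obtain ⟨w, hw, hwc⟩ := key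
    refine ⟨Function.update ρ n w, fun t ht => ?_, fun t ht h0 => ?_⟩
    · by_cases e : t = n
      · subst e; rw [Function.update_self]; exact hw
      · rw [Function.update_of_ne e]; exact h1 t (by omega)
    · have hp := (par_lt (show t < 40 by omega) h0).1
      rw [Function.update_of_ne (show parL.getD t 0 ≠ n by omega)]
      by_cases e : t = n
      · subst e; rw [Function.update_self]; exact hwc h0
      · rw [Function.update_of_ne e]; exact h2 t (by omega) h0

/-- The adjacency of the representatives is the tabulated one. -/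
theorem Reps.adj {ρ : ℕ → G} (R : Reps D z x nb ρ) (B : Base D z x f nb) (S : Space D z)
    (F : SixFacts D z) {t u : ℕ} (ht : t < 40) (hu : u < 40) (htu : t ≠ u) :
    Commute (ρ t) (ρ u) ↔ g126 (rp t) (rp u) = true := by
  let Good : ℕ → Prop := fun known => ∀ a b, a < 40 → b < 40 → a ≠ b → hasP known a b = true →
    (Commute (ρ a) (ρ b) ↔ g126 (rp a) (rp b) = true)
  have rlt : ∀ a < 40, rp a < 126 := fun a ha => by
    have := allN_iff far_ok a ha
    simp only [Bool.and_eq_true, Nat.blt_eq] at this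
    exact this.1.1.1.1.1.1
  suffices key : ∀ (L : List (ℕ × ℕ × ℕ)) (known : ℕ), Good known → runSteps L known = true →
      (Commute (ρ t) (ρ u) ↔ g126 (rp t) (rp u) = true) by
    refine key stepL treeEdges (fun a b ha hb hab h => ?_) run_ok
    rcases hasP_tree ha hb h with ⟨h0, e⟩ | ⟨h0, e⟩
    · exact iff_of_true (e ▸ R.tree b hb h0) (e ▸ (par_lt hb h0).2)
    · exact iff_of_true (e ▸ R.tree a ha h0).symm
        (by rw [sym126 (rlt a ha) (rlt b hb), e]; exact (par_lt ha h0).2)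
  intro L
  induction L with
  | nil =>
    intro known hg h
    have h' := allN_iff (allN_iff h t ht) u hu
    simp only [Bool.or_eq_true, Nat.beq_eq, htu, false_or, Bool.not_eq_true'] at h'
    rcases h' with h' | h'
    · exact hg t u ht hu htu h'
    · exact iff_of_false (fun c => by rw [B.pair_of_comm S F (R.ovr t ht) (R.ovr u hu) htu c] at h'; exact Bool.noConfusion h')
        fun c => by rw [(matched ht hu htu).1.1 (Or.inl c)] at h'; exact Bool.noConfusion h'
  | cons s L ih =>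
    intro known hg h
    simp only [runSteps, stepB, Bool.and_eq_true] at h
    obtain ⟨⟨⟨⟨⟨⟨⟨⟨⟨⟨⟨⟨pij, pik⟩, hi⟩, hj⟩, hk⟩, nij⟩, nik⟩, njk⟩, qij⟩, qik⟩, qjk⟩, heq⟩, hrest⟩ := h
    obtain ⟨i, j, k⟩ := s
    simp only [Nat.blt_eq] at hi hj hk
    simp only [Bool.not_eq_true', Bool.eq_false_iff, ne_eq, Nat.beq_eq] at nij nik njk
    simp only at pij pik qij qik qjk heq
    refine ih _ (fun a b ha hb hab h => ?_) hrest
    have main : Commute (ρ j) (ρ k) ↔ g126 (rp j) (rp k) = true := by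
      have oi := R.ovr i hi; have oj := R.ovr j hj; have ok' := R.ovr k hk
      have e1 := hg i j hi hj nij pij
      have e2 := hg i k hi hk nik pik
      obtain ⟨uj, huj, cj', hjj⟩ : ∃ w, Over D z x nb w j ∧ Commute (ρ i) w ∧
          w = (if g126 (rp i) (rp j) then ρ j else cj x (ρ j)) := by
        cases e : g126 (rp i) (rp j)
        · exact ⟨_, oj.twin S B, (B.twin_iff S F oi oj nij).2 ⟨qij, by rw [e1, e]; simp⟩, by simp⟩
        · exact ⟨_, oj, e1.2 e, by simp⟩
      obtain ⟨uk, huk, ck', hkk⟩ : ∃ w, Over D z x nb w k ∧ Commute (ρ i) w ∧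
          w = (if g126 (rp i) (rp k) then ρ k else cj x (ρ k)) := by
        cases e : g126 (rp i) (rp k)
        · exact ⟨_, ok'.twin S B, (B.twin_iff S F oi ok' nik).2 ⟨qik, by rw [e2, e]; simp⟩, by simp⟩
        · exact ⟨_, ok', e2.2 e, by simp⟩
      have tr := B.triple S F oi huj huk nij nik njk cj' ck'
      have flip : Commute (ρ j) (cj x (ρ k)) ↔ ¬ Commute (ρ j) (ρ k) :=
        ⟨fun c => ((B.twin_iff S F oj ok' njk).1 c).2, fun c => (B.twin_iff S F oj ok' njk).2 ⟨qjk, c⟩⟩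
      rw [beq_iff_eq] at heq
      rw [hjj, hkk] at tr
      rw [heq]
      cases e : g126 (rp i) (rp j) <;> cases e' : g126 (rp i) (rp k) <;>
        simp only [e, e', if_true, if_false, Bool.false_eq_true, ↓reduceIte] at tr ⊢
      · rw [cj_commute_iff] at tr
        rw [tr]; simp
      · rw [S.comm_refl_iff B.mem, flip] at tr
        rw [← not_iff_not, tr]; simp
      · rw [flip] at tr
        rw [← not_iff_not, tr]; simp
      · rw [tr]; simp
    rcases hasP_addP ha hb hk h with h | ⟨ea, eb⟩ | ⟨ea, eb⟩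
    · exact hg a b ha hb hab h
    · rw [ea, eb]; exact main
    · rw [ea, eb, sym126 (rlt k hk) (rlt j hj), ← main]
      exact ⟨Commute.symm, Commute.symm⟩

theorem Space.exists_chart (S : Space D z) (F : SixFacts D z) {x : G} (hx : InQ D z x) :
    ∃ ψ, Chart D z ψ := by
  classical
  obtain ⟨f, nb, B⟩ := exists_base S hx
  obtain ⟨ρ, R⟩ := B.exists_reps S F
  let tOf : G → ℕ := fun y => if h : ∃ t, Over D z x nb y t then h.choose else 0
  have htOf : ∀ {y}, Far D z x y → Over D z x nb y (tOf y) := fun {y} hy => by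
    have h := B.exists_over S F.two hy
    simp only [tOf, dif_pos h]
    exact h.choose_spec
  let ψ : G → ℕ := fun y => if Commute x y then (if Same D z x y then 18 else lk (f y))
    else (if Same D z y (ρ (tOf y)) then rp (tOf y) else tw (tOf y))
  have farf : ∀ t < 40, rp t < 126 ∧ tw t < 126 ∧ g126 18 (rp t) = false ∧ g126 18 (tw t) = false ∧
      g126 (rp t) (tw t) = false ∧ ∀ i < 45, bitB (ov t) i = g126 (rp t) (lk i) ∧
        bitB (ov t) i = g126 (tw t) (lk i) := fun t ht => by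
    have h := allN_iff far_ok t ht
    simp only [Bool.and_eq_true, Nat.blt_eq, Bool.not_eq_true'] at h
    obtain ⟨⟨⟨⟨⟨⟨a, b⟩, c⟩, d⟩, -⟩, e⟩, g⟩ := h
    refine ⟨a, b, c, d, e, fun i hi => ?_⟩
    have := allN_iff g i hi
    simp only [Bool.and_eq_true, beq_iff_eq] at this
    exact this
  have linkf : ∀ i < 45, lk i < 126 ∧ g126 18 (lk i) = true ∧ lk i ≠ 18 ∧
      ∀ j < 45, g126 (lk i) (lk j) = g45 i j ∧ (lk i = lk j → i = j) := fun i hi => by
    have h := allN_iff link_ok i hi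
    simp only [Bool.and_eq_true, Nat.blt_eq, Bool.not_eq_true', Bool.eq_false_iff, ne_eq, Nat.beq_eq] at h
    obtain ⟨⟨⟨a, b⟩, c⟩, d⟩ := h
    refine ⟨a, b, c, fun j hj => ?_⟩
    have := allN_iff d j hj
    simp only [Bool.and_eq_true, beq_iff_eq, Bool.or_eq_true, Nat.beq_eq, Bool.not_eq_true',
      Bool.eq_false_iff, ne_eq] at this
    exact ⟨this.1, fun e => this.2.resolve_right fun h => h e⟩
  -- the three kinds of points
  have cases : ∀ y, InQ D z y → (Same D z x y ∧ ψ y = 18) ∨ (Nbr D z x y ∧ ψ y = lk (f y)) ∨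
      (∃ t, Over D z x nb y t ∧ ((Same D z y (ρ t) ∧ ψ y = rp t) ∨ (Same D z y (cj x (ρ t)) ∧ ψ y = tw t))) := by
    intro y hy
    by_cases hc : Commute x y
    · by_cases hs : Same D z x y
      · exact Or.inl ⟨hs, by simp [ψ, hc, hs]⟩
      · exact Or.inr (Or.inl ⟨⟨hy, hc, hs⟩, by simp [ψ, hc, hs]⟩)
    · have ho := htOf ⟨hy, hc⟩
      refine Or.inr (Or.inr ⟨tOf y, ho, ?_⟩)
      by_cases hs : Same D z y (ρ (tOf y))
      · exact Or.inl ⟨hs, by simp [ψ, hc, hs]⟩
      · exact Or.inr ⟨(B.twin S (R.ovr _ ho.2.1) ho).resolve_left hs, by simp [ψ, hc, hs]⟩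
  -- representatives
  have rep : ∀ y, InQ D z y → ∃ w, Same D z y w ∧ ψ y < 126 ∧
      ((w = x ∧ ψ y = 18) ∨ (∃ i < 45, w = nb i ∧ ψ y = lk i) ∨
        (∃ t < 40, w = ρ t ∧ ψ y = rp t) ∨ ∃ t < 40, w = cj x (ρ t) ∧ ψ y = tw t) := by
    intro y hy
    rcases cases y hy with ⟨h, e⟩ | ⟨h, e⟩ | ⟨t, ho, ⟨h, e⟩ | ⟨h, e⟩⟩
    · exact ⟨x, h.symm, by rw [e]; norm_num, Or.inl ⟨rfl, e⟩⟩
    · exact ⟨_, B.same_nb h, e ▸ (linkf _ (B.chart.lt y h)).1, Or.inr (Or.inl ⟨_, B.chart.lt y h, rfl, e⟩)⟩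
    · exact ⟨_, h, e ▸ (farf t ho.2.1).1, Or.inr (Or.inr (Or.inl ⟨t, ho.2.1, rfl, e⟩))⟩
    · exact ⟨_, h, e ▸ (farf t ho.2.1).2.1, Or.inr (Or.inr (Or.inr ⟨t, ho.2.1, rfl, e⟩))⟩
  let Rel : G → ℕ → Prop := fun w k => (w = x ∧ k = 18) ∨ (∃ i < 45, w = nb i ∧ k = lk i) ∨
    (∃ t < 40, w = ρ t ∧ k = rp t) ∨ ∃ t < 40, w = cj x (ρ t) ∧ k = tw t
  have relk : ∀ w k, Rel w k → InQ D z w ∧ k < 126 := by
    rintro w k (⟨rfl, rfl⟩ | ⟨i, hi, rfl, rfl⟩ | ⟨t, ht, rfl, rfl⟩ | ⟨t, ht, rfl, rfl⟩)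
    exacts [⟨hx, by norm_num⟩, ⟨(B.nbr i hi).1, (linkf i hi).1⟩, ⟨(R.ovr t ht).1.1, (farf t ht).1⟩,
      ⟨((R.ovr t ht).twin S B).1.1, (farf t ht).2.1⟩]
  have tadj : ∀ t u, t < 40 → u < 40 → (Commute (ρ t) (ρ u) ↔ g126 (rp t) (rp u) = true) ∧
      (Commute (ρ t) (cj x (ρ u)) ↔ g126 (rp t) (tw u) = true) := by
    intro t u ht hu
    by_cases e : t = u
    · subst e
      refine ⟨iff_of_true (Commute.refl _) (Bool.and_eq_true_iff.1 (allN_iff basic126 _ (farf t ht).1)).1, ?_⟩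
      exact iff_of_false ((R.ovr t ht).1.twin S hx).2 (by simp [(farf t ht).2.2.2.2.1])
    · have h1 := R.adj B S F ht hu e
      refine ⟨h1, ?_⟩
      rw [B.twin_iff S F (R.ovr t ht) (R.ovr u hu) e, h1]
      obtain ⟨a, b, -, -⟩ := matched ht hu e
      constructor
      · rintro ⟨hp, hn⟩
        exact (a.2 hp).resolve_left hn
      · exact fun h => ⟨a.1 (Or.inr h), fun h' => b ⟨h', h⟩⟩
  have half : ∀ w k w' k', Rel w k → Rel w' k' →
      (Commute w w' ↔ g126 k k' = true) ∨ (Commute w' w ↔ g126 k' k = true) := by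
    rintro w k w' k' (⟨rfl, rfl⟩ | ⟨i, hi, rfl, rfl⟩ | ⟨t, ht, rfl, rfl⟩ | ⟨t, ht, rfl, rfl⟩)
      (⟨rfl, rfl⟩ | ⟨j, hj, rfl, rfl⟩ | ⟨u, hu, rfl, rfl⟩ | ⟨u, hu, rfl, rfl⟩)
    · exact Or.inl (iff_of_true (Commute.refl _) g18_ok)
    · exact Or.inl (iff_of_true (B.nbr j hj).2.1 (linkf j hj).2.1)
    · exact Or.inl (iff_of_false (R.ovr u hu).1.2 (by simp [(farf u hu).2.2.1]))
    · exact Or.inl (iff_of_false ((R.ovr u hu).twin S B).1.2 (by simp [(farf u hu).2.2.2.1]))
    · exact Or.inr (iff_of_true (B.nbr i hi).2.1 (linkf i hi).2.1)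
    · refine Or.inl ?_
      rw [B.adj hi hj, ((linkf i hi).2.2.2 j hj).1]
    · refine Or.inr ?_
      rw [(R.ovr u hu).2.2 i hi, ((farf u hu).2.2.2.2.2 i hi).1]
    · refine Or.inr ?_
      rw [((R.ovr u hu).twin S B).2.2 i hi, ((farf u hu).2.2.2.2.2 i hi).2]
    · exact Or.inr (iff_of_false (R.ovr t ht).1.2 (by simp [(farf t ht).2.2.1]))
    · refine Or.inl ?_
      rw [(R.ovr t ht).2.2 j hj, ((farf t ht).2.2.2.2.2 j hj).1]
    · exact Or.inl (tadj t u ht hu).1
    · exact Or.inl (tadj t u ht hu).2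
    · exact Or.inr (iff_of_false ((R.ovr t ht).twin S B).1.2 (by simp [(farf t ht).2.2.2.1]))
    · refine Or.inl ?_
      rw [((R.ovr t ht).twin S B).2.2 j hj, ((farf t ht).2.2.2.2.2 j hj).2]
    · exact Or.inr (tadj u t hu ht).2
    · refine Or.inl ?_
      rw [cj_commute_iff, (tadj t u ht hu).1]
      by_cases e : t = u
      · subst e
        exact iff_of_true (Bool.and_eq_true_iff.1 (allN_iff basic126 _ (farf t ht).1)).1
          (Bool.and_eq_true_iff.1 (allN_iff basic126 _ (farf t ht).2.1)).1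
      · rw [(matched ht hu e).2.2.1]
  have full : ∀ w k w' k', Rel w k → Rel w' k' → (Commute w w' ↔ g126 k k' = true) := by
    intro w k w' k' h h'
    rcases half w k w' k' h h' with e | e
    · exact e
    · rw [sym126 (relk w k h).2 (relk w' k' h').2, ← e]
      exact ⟨Commute.symm, Commute.symm⟩
  have distinct : ∀ w w' k, Rel w k → Rel w' k → w = w' := by
    have g : ∀ i < 45, ∀ t < 40, lk i ≠ rp t ∧ lk i ≠ tw t := fun i hi t ht =>
      ⟨fun e => by have := (linkf i hi).2.1; rw [e, (farf t ht).2.2.1] at this; exact Bool.noConfusion this,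
        fun e => by have := (linkf i hi).2.1; rw [e, (farf t ht).2.2.2.1] at this; exact Bool.noConfusion this⟩
    have g0 : ∀ t < 40, (18 : ℕ) ≠ rp t ∧ (18 : ℕ) ≠ tw t := fun t ht =>
      ⟨fun e => by have := (farf t ht).2.2.1; rw [← e, g18_ok] at this; exact Bool.noConfusion this,
        fun e => by have := (farf t ht).2.2.2.1; rw [← e, g18_ok] at this; exact Bool.noConfusion this⟩
    have d : ∀ t < 40, ∀ u < 40, rp t ≠ tw u ∧ (rp t = rp u → t = u) ∧ (tw t = tw u → t = u) := by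
      intro t ht u hu
      have h := allN_iff (allN_iff rep_distinct t ht) u hu
      simp only [Bool.and_eq_true, Bool.or_eq_true, Bool.not_eq_true', Bool.eq_false_iff, ne_eq, Nat.beq_eq] at h
      exact ⟨h.1, fun e => h.2.resolve_right fun h' => h'.1 e, fun e => h.2.resolve_right fun h' => h'.2 e⟩
    rintro w w' k (⟨rfl, rfl⟩ | ⟨i, hi, rfl, rfl⟩ | ⟨t, ht, rfl, rfl⟩ | ⟨t, ht, rfl, rfl⟩)
      (⟨rfl, e⟩ | ⟨j, hj, rfl, e⟩ | ⟨u, hu, rfl, e⟩ | ⟨u, hu, rfl, e⟩)
    · rfl
    · exact absurd e.symm (linkf j hj).2.2.1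
    · exact absurd e (g0 u hu).1
    · exact absurd e (g0 u hu).2
    · exact absurd e (linkf i hi).2.2.1
    · rw [((linkf i hi).2.2.2 j hj).2 e]
    · exact absurd e (g i hi u hu).1
    · exact absurd e (g i hi u hu).2
    · exact absurd e.symm (g0 t ht).1
    · exact absurd e.symm (g j hj t ht).1
    · rw [(d t ht u hu).2.1 e]
    · exact absurd e (d t ht u hu).1
    · exact absurd e.symm (g0 t ht).2
    · exact absurd e.symm (g j hj t ht).2
    · exact absurd e.symm (d u hu t ht).1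
    · rw [(d t ht u hu).2.2 e]
  refine ⟨ψ, fun y hy => ?_, fun y y' hy hy' => ?_, fun y y' hy hy' => ?_, fun k hk => ?_⟩
  · obtain ⟨w, -, h, -⟩ := rep y hy; exact h
  · obtain ⟨w, hw, -, r⟩ := rep y hy
    obtain ⟨w', hw', -, r'⟩ := rep y' hy'
    constructor
    · intro h
      by_contra hne
      have hww : Same D z w w' := S.trans (S.trans hw.symm h) hw'
      rcases r with ⟨rfl, e⟩ | ⟨i, hi, rfl, e⟩ | ⟨t, ht, rfl, e⟩ | ⟨t, ht, rfl, e⟩ <;>
        rcases r' with ⟨rfl, e'⟩ | ⟨j, hj, rfl, e'⟩ | ⟨u, hu, rfl, e'⟩ | ⟨u, hu, rfl, e'⟩ <;>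
        rw [e, e'] at hne
      · exact hne rfl
      · exact (B.nbr j hj).2.2 hww
      · exact (R.ovr u hu).1.2 hww.commute
      · exact ((R.ovr u hu).twin S B).1.2 hww.commute
      · exact (B.nbr i hi).2.2 hww.symm
      · exact hne (by rw [(B.same_iff hi hj).1 hww])
      · exact (R.ovr u hu).1.not_nbr_same S hx (B.nbr i hi).2.1 hww
      · exact ((R.ovr u hu).twin S B).1.not_nbr_same S hx (B.nbr i hi).2.1 hww
      · exact (R.ovr t ht).1.2 hww.commute.symm
      · exact (R.ovr t ht).1.not_nbr_same S hx (B.nbr j hj).2.1 hww.symm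
      · exact hne (by rw [((R.ovr t ht).congr S B hww).uniq (R.ovr u hu)])
      · have := ((R.ovr t ht).congr S B hww).uniq ((R.ovr u hu).twin S B)
        subst this
        exact ((R.ovr t ht).1.twin S hx).2 hww.commute
      · exact ((R.ovr t ht).twin S B).1.2 hww.commute.symm
      · exact ((R.ovr t ht).twin S B).1.not_nbr_same S hx (B.nbr j hj).2.1 hww.symm
      · have := (((R.ovr t ht).twin S B).congr S B hww).uniq (R.ovr u hu)
        subst this
        exact ((R.ovr t ht).1.twin S hx).2 hww.commute.symm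
      · exact hne (by rw [(((R.ovr t ht).twin S B).congr S B hww).uniq ((R.ovr u hu).twin S B)])
    · intro h
      have e := distinct w w' (ψ y) r (h ▸ r')
      subst e
      exact S.trans hw hw'.symm
  · obtain ⟨w, hw, -, r⟩ := rep y hy
    obtain ⟨w', hw', -, r'⟩ := rep y' hy'
    rw [S.comm_congr' hw hy', show Commute w y' ↔ Commute y' w from ⟨Commute.symm, Commute.symm⟩,
      S.comm_congr' hw' hw.right, ← show Commute w w' ↔ Commute w' w from ⟨Commute.symm, Commute.symm⟩]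
    exact full w _ w' _ r r'
  · have hk' := allN_iff cover_ok.1 k hk
    simp only [Bool.or_eq_true, Nat.beq_eq, List.contains_iff_mem] at hk'
    have hit : ∀ w, Rel w k → ∃ y, InQ D z y ∧ ψ y = k := fun w hw => by
      refine ⟨w, (relk w k hw).1, ?_⟩
      by_contra hne
      rcases cases w (relk w k hw).1 with ⟨h, e⟩ | ⟨h, e⟩ | ⟨t, ho, h⟩ <;>
        rcases hw with ⟨rfl, rfl⟩ | ⟨j, hj, rfl, rfl⟩ | ⟨u, hu, rfl, rfl⟩ | ⟨u, hu, rfl, rfl⟩
      · exact hne e
      · exact (B.nbr j hj).2.2 h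
      · exact (R.ovr u hu).1.2 h.commute
      · exact ((R.ovr u hu).twin S B).1.2 h.commute
      · exact h.2.2 (S.refl hx)
      · exact hne (by rw [e, B.val j hj])
      · exact (R.ovr u hu).1.2 h.2.1
      · exact ((R.ovr u hu).twin S B).1.2 h.2.1
      · exact ho.1.2 (Commute.refl _)
      · exact ho.1.2 (B.nbr j hj).2.1
      · have := ho.uniq (R.ovr u hu)
        subst this
        rcases h with ⟨-, e⟩ | ⟨h, -⟩
        · exact hne e
        · exact ((R.ovr t hu).1.twin S hx).2 h.commute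
      · have := ho.uniq ((R.ovr u hu).twin S B)
        subst this
        rcases h with ⟨h, -⟩ | ⟨-, e⟩
        · exact ((R.ovr t hu).1.twin S hx).2 h.commute.symm
        · exact hne e
    rcases hk' with ((h | h) | h) | h
    · exact hit x (Or.inl ⟨rfl, h⟩)
    · obtain ⟨i, hi, e⟩ := List.mem_iff_getElem.1 h
      exact hit _ (Or.inr (Or.inl ⟨i, cover_ok.2.1 ▸ hi, rfl, by rw [lk, List.getD_eq_getElem _ _ hi, e]⟩))
    · obtain ⟨i, hi, e⟩ := List.mem_iff_getElem.1 h
      exact hit _ (Or.inr (Or.inr (Or.inl ⟨i, cover_ok.2.2.1 ▸ hi, rfl, by rw [rp, List.getD_eq_getElem _ _ hi, e]⟩)))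
    · obtain ⟨i, hi, e⟩ := List.mem_iff_getElem.1 h
      exact hit _ (Or.inr (Or.inr (Or.inr ⟨i, cover_ok.2.2.2 ▸ hi, rfl, by rw [tw, List.getD_eq_getElem _ _ hi, e]⟩)))

end Cfsg.Agent.TTLink.Quad
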