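import Cfsg.Agent.TTLink.QuadPairs

/-!
Six mutually commuting factorisations: any other commutes with exactly two of them.
-/

set_option autoImplicit false
set_option maxRecDepth 100000

namespace Cfsg.Agent.TTLink.Quad

open Cfsg.Agent.TTLink.QuadData Cfsg.Agent.ThreeTransp45 Cfsg.Agent.SporB

variable {G : Type*} [Group G] [Finite G] {D : Set G} {z : G}

/-- Three of the six do not commute with an outside factorisation. -/
theorem Six.no_three (S : Space D z) {c : Fin 6 → G} (hc : Six D z c) {y : G} (hy : InQ D z y)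
    (hn : ∀ i, ¬ Same D z (c i) y) {i j k : Fin 6} (hij : i ≠ j) (hik : i ≠ k) (hjk : j ≠ k)
    (ci : Commute (c i) y) (cjy : Commute (c j) y) (ck : Commute (c k) y) : False := by
  classical
  obtain ⟨h, hh⟩ := S.loc _ (hc.mem i)
  have hy' : Nbr D z (c i) y := ⟨hy, ci, hn i⟩
  have hm : ∀ m, m ≠ i → Nbr D z (c i) (c m) := fun m e => ⟨hc.mem m, hc.comm i m, hc.inj i m e.symm⟩
  have nj := hm j hij.symm
  have nk := hm k hik.symm
  have hne : h (c j) ≠ h (c k) := fun e => hc.inj j k hjk ((hh.same _ _ nj nk).2 e)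
  have a : ∀ {u v : G}, Nbr D z (c i) u → Nbr D z (c i) v → Commute u v → g45 (h u) (h v) = true :=
    fun hu hv e => (hh.adj _ _ hu hv).1 e
  obtain ⟨l, hl, -, -, hall⟩ := exists_line (hh.lt _ nj) (hh.lt _ nk) hne (a nj nk (hc.comm j k))
  have hy_mem := hall _ (hh.lt _ hy') (a nj hy' cjy) (a nk hy' ck)
  set s := (Finset.univ.erase i).image fun m => h (c m)
  have hsub : insert (h y) s ⊆ l.toFinset := by
    intro v hv
    rw [List.mem_toFinset]
    rcases Finset.mem_insert.1 hv with rfl | hv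
    · exact hy_mem
    · obtain ⟨m, hm', rfl⟩ := Finset.mem_image.1 hv
      have nm := hm m (Finset.ne_of_mem_erase hm')
      exact hall _ (hh.lt _ nm) (a nj nm (hc.comm j m)) (a nk nm (hc.comm k m))
  have hy_not : h y ∉ s := by
    intro hv
    obtain ⟨m, hm', e⟩ := Finset.mem_image.1 hv
    exact hn m ((hh.same _ _ (hm m (Finset.ne_of_mem_erase hm')) hy').2 e)
  have hs : s.card = 5 := by
    rw [Finset.card_image_of_injOn fun m hm' m' hm'' e => ?_]
    · simp
    · by_contra hne'
      exact hc.inj m m' hne' ((hh.same _ _ (hm m (Finset.ne_of_mem_erase hm'))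
        (hm m' (Finset.ne_of_mem_erase hm''))).2 e)
  have := Finset.card_le_card hsub
  rw [Finset.card_insert_of_notMem hy_not, hs] at this
  have := l.toFinset_card_le
  rw [(line_spec hl).1] at this
  omega

/-- The reflection of `y` in three members, moved back. -/
def reflThree (c : Fin 6 → G) (y : G) (i j k : Fin 6) : G := cj y (cj (c i) (cj (c j) (cj (c k) y)))

theorem Six.cj_swap {c : Fin 6 → G} (hc : Six D z c) (i j : Fin 6) (v : G) :
    cj (c i) (cj (c j) v) = cj (c j) (cj (c i) v) := by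
  rw [← cj_mul, ← cj_mul, (hc.comm i j).eq]

theorem Six.reflThree_spec (S : Space D z) {c : Fin 6 → G} (hc : Six D z c) {y : G} (hy : InQ D z y)
    (hn : ∀ i, ¬ Same D z (c i) y) {i j k : Fin 6} (hij : i ≠ j) (hik : i ≠ k) (hjk : j ≠ k)
    (ni : ¬ Commute (c i) y) (nj : ¬ Commute (c j) y) (nk : ¬ Commute (c k) y) :
    ∃ n, Same D z (reflThree c y i j k) (c n) ∧ n ≠ i ∧ n ≠ j ∧ n ≠ k ∧ ¬ Commute (c n) y := by
  classical
  set u := cj (c k) y with hu
  set A := cj (c i) (cj (c j) u) with hA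
  have mu : InQ D z u := S.inQ_refl (hc.mem k) hy
  have mA : InQ D z A := S.inQ_refl (hc.mem i) (S.inQ_refl (hc.mem j) mu)
  have mw : InQ D z (cj y A) := S.inQ_refl hy mA
  have fix : ∀ m m', cj (c m) (c m') = c m' := fun m m' => (cj_eq_self_iff _ _).2 (hc.comm m m')
  have swp : ∀ m, ¬ Commute (c m) y → cj y (c m) = cj (c m) y := fun m e =>
    S.data.cj_comm hy.1 (hc.mem m).1 fun h => e h.symm
  have far : ∀ {m n : Fin 6}, ¬ Commute (c m) y → ¬ Commute (c m) (cj (c n) y) := fun {m n} e h => e (by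
    have := (S.comm_refl_iff (hc.mem n)).1 h.symm
    rw [fix] at this
    exact this.symm)
  have red : ∀ m, ¬ Commute (c m) y → (Commute (cj y A) (c m) ↔ Commute A (cj (c m) y)) := fun m e => by
    rw [S.comm_refl_iff hy, swp m e]
  have w_i : Commute (cj y A) (c i) := by
    rw [red i ni, hA, cj_commute_iff]
    exact (S.legs (hc.mem j) (hc.mem k) hy (hc.comm j k) nj nk).symm
  have w_j : Commute (cj y A) (c j) := by
    rw [red j nj, hA, hc.cj_swap i j, cj_commute_iff]
    exact (S.legs (hc.mem i) (hc.mem k) hy (hc.comm i k) ni nk).symm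
  have w_k : Commute (cj y A) (c k) := by
    rw [red k nk]
    exact (S.legs (hc.mem i) (hc.mem j) mu (hc.comm i j) (far ni) (far nj)).symm
  have w_y : ¬ Commute (cj y A) y := by
    intro h
    have hAy : Commute A y := by
      rwa [S.comm_refl_iff hy, (cj_eq_self_iff y y).2 (Commute.refl y)] at h
    rw [(cj_eq_self_iff y A).2 hAy.symm, hA, S.comm_refl_iff (hc.mem i), fix,
      S.comm_refl_iff (hc.mem j), fix] at w_i
    exact far ni w_i.symm
  have leg_ne : ∀ {p q : Fin 6}, p ≠ q → ¬ Commute (c p) y → ¬ Commute (c q) y →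
      ¬ Same D z (cj (c q) y) (cj (c p) y) := by
    intro p q hpq np nq h
    have h' := S.same_refl hy h
    rw [← swp q nq, ← swp p np, S.data.cj_cj hy.1, S.data.cj_cj hy.1] at h'
    exact hc.inj q p hpq.symm h'
  obtain ⟨n, hn'⟩ : ∃ n, Same D z (cj y A) (c n) := by
    by_contra hh
    push Not at hh
    exact hc.no_three S mw (fun m e => hh m e.symm) hij hik hjk w_i.symm w_j.symm w_k.symm
  refine ⟨n, hn', ?_, ?_, ?_, fun e => w_y (S.comm_congr hn'.symm hy e)⟩
  · rintro rfl
    have h' := S.same_refl hy hn'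
    rw [S.data.cj_cj hy.1, swp n ni, hA, S.same_refl_iff (hc.mem n)] at h'
    have h'' := S.same_refl (hc.mem j) h'
    rw [S.data.cj_cj (hc.mem j).1] at h''
    exact leg_ne hjk nj nk h''
  · rintro rfl
    have h' := S.same_refl hy hn'
    rw [S.data.cj_cj hy.1, swp n nj, hA, hc.cj_swap, S.same_refl_iff (hc.mem n)] at h'
    have h'' := S.same_refl (hc.mem i) h'
    rw [S.data.cj_cj (hc.mem i).1] at h''
    exact leg_ne hik ni nk h''
  · rintro rfl
    have h' := S.same_refl hy hn'
    rw [S.data.cj_cj hy.1, swp n nk, hA] at h'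
    have h'' := S.same_refl (hc.mem i) h'
    rw [S.data.cj_cj (hc.mem i).1, hu, hc.cj_swap j n, hc.cj_swap i n, S.same_refl_iff (hc.mem n)] at h''
    exact leg_ne hij ni nj h''

theorem Six.reflThree_swap {c : Fin 6 → G} (hc : Six D z c) (y : G) (i j k : Fin 6) :
    reflThree c y i k j = reflThree c y i j k := by
  rw [reflThree, reflThree, hc.cj_swap k j]

theorem Six.reflThree_back (S : Space D z) {c : Fin 6 → G} (hc : Six D z c) {y : G} (hy : InQ D z y)
    {i j k n : Fin 6} (nk : ¬ Commute (c k) y) (nn : ¬ Commute (c n) y)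
    (h : Same D z (reflThree c y i j k) (c n)) : Same D z (reflThree c y i j n) (c k) := by
  have h1 := S.refl_congr h hy
  rw [S.data.cj_comm h.left.1 hy.1 fun e => nn (S.comm_congr h hy e)] at h1
  rw [reflThree, S.data.cj_cj hy.1] at h1
  have h2 := S.same_refl hy (S.same_refl (hc.mem i) (S.same_refl (hc.mem j) h1.symm))
  rw [hc.cj_swap j i (cj (c j) (cj (c k) y)), S.data.cj_cj (hc.mem j).1, S.data.cj_cj (hc.mem i).1,
    S.data.cj_comm (hc.mem k).1 hy.1 nk, S.data.cj_cj hy.1] at h2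
  exact h2

/-- Any other factorisation commutes with exactly two of the six. -/
theorem Space.six_two (S : Space D z) {c : Fin 6 → G} (hc : Six D z c) {y : G} (hy : InQ D z y)
    (hn : ∀ i, ¬ Same D z (c i) y) : ∃ i j, i ≠ j ∧ ∀ k, Commute (c k) y ↔ k = i ∨ k = j := by
  classical
  by_cases h2 : ∃ i j, i ≠ j ∧ Commute (c i) y ∧ Commute (c j) y
  · obtain ⟨i, j, hij, hi, hj⟩ := h2
    refine ⟨i, j, hij, fun k => ⟨fun hk => ?_, fun e => by rcases e with rfl | rfl <;> assumption⟩⟩
    by_contra hh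
    push Not at hh
    exact hc.no_three S hy hn hij (Ne.symm hh.1) (Ne.symm hh.2) hi hj hk
  exfalso
  push Not at h2
  set N := Finset.univ.filter fun m => ¬ Commute (c m) y with hN
  have hcard : 5 ≤ N.card := by
    have h := Finset.card_filter_add_card_filter_not (s := (Finset.univ : Finset (Fin 6)))
      (fun m => Commute (c m) y)
    have h1 : (Finset.univ.filter fun m => Commute (c m) y).card ≤ 1 := by
      rw [Finset.card_le_one]
      intro a ha b hb
      simp only [Finset.mem_filter, Finset.mem_univ, true_and] at ha hb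
      by_contra hne
      exact h2 a b hne ha hb
    simp only [Finset.card_univ, Fintype.card_fin] at h
    rw [hN]
    omega
  have mN : ∀ {m}, m ∈ N → ¬ Commute (c m) y := fun hm => (Finset.mem_filter.1 hm).2
  have pick : ∀ s : Finset (Fin 6), s.card < 5 → ∃ m ∈ N, m ∉ s := fun s hs => by
    by_contra hh
    push Not at hh
    have := Finset.card_le_card (show N ⊆ s from hh)
    omega
  obtain ⟨i, hi, -⟩ := pick ∅ (by simp)
  obtain ⟨j, hj, hji⟩ := pick {i} (by simp)
  obtain ⟨k, hk, hkij⟩ := pick {i, j} (lt_of_le_of_lt Finset.card_le_two (by norm_num))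
  simp only [Finset.mem_insert, Finset.mem_singleton, not_or] at hji hkij
  obtain ⟨hki, hkj⟩ := hkij
  obtain ⟨n, wn, n_i, n_j, n_k, nn⟩ :=
    hc.reflThree_spec S hy hn (Ne.symm hji) (Ne.symm hki) (Ne.symm hkj) (mN hi) (mN hj) (mN hk)
  obtain ⟨l, hl, hlx⟩ := pick {i, j, k, n} (lt_of_le_of_lt Finset.card_le_four (by norm_num))
  simp only [Finset.mem_insert, Finset.mem_singleton, not_or] at hlx
  obtain ⟨l_i, l_j, l_k, l_n⟩ := hlx
  obtain ⟨m, wm, m_i, m_j, m_l, nm⟩ :=
    hc.reflThree_spec S hy hn (Ne.symm hji) (Ne.symm l_i) (Ne.symm l_j) (mN hi) (mN hj) (mN hl)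
  have one : ∀ {v : G} {p q : Fin 6}, Same D z v (c p) → Same D z v (c q) → p = q := fun {v p q} h h' => by
    by_contra hne
    exact hc.inj p q hne (S.trans h.symm h')
  have m_k : m ≠ k := by
    rintro rfl
    exact l_n (one (hc.reflThree_back S hy (mN hl) (mN hk) wm) wn)
  have m_n : m ≠ n := by
    rintro rfl
    exact l_k (one (hc.reflThree_back S hy (mN hl) nn wm) (hc.reflThree_back S hy (mN hk) nn wn))
  obtain ⟨q, wq, q_i, q_k, q_l, nq⟩ :=
    hc.reflThree_spec S hy hn (Ne.symm hki) (Ne.symm l_i) (Ne.symm l_k) (mN hi) (mN hk) (mN hl)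
  have six : ∀ i j k n l m q : Fin 6, i ≠ j → i ≠ k → j ≠ k → n ≠ i → n ≠ j → n ≠ k → l ≠ i → l ≠ j →
      l ≠ k → l ≠ n → m ≠ i → m ≠ j → m ≠ l → m ≠ k → m ≠ n → q ≠ i → q ≠ k → q ≠ l →
      q = j ∨ q = n ∨ q = m := by
    intro i j k n l m q a1 a2 a3 a4 a5 a6 a7 a8 a9 a10 a11 a12 a13 a14 a15 a16 a17 a18
    have e : ({i, j, k, n, l, m} : Finset (Fin 6)) = Finset.univ := by
      apply Finset.eq_univ_of_card
      rw [Finset.card_insert_of_notMem (by simp [a1, a2, Ne.symm a4, Ne.symm a7, Ne.symm a11]),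
        Finset.card_insert_of_notMem (by simp [a3, Ne.symm a5, Ne.symm a8, Ne.symm a12]),
        Finset.card_insert_of_notMem (by simp [Ne.symm a6, Ne.symm a9, Ne.symm a14]),
        Finset.card_insert_of_notMem (by simp [Ne.symm a10, Ne.symm a15]),
        Finset.card_insert_of_notMem (by simp [Ne.symm a13]), Finset.card_singleton]
      rfl
    have hq := e ▸ Finset.mem_univ q
    simp only [Finset.mem_insert, Finset.mem_singleton, a16, a17, a18, false_or] at hq
    tauto
  rcases six i j k n l m q (Ne.symm hji) (Ne.symm hki) (Ne.symm hkj) n_i n_j n_k l_i l_j l_k l_n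
      m_i m_j m_l m_k m_n q_i q_k q_l with e | e | e <;> subst e
  · have h := hc.reflThree_back S hy (mN hl) (mN hj) wq
    rw [hc.reflThree_swap y i q k] at h
    exact l_n (one h wn)
  · have h := hc.reflThree_back S hy (mN hl) nn wq
    have h' : Same D z (reflThree c y i k q) (c j) :=
      hc.reflThree_back S hy (mN hj) nn (by rw [hc.reflThree_swap]; exact wn)
    exact l_j (one h h')
  · have h : Same D z (reflThree c y i l k) (c q) := by rw [hc.reflThree_swap]; exact wq
    have h1 := hc.reflThree_back S hy (mN hk) nq h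
    have h' : Same D z (reflThree c y i l j) (c q) := by rw [hc.reflThree_swap]; exact wm
    exact hkj (one h1 (hc.reflThree_back S hy (mN hj) nq h'))

/-- The six through a pair next to a point. -/
theorem Space.exists_six (S : Space D z) {x a b : G} (hx : InQ D z x) (ha : Nbr D z x a)
    (hb : Nbr D z x b) (hne : ¬ Same D z a b) (hab : Commute a b) :
    ∃ c, Six D z c ∧ c 0 = x ∧ c 1 = a ∧ c 2 = b ∧
      ∀ w, Nbr D z x w → Commute a w → Commute b w → ∃ i, Same D z (c i) w := by
  classical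
  obtain ⟨h, hh⟩ := S.loc x hx
  have hn : h a ≠ h b := fun e => hne ((hh.same _ _ ha hb).2 e)
  obtain ⟨l, hl, hal, hbl, hall⟩ := exists_line (hh.lt _ ha) (hh.lt _ hb) hn ((hh.adj _ _ ha hb).1 hab)
  obtain ⟨h5, hnd, hlt, hadj⟩ := line_spec hl
  have hbe : h b ∈ l.erase (h a) := (List.mem_erase_of_ne hn.symm).2 hbl
  have hperm := (List.perm_cons_erase hal).trans ((List.perm_cons_erase hbe).cons _)
  obtain ⟨p, q, r, hpqr⟩ := List.length_eq_three.1
    (show ((l.erase (h a)).erase (h b)).length = 3 by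
      rw [List.length_erase_of_mem hbe, List.length_erase_of_mem hal, h5])
  rw [hpqr] at hperm
  have ht := fun v (hv : v ∈ [h a, h b, p, q, r]) => hperm.mem_iff.2 hv
  obtain ⟨P, hP, eP⟩ := hh.surj p (hlt p (ht p (by simp)))
  obtain ⟨Q, hQ, eQ⟩ := hh.surj q (hlt q (ht q (by simp)))
  obtain ⟨R, hR, eR⟩ := hh.surj r (hlt r (ht r (by simp)))
  let L : Fin 5 → G := ![a, b, P, Q, R]
  have hL : ∀ k, Nbr D z x (L k) ∧ h (L k) = [h a, h b, p, q, r].getD (k : ℕ) 0 := by
    intro k
    fin_cases k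
    exacts [⟨ha, rfl⟩, ⟨hb, rfl⟩, ⟨hP, eP⟩, ⟨hQ, eQ⟩, ⟨hR, eR⟩]
  have hnd' := hperm.nodup_iff.1 hnd
  have hin : ∀ k : Fin 5, h (L k) ∈ l := fun k => by
    rw [(hL k).2, List.getD_eq_getElem _ _ (by exact k.2)]
    exact ht _ (List.getElem_mem _)
  refine ⟨Fin.cons x L, ⟨fun i => ?_, fun i j => ?_, fun i j => ?_⟩, rfl, rfl, rfl, fun w hw caw cbw => ?_⟩
  · refine Fin.cases hx (fun k => ?_) i
    rw [Fin.cons_succ]; exact (hL k).1.1
  · refine Fin.cases ?_ (fun k => ?_) i <;> refine Fin.cases ?_ (fun m => ?_) j <;>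
      simp only [Fin.cons_zero, Fin.cons_succ]
    exacts [Commute.refl x, (hL m).1.2.1, (hL k).1.2.1.symm,
      (hh.adj _ _ (hL k).1 (hL m).1).2 (hadj _ (hin k) _ (hin m))]
  · refine Fin.cases ?_ (fun k => ?_) i <;> refine Fin.cases ?_ (fun m => ?_) j <;>
      simp only [Fin.cons_zero, Fin.cons_succ]
    · exact fun e => absurd rfl e
    · exact fun _ => (hL m).1.2.2
    · exact fun _ e => (hL k).1.2.2 e.symm
    · intro hkm e
      have e' := (hh.same _ _ (hL k).1 (hL m).1).1 e
      rw [(hL k).2, (hL m).2, List.getD_eq_getElem _ _ (by exact k.2),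
        List.getD_eq_getElem _ _ (by exact m.2)] at e'
      exact hkm (congrArg Fin.succ (Fin.ext (hnd'.getElem_inj_iff.1 e')))
  · have hm := hperm.mem_iff.1 (hall _ (hh.lt _ hw) ((hh.adj _ _ ha hw).1 caw) ((hh.adj _ _ hb hw).1 cbw))
    obtain ⟨k, hk, e⟩ := List.mem_iff_getElem.1 hm
    have hk5 : k < 5 := by simpa using hk
    refine ⟨Fin.succ ⟨k, hk5⟩, ?_⟩
    rw [Fin.cons_succ, hh.same _ _ (hL _).1 hw, (hL _).2, List.getD_eq_getElem _ _ hk]
    exact e

/-- The two facts on six. -/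
theorem Space.sixFacts (S : Space D z) : SixFacts D z :=
  ⟨fun hc _ hy hn => S.six_two hc hy hn, fun hx ha hb hne hab => S.exists_six hx ha hb hne hab⟩

end Cfsg.Agent.TTLink.Quad
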