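import Cfsg.Agent.TTLink.QuadGrp.Pairs
import Cfsg.Agent.SUSixU43.Ortho
import Cfsg.Agent.Components.FStar
import Cfsg.Agent.PGroup.Extraspecial

/-!
The structure of the centraliser of a product of four commuting transpositions in the derived group
of a group of type M(24).
-/

set_option autoImplicit false

namespace Cfsg.Agent.TTLink.Quad.Grp

open Cfsg.Agent.ThreeTransp45 Cfsg.Agent.SporB Equiv Cfsg.Agent.SUSixU43 Cfsg.Agent.SchurBound

universe u

variable {G : Type u} [Group G] [Finite G] {D : Set G} {z : G}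

theorem chK_lt_ten : ∀ i ∈ chKSub, i < 10 := by decide +kernel

theorem chK_pairs_need : ∀ i < 10, (pairOf i).1 ∈ needL ∧ (pairOf i).2 ∈ needL := by decide +kernel

theorem grpK_simple : IsSimpleGroup ↥(grp chKSub) := by
  letI := Fintype.ofFinite (GaloisField 3 2)
  obtain ⟨e⟩ := nonempty_grpK_equiv (GaloisField 3 2) (by
    rw [← Nat.card_eq_fintype_card, GaloisField.card 3 2 (by norm_num)]; norm_num)
  haveI := (Cfsg.Agent.SUSixU43.psu_facts (GaloisField 3 2) (by
    rw [← Nat.card_eq_fintype_card, GaloisField.card 3 2 (by norm_num)]; norm_num)).2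
  haveI : Nontrivial ↥(grp chKSub) := e.toEquiv.nontrivial
  exact IsSimpleGroup.isSimpleGroup_of_surjective e.symm.toMonoidHom e.symm.surjective

variable (U : Setup D z)
include U

theorem Setup.structure_main (C : Subgroup G)
    (hC : C = commutator G ⊓ Subgroup.centralizer ({z} : Set G)) :
    ∃ (Q : Subgroup ↥C) (_ : Q.Normal), Cfsg.generalizedFittingSubgroup ↥C = Q ∧
      Cfsg.IsExtraspecial 2 ↥Q ∧ Nat.card Q = 2 ^ 13 ∧
      ∃ (N M : Subgroup ↥C) (_ : N.Normal) (_ : M.Normal), Q ≤ N ∧ N ≤ M ∧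
        Nat.card N = 3 * Nat.card Q ∧
        (∃ (K : Type) (_ : Field K) (_ : Fintype K), Fintype.card K = 9 ∧
          Nonempty (↥M ⧸ N.subgroupOf M ≃* Cfsg.PSU 4 K 3)) ∧ M.index = 2 := by
  classical
  haveI : Fact (Nat.Prime 2) := ⟨Nat.prime_two⟩
  obtain ⟨hKc, -, -, hIc⟩ := U.counts
  have hD := U.P.data
  have hpar : ∀ d ∈ D, d ∉ commutator G := U.P.parity'.2
  set CG := Subgroup.centralizer ({z} : Set G) with hCG
  have hCle : C ≤ CG := hC.le.trans inf_le_right
  have hcz : ∀ c : ↥C, Commute (c : G) z := fun c => cz_commute (hCle c.2)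
  have memC : ∀ {g : G}, g ∈ commutator G → Commute g z → g ∈ C := fun h1 h2 =>
    hC ▸ ⟨h1, mem_cz h2⟩
  have hkC : keep U.S ≤ C := fun g hg => memC (U.keep_commutator hg) hg.1
  have hQC : U.core ≤ C := U.core_le.trans hkC
  have hzQ : z ∈ U.core := U.pairs_le_core U.z_mem_pairs
  set Q : Subgroup ↥C := U.core.subgroupOf C with hQdef
  have hQn : Q.Normal := ⟨fun q hq c => U.core_conj (hcz c) hq⟩
  have hQcard : Nat.card Q = 2 ^ 13 := by
    rw [hQdef, Nat.card_congr (Subgroup.subgroupOfEquivOfLe hQC).toEquiv, U.core_card]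
  -- the elements of the core commuting with it
  have hcent : ∀ g : G, Commute g z → (∀ t ∈ U.core, Commute g t) → g = 1 ∨ g = z := fun g hg h =>
    U.fixed_le hg (U.fix_of_pairs hg fun x u hxu => h _ (U.pairs_le_core (pair_mem_pairs hxu)))
  have hQZ : ∀ a : ↥Q, a ∈ Subgroup.center ↥Q ↔ ((a : ↥C) : G) = 1 ∨ ((a : ↥C) : G) = z := by
    intro a
    constructor
    · intro ha
      exact hcent _ (U.core_le a.2).1 fun t ht => (congrArg (fun b : ↥Q => ((b : ↥C) : G))
        (Subgroup.mem_center_iff.1 ha ⟨⟨t, hQC ht⟩, ht⟩)).symm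
    · intro ha
      refine Subgroup.mem_center_iff.2 fun b => Subtype.ext (Subtype.ext ?_)
      show ((b : ↥C) : G) * ((a : ↥C) : G) = _
      rcases ha with e | e
      · simp [e]
      · simp only [Subgroup.coe_mul, e]
        exact (U.core_le b.2).1.eq
  have hz' : (⟨z, hQC hzQ⟩ : ↥C) ∈ Q := hzQ
  have hzc : Nat.card (Subgroup.center ↥Q) = 2 := by
    have e : ((Subgroup.center ↥Q : Subgroup ↥Q) : Set ↥Q) = {1, ⟨⟨z, hQC hzQ⟩, hz'⟩} := by
      ext a
      rw [SetLike.mem_coe, hQZ, Set.mem_insert_iff, Set.mem_singleton_iff]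
      constructor
      · rintro (h | h)
        · exact Or.inl (Subtype.ext (Subtype.ext h))
        · exact Or.inr (Subtype.ext (Subtype.ext h))
      · rintro (h | h)
        · exact Or.inl (congrArg (fun b : ↥Q => ((b : ↥C) : G)) h)
        · exact Or.inr (congrArg (fun b : ↥Q => ((b : ↥C) : G)) h)
    show Nat.card ↥((Subgroup.center ↥Q : Subgroup ↥Q) : Set ↥Q) = 2
    rw [e, Nat.card_coe_set_eq, Set.ncard_pair]
    intro h
    exact U.z_ne_one (congrArg (fun b : ↥Q => ((b : ↥C) : G)) h).symm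
  have hQp : IsPGroup 2 ↥Q := IsPGroup.of_card hQcard
  have hex : Cfsg.IsExtraspecial 2 ↥Q := by
    refine PGroup.isExtraspecial_of_center hQp hzc (fun hc => ?_) ?_ fun a => ?_
    · have : Subgroup.center ↥Q = ⊤ := top_unique fun a _ =>
        Subgroup.mem_center_iff.2 fun b => hc.is_comm.comm b a
      rw [this, Subgroup.card_top, hQcard] at hzc
      omega
    · rw [commutator_def, Subgroup.commutator_le]
      intro a _ b _
      rw [hQZ]
      rcases U.core_pairs (g := ((a : ↥C) : G)) a.2 (t := ((b : ↥C) : G))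
        (U.pairs_eq_core ▸ (b.2 : ((b : ↥C) : G) ∈ U.core)) with e | e <;> unfold cj at e
      · left
        show ((a : ↥C) : G) * ((b : ↥C) : G) * ((a : ↥C) : G)⁻¹ * ((b : ↥C) : G)⁻¹ = 1
        rw [e, mul_inv_cancel]
      · right
        show ((a : ↥C) : G) * ((b : ↥C) : G) * ((a : ↥C) : G)⁻¹ * ((b : ↥C) : G)⁻¹ = z
        rw [e, mul_inv_cancel_right]
    · rw [hQZ]
      refine U.fixed_le ?_ fun y hy => ?_
      · exact (U.core_le (pow_mem (show ((a : ↥C) : G) ∈ U.core from a.2) 2)).1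
      · show cj ((((a ^ 2 : ↥Q) : ↥C) : G)) y = y
        rw [SubmonoidClass.coe_pow, SubmonoidClass.coe_pow, pow_two, cj_mul]
        exact (U.core_act a.2 hy).1
  -- the action of C
  let Φc : ↥C →* Perm (Fin 126) := U.Φ.comp (Subgroup.inclusion hCle)
  have hker : Φc.ker = (keep U.S).subgroupOf C := by
    ext c
    rw [MonoidHom.mem_ker, MonoidHom.comp_apply, ← MonoidHom.mem_ker, act_ker U.S U.hψ U.hΦ]
    rfl
  have hNcard : Nat.card Φc.ker = 24576 := by
    rw [hker, Nat.card_congr (Subgroup.subgroupOfEquivOfLe hkC).toEquiv, hKc]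
  have ha0 : U.f 0 ∈ CG := mem_cz (U.hf.inQ 0).2.symm
  have hCidx : (C.subgroupOf CG).index = 2 := by
    refine Subgroup.index_eq_two_iff.2 ⟨⟨U.f 0, ha0⟩, fun x => ?_⟩
    have hiff : ∀ y : ↥CG, y ∈ C.subgroupOf CG ↔ (y : G) ∈ commutator G := fun y => by
      rw [Subgroup.mem_subgroupOf, hC, Subgroup.mem_inf]
      exact ⟨fun h => h.1, fun h => ⟨h, y.2⟩⟩
    rw [hiff, hiff, Subgroup.coe_mul]
    have hd := (U.hf.inQ 0).1
    rcases U.P.mem_commutator_or hd (x : G) with h | h
    · exact Or.inr ⟨h, fun h' => hpar _ hd ((Subgroup.mul_mem_cancel_left _ h).1 h')⟩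
    · exact Or.inl ⟨h, fun h' => hpar _ hd ((Subgroup.mul_mem_cancel_left _ h').1 h)⟩
  have hCcard : Nat.card ↥C = 160526499840 := by
    have h := (C.subgroupOf CG).card_mul_index
    rw [Nat.card_congr (Subgroup.subgroupOfEquivOfLe hCle).toEquiv, hCidx, U.card_cz'] at h
    omega
  have hXcard : Nat.card Φc.range = 6531840 := by
    have h := Φc.ker.card_mul_index
    rw [Subgroup.index_ker, hNcard, hCcard] at h
    omega
  have hKle : grp chKSub ≤ Φc.range := by
    refine (Subgroup.closure_le _).2 ?_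
    rintro _ ⟨i, hi, rfl⟩
    have h10 := chK_lt_ten i hi
    obtain ⟨n1, n2⟩ := chK_pairs_need i h10
    obtain ⟨h1, h2⟩ := pairs_lt ⟨i, h10⟩
    obtain ⟨y, hy, hyv⟩ := U.hψ.surj _ h1
    obtain ⟨w, hw, hwv⟩ := U.hψ.surj _ h2
    have hyw : y * w ∈ commutator G := (U.P.mem_commutator_or hw.1 y).resolve_left (hpar y hy.1)
    refine ⟨(⟨y * w, memC hyw (hy.2.mul_right hw.2).symm⟩ : ↥C) ^ 2, ?_⟩
    rw [map_pow, genP, if_pos h10]
    congr 1
    show U.Φ _ = _
    rw [← hyv, ← hwv, ← act_refl U.S U.hψ U.hΦ (g := ⟨y, mem_cz hy.2.symm⟩) rfl hy (hyv ▸ n1),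
      ← act_refl U.S U.hψ U.hΦ (g := ⟨w, mem_cz hw.2.symm⟩) rfl hw (hwv ▸ n2), ← map_mul]
    rfl
  have hKidx : ((grp chKSub).subgroupOf Φc.range).index = 2 := by
    have h := ((grp chKSub).subgroupOf Φc.range).card_mul_index
    rw [Nat.card_congr (Subgroup.subgroupOfEquivOfLe hKle).toEquiv, card_grpK, hXcard] at h
    omega
  -- the three subgroups
  let N : Subgroup ↥C := Φc.ker
  let M : Subgroup ↥C := (grp chKSub).comap Φc
  have hMidx : M.index = 2 := by
    show ((grp chKSub).comap Φc).index = 2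
    rw [Subgroup.index_comap]
    exact hKidx
  have hMn : M.Normal := Subgroup.normal_of_index_eq_two hMidx
  have hQN : Q ≤ N := by
    show Q ≤ Φc.ker
    rw [hker]
    exact fun q hq => U.core_le hq
  -- the 2-core
  have h2core : Cfsg.pCore 2 ↥C = Q := by
    refine le_antisymm (sSup_le fun X ⟨hXn, hXp⟩ => ?_) (le_sSup ⟨hQn, hQp⟩)
    have hX1 : ∀ c ∈ X, Φc c = 1 := by
      set Y := (X.map Φc.rangeRestrict) with hY
      haveI : Y.Normal := hXn.map _ Φc.rangeRestrict_surjective
      have hYp : IsPGroup 2 ↥Y := hXp.map _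
      set K' := (grp chKSub).subgroupOf Φc.range with hK'
      haveI : K'.Normal := Subgroup.normal_of_index_eq_two hKidx
      haveI : IsSimpleGroup ↥K' := by
        haveI := grpK_simple
        haveI : Nontrivial ↥K' := (Subgroup.subgroupOfEquivOfLe hKle).toEquiv.nontrivial
        exact IsSimpleGroup.isSimpleGroup_of_surjective (Subgroup.subgroupOfEquivOfLe hKle).symm.toMonoidHom
          (MulEquiv.surjective _)
      have hbot : Y.subgroupOf K' = ⊥ := by
        refine ((Subgroup.normal_subgroupOf (H := K') (N := Y)).eq_bot_or_eq_top).resolve_right fun h => ?_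
        have hle : K' ≤ Y := Subgroup.subgroupOf_eq_top.1 h
        obtain ⟨n, hn⟩ := IsPGroup.iff_card.1 (hYp.to_le hle)
        rw [hK', Nat.card_congr (Subgroup.subgroupOfEquivOfLe hKle).toEquiv, card_grpK] at hn
        have h3 : 3 ∣ 2 ^ n := hn ▸ (by norm_num)
        exact absurd (Nat.prime_three.dvd_of_dvd_pow h3) (by norm_num)
      have hsmall : ∀ y ∈ Y, ∀ y' ∈ Y, y ≠ 1 → y' ≠ 1 → y' = y := by
        intro y hy y' hy' h h'
        have nk : ∀ {y}, y ∈ Y → y ≠ 1 → y ∉ K' := fun {y} hy h hk => h (by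
          have : (⟨y, hk⟩ : ↥K') ∈ Y.subgroupOf K' := hy
          rw [hbot, Subgroup.mem_bot] at this
          exact congrArg Subtype.val this)
        have : y⁻¹ * y' ∈ K' := (Subgroup.mul_mem_iff_of_index_two hKidx).2
          (iff_of_false (fun e => nk hy h (inv_mem_iff.1 e)) (nk hy' h'))
        by_contra hne
        exact nk (mul_mem (inv_mem hy) hy') (fun e => hne (inv_mul_eq_one.1 e).symm) this
      intro c hc
      by_contra hne
      set x := Φc.rangeRestrict c with hx
      have hxY : x ∈ Y := ⟨c, hc, rfl⟩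
      have hx1 : x ≠ 1 := fun e => hne (congrArg Subtype.val e)
      have hcen : ∀ r : ↥Φc.range, r * x * r⁻¹ = x := fun r =>
        hsmall x hxY _ ((inferInstance : Y.Normal).conj_mem x hxY r) hx1
          (fun e => hx1 (conj_eq_one_iff.1 e))
      -- the image commutes with products of reflections in the base point and its neighbours
      set k := (x : Perm (Fin 126)) ⟨18, by norm_num⟩ with hk
      have hseen : ∀ i < 45, g126 (lk i) k = g126 18 k := by
        intro i hi
        have hok := allN_iff link_ok i hi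
        simp only [Bool.and_eq_true, Nat.blt_eq] at hok
        obtain ⟨y, hy, hyi⟩ := U.hψ.surj (lk i) hok.1.1.1
        have hyw : U.f 0 * y ∈ commutator G :=
          (U.P.mem_commutator_or hy.1 _).resolve_left (hpar _ (U.hf.inQ 0).1)
        set cy : ↥C := ⟨U.f 0 * y, memC hyw ((U.hf.inQ 0).2.mul_right hy.2).symm⟩
        have n1 : lk i ∈ needL :=
          List.mem_cons_of_mem _ (List.mem_append_right _ (List.mem_map_of_mem (List.mem_range.2 hi)))
        have e : Φc cy = tvP 18 * tvP (lk i) := by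
          show U.Φ _ = _
          rw [← U.base, ← hyi, ← act_refl U.S U.hψ U.hΦ (g := ⟨U.f 0, ha0⟩) rfl (U.hf.inQ 0)
              (by rw [U.base]; simp [needL]),
            ← act_refl U.S U.hψ U.hΦ (g := ⟨y, mem_cz hy.2.symm⟩) rfl hy (hyi ▸ n1), ← map_mul]
          rfl
        have hcom : tvP 18 * tvP (lk i) * (x : Perm (Fin 126)) =
            (x : Perm (Fin 126)) * (tvP 18 * tvP (lk i)) := by
          have h := congrArg Subtype.val (hcen (Φc.rangeRestrict cy))
          simp only [Subgroup.coe_mul, Subgroup.coe_inv, MonoidHom.coe_rangeRestrict, e] at h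
          exact mul_inv_eq_iff_eq_mul.1 h
        have tv18 : ∀ c, c < 126 → ∀ j : Fin 126, (tvP c j = j ↔ g126 c j = true) := fun c hc j => by
          have h1 := allN_iff (allN_iff g126_ok c hc) (j : ℕ) j.2
          rw [beq_iff_eq] at h1
          rw [Fin.ext_iff, tvP_apply hc, h1]
          simp [Nat.beq_eq]
        have e18 : g126 18 18 = true ∧ g126 (lk i) 18 = true := by
          refine ⟨by decide +kernel, ?_⟩
          have := allN_iff (Bool.and_eq_true_iff.1 (allN_iff basic126 18 (by norm_num))).2 (lk i) hok.1.1.1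
          rw [beq_iff_eq, hok.1.1.2] at this
          exact this.symm
        have hk' : tvP 18 (tvP (lk i) k) = k := by
          have h := Equiv.ext_iff.1 hcom ⟨18, by norm_num⟩
          rw [Perm.mul_apply, Perm.mul_apply, Perm.mul_apply, Perm.mul_apply,
            (tv18 _ hok.1.1.1 (⟨18, by norm_num⟩ : Fin 126)).2 e18.2,
            (tv18 18 (by norm_num) (⟨18, by norm_num⟩ : Fin 126)).2 e18.1] at h
          exact h
        have h' : tvP (lk i) k = tvP 18 k := by
          conv_rhs => rw [← hk']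
          exact (Equiv.ext_iff.1 (tvP_sq (show 18 < 126 by norm_num)) (tvP (lk i) k)).symm
        rw [Bool.eq_iff_iff, ← tv18 _ hok.1.1.1, ← tv18 18 (by norm_num), h']
      have h18 : (k : ℕ) = 18 := by
        have h := allN_iff base_seen (k : ℕ) k.2
        simp only [Bool.or_eq_true, Nat.beq_eq, List.any_eq_true, List.mem_range, bne_iff_ne] at h
        rcases h with h | ⟨i, hi, h⟩
        · exact h
        · exact absurd (hseen i hi) h
      -- a central element fixing the base point fixes everything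
      refine hne (Equiv.ext fun j => ?_)
      obtain ⟨g, hg⟩ := grpK_transitive j
      have hr := congrArg Subtype.val (hcen ⟨g, hKle hg.1⟩)
      simp only [Subgroup.coe_mul, Subgroup.coe_inv] at hr
      have hr' := Equiv.ext_iff.1 (mul_inv_eq_iff_eq_mul.1 hr) baseK
      rw [Perm.mul_apply, Perm.mul_apply, hg.2,
        show (x : Perm (Fin 126)) baseK = baseK from Fin.ext h18, hg.2] at hr'
      rw [Perm.one_apply]
      exact hr'.symm
    intro c hc
    have hk : (c : G) ∈ keep U.S := by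
      have : c ∈ Φc.ker := hX1 c hc
      rwa [hker] at this
    obtain ⟨n, hn⟩ := hXp ⟨c, hc⟩
    exact U.mem_core.2 ⟨hk, n, by simpa [Subtype.ext_iff] using hn⟩
  have hF : Cfsg.generalizedFittingSubgroup ↥C = Q := by
    rw [← h2core]
    refine Components.genFitting_eq_pCore_of_centralizer_le ?_
    rw [h2core]
    intro c hc
    rcases hcent (c : G) (hcz c) fun t ht => (congrArg Subtype.val
      (Subgroup.mem_centralizer_iff.1 hc ⟨t, hQC ht⟩ ht)).symm with e | e
    · show (c : G) ∈ U.core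
      rw [e]; exact one_mem _
    · show (c : G) ∈ U.core
      rw [e]; exact hzQ
  refine ⟨Q, hQn, hF, hex, hQcard, N, M, inferInstanceAs Φc.ker.Normal, hMn, hQN,
    fun c hc => Subgroup.mem_comap.2 (MonoidHom.mem_ker.1 hc ▸ one_mem _),
    by rw [hQcard]; exact hNcard.trans (by norm_num), ?_, hMidx⟩
  letI := Fintype.ofFinite (GaloisField 3 2)
  refine ⟨GaloisField 3 2, inferInstance, inferInstance, ?_, ?_⟩
  · rw [← Nat.card_eq_fintype_card, GaloisField.card 3 2 (by norm_num)]; norm_num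
  obtain ⟨e⟩ := nonempty_grpK_equiv (GaloisField 3 2) (by
    rw [← Nat.card_eq_fintype_card, GaloisField.card 3 2 (by norm_num)]; norm_num)
  let h : ↥M →* ↥(grp chKSub) := (Φc.comp M.subtype).codRestrict _ fun m => m.2
  have hs : Function.Surjective h := by
    intro k
    obtain ⟨c, hc⟩ := hKle k.2
    exact ⟨⟨c, Subgroup.mem_comap.2 (hc ▸ k.2)⟩, Subtype.ext hc⟩
  have hk : h.ker = N.subgroupOf M := by
    ext m
    rw [MonoidHom.mem_ker, Subgroup.mem_subgroupOf, MonoidHom.mem_ker, Subtype.ext_iff]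
    rfl
  exact ⟨((QuotientGroup.quotientMulEquivOfEq hk.symm).trans
    (QuotientGroup.quotientKerEquivOfSurjective h hs)).trans e⟩

end Cfsg.Agent.TTLink.Quad.Grp

namespace Cfsg.Agent.TTLink

open Cfsg.Agent.ThreeTransp45 Cfsg.Agent.SporB

universe u

/-- The centraliser in the derived group of a product of four commuting transpositions. -/
theorem M24Prim.quad_structure {G : Type u} [Group G] [Finite G] {D : Set G} (P : M24Prim D) {z : G}
    {l : List G} (hl : IsQuad D z l) {ψ : G → ℕ} (hS : Quad.Space D z) (hψ : Quad.Chart D z ψ)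
    (hAut : Nat.card Quad.adj126 ≤ 13063680)
    (hLink : 51840 ≤ Nat.card (Subgroup.closure
      ({τ | τ = SUSixU43.tvP 18 ∨ ∃ i < 45, τ = SUSixU43.tvP (Quad.lk i)} : Set (Equiv.Perm (Fin 126)))))
    (hswap : ∀ {a b c e g : G}, IsQuad D z [a, b, c, e] → Commute g z → cj g a = b → cj g b = a →
      cj g c = c → cj g e = e → (∀ y, Quad.Nbr D z a y → Quad.Same D z y (cj g y)) → False)
    (C : Subgroup G) (hC : C = commutator G ⊓ Subgroup.centralizer ({z} : Set G)) :
    ∃ (Q : Subgroup ↥C) (_ : Q.Normal), Cfsg.generalizedFittingSubgroup ↥C = Q ∧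
      Cfsg.IsExtraspecial 2 ↥Q ∧ Nat.card Q = 2 ^ 13 ∧
      ∃ (N M : Subgroup ↥C) (_ : N.Normal) (_ : M.Normal), Q ≤ N ∧ N ≤ M ∧
        Nat.card N = 3 * Nat.card Q ∧
        (∃ (K : Type) (_ : Field K) (_ : Fintype K), Fintype.card K = 9 ∧
          Nonempty (↥M ⧸ N.subgroupOf M ≃* Cfsg.PSU 4 K 3)) ∧ M.index = 2 := by
  have _ := hl
  obtain ⟨Φ, hΦ⟩ := Quad.Grp.exists_act hS hψ
  obtain ⟨x, hx, hx18⟩ := hψ.surj 18 (by norm_num)
  obtain ⟨f, hf, hf0⟩ := Quad.Grp.exists_q4 hS hx
  obtain ⟨θ, hθ⟩ := Quad.Grp.exists_keep_hom hS hf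
  exact Quad.Grp.Setup.structure_main
    { P := P, S := hS, ψ := ψ, hψ := hψ, Φ := Φ, hΦ := hΦ, f := f, hf := hf,
      base := by rw [hf0]; exact hx18
      θ := θ, hθ := hθ, aut := hAut, linkGrp := hLink, swap := hswap } C hC

end Cfsg.Agent.TTLink
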