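import Cfsg.Agent.TTLink.QuadSpace
import Cfsg.Agent.TTLink.M24Triple

/-!
The factorisations next to a given one are charted by the 45 isotropic points: four commuting
transpositions off a transposition `e` with product `z` lie over the lines through the isotropic
point of `e` in the projective unitary group of the other three.
-/

set_option autoImplicit false

namespace Cfsg.Agent.TTLink.Quad

open Cfsg.Agent.ThreeTransp45 Cfsg.Agent.SporB Cfsg.Agent.SchurBound

/-! ### A table fact -/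

theorem dominated_check : allN (fun i => allN (fun j => Nat.beq i j ||
    !(Nat.beq (Nat.land (nm i) (nm j)) (nm i))) 45) 45 = true := by decide +kernel

/-- A point whose neighbours are all neighbours of a second one is that point. -/
theorem eq_of_dominated {i j : ℕ} (hi : i < 45) (hj : j < 45)
    (h : ∀ k < 45, g45 i k = true → g45 j k = true) : i = j := by
  have h1 := allN_iff (allN_iff dominated_check i hi) j hj
  have h2 : Nat.land (nm i) (nm j) = nm i := by
    refine Nat.eq_of_testBit_eq fun k => ?_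
    show (nm i &&& nm j).testBit k = (nm i).testBit k
    rw [Nat.testBit_and]
    rcases lt_or_ge k 45 with hk | hk
    · rw [nm_bit hk, nm_bit hk]
      cases hg : g45 i k
      · rfl
      · rw [h k hk hg]; rfl
    · have hz : ∀ a, (nm a).testBit k = false := fun a => by
        rw [nm, show Nat.mod (Nat.shiftRight QuadData.nb45 (48 * a)) (2 ^ 45) =
          (QuadData.nb45 >>> (48 * a)) % 2 ^ 45 from rfl, Nat.testBit_mod_two_pow]
        simp [Nat.not_lt.2 hk]
      rw [hz, hz]; rfl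
  simp only [h2, Nat.beq_refl, Bool.not_true, Bool.or_false, Nat.beq_eq] at h1
  exact h1

section coord

variable {F : Type} [Field F] [Fintype F]

/-- The isotropic vector fixed for the fourth transposition. -/
def pStar : Fin 6 → F := ![1, 1, 0, 0, 0, 0]

/-- Four coordinates of a vector, over the standard field. -/
def proj (σ : F ≃+* GFour25.F4) (q : Fin 6 → F) : H77GQ.FourM.Vec := fun i => σ (q i.succ.succ)

open TTClass.UnitF4

omit [Fintype F] in
theorem h_pStar (q : Fin 6 → F) : H q pStar = q 0 + q 1 := by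
  simp [H, Cfsg.hermForm, pStar, Fin.sum_univ_six]

theorem h_pStar_self (hF : Fintype.card F = 4) : H (pStar : Fin 6 → F) pStar = 0 := by
  rw [h_pStar]
  simpa [pStar] using add_self'' hF (1 : F)

omit [Fintype F] in
theorem pStar_ne : (pStar : Fin 6 → F) ≠ 0 := fun e => by
  simpa [pStar] using congrFun e 0

theorem hs_proj (hF : Fintype.card F = 4) (σ : F ≃+* GFour25.F4) {q r : Fin 6 → F}
    (hq : H q pStar = 0) (hr : H r pStar = 0) :
    H77GQ.FourM.hs (proj σ q) (proj σ r) = σ (H q r) := by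
  have eq' : ∀ {u : Fin 6 → F}, H u pStar = 0 → u 1 = u 0 := fun {u} h => by
    rw [h_pStar] at h
    linear_combination h - u 0 * two_eq_zero hF
  have : H q r = q 2 * r 2 ^ 2 + q 3 * r 3 ^ 2 + q 4 * r 4 ^ 2 + q 5 * r 5 ^ 2 := by
    simp only [H, Cfsg.hermForm, Fin.sum_univ_six, eq' hq, eq' hr]
    linear_combination (q 0 * r 0 ^ 2) * two_eq_zero hF
  rw [this]
  simp only [H77GQ.FourM.hs, proj, map_add, map_mul, pow_two]
  rfl

omit [Fintype F] in
theorem proj_smul (σ : F ≃+* GFour25.F4) (c : F) (q : Fin 6 → F) :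
    proj σ (c • q) = σ c • proj σ q := by
  funext i
  simp [proj]

theorem proj_ne_zero (hF : Fintype.card F = 4) (σ : F ≃+* GFour25.F4) {q : Fin 6 → F}
    (hq : H q pStar = 0) (h : proj σ q = 0) : q = q 0 • pStar := by
  have h1 : q 1 = q 0 := by
    rw [h_pStar] at hq
    linear_combination hq - q 0 * two_eq_zero hF
  have hz : ∀ i : Fin 4, q i.succ.succ = 0 := fun i =>
    σ.injective (by rw [map_zero]; exact congrFun h i)
  funext i
  fin_cases i
  · simp [pStar]
  · simpa [pStar] using h1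
  · simpa [pStar] using hz 0
  · simpa [pStar] using hz 1
  · simpa [pStar] using hz 2
  · simpa [pStar] using hz 3

theorem tt_conj (hF : Fintype.card F = 4) {p q : Fin 6 → F} (hp : H p p = 0) (hp0 : p ≠ 0)
    (hq : H q q = 0) (hq0 : q ≠ 0) :
    ∃ g : Cfsg.PSU 6 F 2, cj g (UnitarySix.tt hF q) = UnitarySix.tt hF p := by
  obtain ⟨-, ⟨d, -, hd⟩, -⟩ := isClass hF (n := 6) (by norm_num)
  have h1 : tSU hF q hq ∈ conjugatesOf d :=
    hd ▸ rank_of_tv hF _ ⟨q, hq0, hq, act_tSU hF q hq⟩
  have h2 : tSU hF p hp ∈ conjugatesOf d :=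
    hd ▸ rank_of_tv hF _ ⟨p, hp0, hp, act_tSU hF p hp⟩
  obtain ⟨c, hc⟩ := isConj_iff.1 (IsConj.trans (IsConj.symm h1) h2)
  refine ⟨QuotientGroup.mk' _ c, ?_⟩
  rw [UnitarySix.tt_eq hF hq, UnitarySix.tt_eq hF hp, ← hc, map_mul, map_mul, map_inv]
  rfl

end coord

variable {G : Type*} [Group G] [Finite G]

/-- A transposition beside `a`, `b`, `c`, commuting with them. -/
def Near (D : Set G) (a b c y : G) : Prop :=
  y ∈ D ∧ y ∉ [a, b, c] ∧ Commute y a ∧ Commute y b ∧ Commute y c

/-- The projection of the transpositions beside a triple to transvections. -/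
structure Proj6 (D : Set G) (z a b c e : G) {F : Type} [Field F] [Fintype F]
    (hF : Fintype.card F = 4) (τ : G → Cfsg.PSU 6 F 2) : Prop where
  inj : ∀ y y', Near D a b c y → Near D a b c y' → τ y = τ y' → y = y'
  comm : ∀ y y', Near D a b c y → Near D a b c y' → (Commute (τ y) (τ y') ↔ Commute y y')
  rep : ∀ y, Near D a b c y →
    ∃ q, TTClass.UnitF4.H q q = 0 ∧ q ≠ 0 ∧ UnitarySix.tt hF q = τ y
  surj : ∀ q : Fin 6 → F, TTClass.UnitF4.H q q = 0 → q ≠ 0 →
    ∃ y, Near D a b c y ∧ τ y = UnitarySix.tt hF q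
  base : τ e = UnitarySix.tt hF pStar
  line : ∀ y, Near D a b c y → y ≠ e → Commute e y → ∃ u, IsQuad D z u ∧ ∀ w, w ∈ u ↔
    (Near D a b c w ∧ w ≠ e ∧ Commute e w ∧ Commute y w ∧
      ∀ s, Near D a b c s → Commute s e → Commute s y → Commute s w)

variable {D : Set G}

omit [Finite G] in
theorem fac_of_subset {l s : List G} (h : Fac D l) (hn : s.Nodup) (hs : ∀ x ∈ s, x ∈ l) : Fac D s :=
  ⟨hn, fun x hx => h.mem x (hs x hx), fun x hx y hy => h.comm x (hs x hx) y (hs y hy)⟩

/-- A short product outside the triple is no product inside it. -/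
theorem prod_ne (P : M24Prim D) {a b c : G} (habc : Fac D [a, b, c]) {L s : List G} (hL : Fac D L)
    (hn : ∀ y ∈ L, Near D a b c y) (hs : ∀ x ∈ s, x ∈ [a, b, c]) (hsn : s.Nodup)
    (h1 : 1 ≤ L.length) (h7 : L.length + s.length ≤ 7) : L.prod ≠ s.prod := by
  intro he
  have hsF := fac_of_subset habc hsn hs
  have hcom : ∀ x ∈ L, ∀ y ∈ s, Commute x y := fun x hx y hy => by
    obtain ⟨-, -, h1, h2, h3⟩ := hn x hx
    have := hs y hy
    simp only [List.mem_cons, List.not_mem_nil, or_false] at this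
    rcases this with rfl | rfl | rfl <;> assumption
  refine P.indeps (L ++ s).length (by rw [List.length_append]; omega)
    (by rw [List.length_append]; omega) (L ++ s)
    (List.nodup_append.2 ⟨hL.nodup, hsn, fun x hx y hy e => (hn x hx).2.1 (hs x (e ▸ hy))⟩) rfl
    ?_ ?_ ?_
  · intro x hx
    rcases List.mem_append.1 hx with h | h
    exacts [hL.mem x h, hsF.mem x h]
  · intro x hx y hy
    rcases List.mem_append.1 hx with h | h <;> rcases List.mem_append.1 hy with h' | h'
    exacts [hL.comm x h y h', hcom x h y h', (hcom y h' x h).symm, hsF.comm x h y h']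
  · rw [List.prod_append, he]
    nth_rewrite 1 [← fac_inv P.data hsF]
    exact inv_mul_cancel _

theorem exists_proj6 (P : M24Prim D) {z a b c e : G} (hm : IsQuad D z [a, b, c, e]) :
    ∃ (F : Type) (_ : Field F) (_ : Fintype F) (hF : Fintype.card F = 4)
      (τ : G → Cfsg.PSU 6 F 2), Proj6 D z a b c e hF τ := by
  classical
  obtain ⟨hfac, -, hz⟩ := hm
  have hn := hfac.nodup
  simp only [List.nodup_cons, List.mem_cons, List.not_mem_nil, or_false, not_or, not_false_eq_true,
    List.nodup_nil, and_true] at hn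
  obtain ⟨⟨hab, hac, hae⟩, ⟨hbc, hbe⟩, hce⟩ := hn
  have habc : Fac D [a, b, c] := fac_of_subset hfac (by simp [hab, hac, hbc]) (by simp)
  have ha : a ∈ D := hfac.mem a (by simp)
  have cab : Commute a b := hfac.comm a (by simp) b (by simp)
  have cac : Commute a c := hfac.comm a (by simp) c (by simp)
  have cbc : Commute b c := hfac.comm b (by simp) c (by simp)
  have hNe : Near D a b c e := ⟨hfac.mem e (by simp), by simp [Ne.symm hae, Ne.symm hbe, Ne.symm hce],
    hfac.comm e (by simp) a (by simp), hfac.comm e (by simp) b (by simp),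
    hfac.comm e (by simp) c (by simp)⟩
  set K := Subgroup.centralizer ({a, b, c} : Set G) with hKdef
  obtain ⟨F, i1, i2, hF, π, hπ, hker, -, hinj⟩ :=
    P.triple_proj ha ⟨hfac.mem b (by simp), Ne.symm hab, cab⟩ ⟨hfac.mem c (by simp), Ne.symm hac, cac⟩
      hbc cbc K hKdef
  have inK : ∀ {y : G}, Near D a b c y → y ∈ K := fun {y} h => by
    rw [hKdef, Subgroup.mem_centralizer_iff]
    rintro v (rfl | rfl | rfl)
    exacts [h.2.2.1.eq.symm, h.2.2.2.1.eq.symm, h.2.2.2.2.eq.symm]
  have hKc : ∀ k : ↥K, Commute (k : G) a ∧ Commute (k : G) b ∧ Commute (k : G) c := fun k => by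
    obtain ⟨k, hk⟩ := k
    rw [hKdef, Subgroup.mem_centralizer_iff] at hk
    exact ⟨(hk a (by simp)).symm, (hk b (by simp)).symm, (hk c (by simp)).symm⟩
  have hsq : ∀ k : ↥K, (k : G) ∈ D → π k * π k = 1 := fun k hk => by
    rw [← map_mul, show k * k = 1 from Subtype.ext (P.data.mul_self hk), map_one]
  have hne1 : ∀ k : ↥K, Near D a b c k → π k ≠ 1 := by
    intro k hk h
    have hL : Fac D [(k : G)] := ⟨List.nodup_singleton _, by simp [hk.1], by simp⟩
    have nek : ∀ s : List G, (∀ x ∈ s, x ∈ [a, b, c]) → s.Nodup → s.length ≤ 6 → (k : G) ≠ s.prod :=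
      fun s h1 h2 h3 => by
        simpa using prod_ne P habc hL (by simpa using hk) h1 h2 (by simp) (by simp; omega)
    rcases (hker k).1 h with h | h | h | h | h | h | h | h
    · exact nek [] (by simp) (by simp) (by simp) (by simpa using h)
    · exact nek [a] (by simp) (by simp) (by simp) (by simpa using h)
    · exact nek [b] (by simp) (by simp) (by simp) (by simpa using h)
    · exact nek [b, a] (by simp) (by simp [Ne.symm hab]) (by simp) (by simpa using h)
    · exact nek [c] (by simp) (by simp) (by simp) (by simpa using h)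
    · exact nek [c, a] (by simp) (by simp [Ne.symm hac]) (by simp) (by simpa using h)
    · exact nek [c, b] (by simp) (by simp [Ne.symm hbc]) (by simp) (by simpa using h)
    · exact nek [c, b, a] (by simp) (by simp [Ne.symm hab, Ne.symm hac, Ne.symm hbc]) (by simp)
        (by simpa [mul_assoc] using h)
  set E : Set (Cfsg.PSU 6 F 2) := {t | ∃ k : ↥K, Near D a b c k ∧ π k = t} with hEdef
  have hE : Data E := by
    refine ⟨⟨?_, ?_⟩, ?_⟩
    · rintro t ⟨k, hk, rfl⟩
      exact orderOf_eq_prime (by rw [pow_two]; exact hsq k hk.1) (hne1 k hk)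
    · rintro t ⟨k, hk, rfl⟩ t' ⟨k', hk', rfl⟩
      rcases P.data.set.2 _ hk.1 _ hk'.1 with h | h
      · left
        rw [← map_mul, ← map_pow, show (k * k') ^ 2 = 1 from Subtype.ext h, map_one]
      · right
        rw [← map_mul, ← map_pow, show (k * k') ^ 3 = 1 from Subtype.ext h, map_one]
    · rintro g t ⟨k, hk, rfl⟩
      obtain ⟨j, rfl⟩ := hπ g
      refine ⟨j * k * j⁻¹, ⟨P.data.inv' _ _ hk.1, ?_, (hKc _).1, (hKc _).2.1, (hKc _).2.2⟩, by
        rw [cj, map_mul, map_mul, map_inv]⟩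
      intro hmem
      refine hk.2.1 ?_
      have e0 : ((j * k * j⁻¹ : ↥K) : G) = cj (j : G) k := rfl
      rw [e0] at hmem
      simp only [List.mem_cons, List.not_mem_nil, or_false] at hmem ⊢
      obtain ⟨h1, h2, h3⟩ := hKc j
      rcases hmem with h | h | h
      · exact Or.inl (cj_injective _ (h.trans ((cj_eq_self_iff _ _).2 h1).symm))
      · exact Or.inr (Or.inl (cj_injective _ (h.trans ((cj_eq_self_iff _ _).2 h2).symm)))
      · exact Or.inr (Or.inr (cj_injective _ (h.trans ((cj_eq_self_iff _ _).2 h3).symm)))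
  have hemem : π ⟨e, inK hNe⟩ ∈ E := ⟨⟨e, inK hNe⟩, hNe, rfl⟩
  have hEmem := UnitarySix.mem_iff hF hE ⟨_, hemem⟩
  obtain ⟨p, hp, hp0, hpe⟩ := (hEmem _).1 hemem
  obtain ⟨g, hg⟩ := tt_conj hF (h_pStar_self hF) pStar_ne hp hp0
  let τ : G → Cfsg.PSU 6 F 2 := fun y => if h : y ∈ K then cj g (π ⟨y, h⟩) else 1
  have hτ : ∀ {y : G} (h : Near D a b c y), τ y = cj g (π ⟨y, inK h⟩) := fun {y} h => dif_pos (inK h)
  have τmem : ∀ {y : G}, Near D a b c y → τ y ∈ E := fun {y} h =>
    hτ h ▸ hE.inv' g _ ⟨⟨y, inK h⟩, h, rfl⟩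
  have τsurj : ∀ t ∈ E, ∃ y, Near D a b c y ∧ τ y = t := by
    intro t ht
    obtain ⟨k, hk, e0⟩ := hE.inv' g⁻¹ _ ht
    exact ⟨k, hk, by rw [hτ hk, show (⟨(k : G), inK hk⟩ : ↥K) = k from Subtype.ext rfl, e0,
      cj_cj_inv]⟩
  have τinj : ∀ y y', Near D a b c y → Near D a b c y' → τ y = τ y' → y = y' := by
    intro y y' hy hy' h
    rw [hτ hy, hτ hy'] at h
    exact congrArg Subtype.val (hinj _ _ hy.1 hy.2.1 hy'.1 hy'.2.1 (cj_injective g h))
  have τcomm : ∀ y y', Near D a b c y → Near D a b c y' →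
      (Commute (τ y) (τ y') ↔ Commute y y') := by
    intro y y' hy hy'
    rw [hτ hy, hτ hy', cj_commute_iff]
    refine ⟨fun h => ?_, fun h =>
      (show Commute (⟨y, inK hy⟩ : ↥K) ⟨y', inK hy'⟩ from Subtype.ext h.eq).map π⟩
    rcases P.data.set.2 _ hy.1 _ hy'.1 with h2 | h3
    · exact commute_of_mul_sq (P.data.mul_self hy.1) (P.data.mul_self hy'.1) h2
    · set k : ↥K := ⟨y, inK hy⟩
      set k' : ↥K := ⟨y', inK hy'⟩
      have e2 : (π k * π k') ^ 2 = 1 := by
        rw [h.mul_pow, pow_two, pow_two, hsq k hy.1, hsq k' hy'.1, one_mul]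
      have e3 : (π k * π k') ^ 3 = 1 := by
        rw [← map_mul, ← map_pow, show (k * k') ^ 3 = 1 from Subtype.ext h3, map_one]
      rw [pow_succ, e2, one_mul] at e3
      have e4 : π k = π k' := by
        rw [mul_eq_one_iff_eq_inv] at e3
        rw [e3]; exact inv_eq_of_mul_eq_one_right (hsq k' hy'.1)
      rw [show y = y' from congrArg Subtype.val (hinj k k' hy.1 hy.2.1 hy'.1 hy'.2.1 e4)]
  have hbase : τ e = UnitarySix.tt hF pStar := by rw [hτ hNe, ← hpe, hg]
  refine ⟨F, i1, i2, hF, τ, τinj, τcomm, fun y hy => (hEmem _).1 (τmem hy),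
    fun q hq hq0 => τsurj _ ((hEmem _).2 ⟨q, hq, hq0, rfl⟩), hbase, ?_⟩
  intro y hy hye hey
  obtain ⟨l, hln, hll, hlp, hlmem⟩ := UnitarySix.line_exists hF hE (τmem hNe) (τmem hy)
    (fun h => hye (τinj _ _ hy hNe h.symm)) ((τcomm _ _ hNe hy).2 hey)
  have hel : τ e ∈ l := (hlmem _).2 ⟨τmem hNe, Commute.refl _, (τcomm _ _ hNe hy).2 hey,
    fun s _ h1 _ => h1⟩
  have hlE : ∀ t ∈ l.erase (τ e), ∃ w, Near D a b c w ∧ τ w = t := fun t ht =>
    τsurj t ((hlmem t).1 (List.mem_of_mem_erase ht)).1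
  choose! pre hpre using hlE
  set u := (l.erase (τ e)).map pre with hu
  have humem : ∀ w, w ∈ u ↔ Near D a b c w ∧ τ w ∈ l ∧ w ≠ e := by
    intro w
    constructor
    · intro h
      obtain ⟨t, ht, rfl⟩ := List.mem_map.1 h
      obtain ⟨h1, h2⟩ := hpre t ht
      obtain ⟨h3, h4⟩ := (hln.mem_erase_iff).1 ht
      exact ⟨h1, h2.symm ▸ h4, fun h => h3 (by rw [← h2, h])⟩
    · rintro ⟨h1, h2, h3⟩
      have ht : τ w ∈ l.erase (τ e) := (hln.mem_erase_iff).2 ⟨fun h => h3 (τinj _ _ h1 hNe h), h2⟩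
      exact List.mem_map.2 ⟨τ w, ht, τinj _ _ (hpre _ ht).1 h1 (hpre _ ht).2⟩
  have hlcomm : ∀ w w', Near D a b c w → τ w ∈ l → Near D a b c w' → τ w' ∈ l → Commute w w' := by
    intro w w' hw hwl hw' hwl'
    obtain ⟨h1, h2, h3, -⟩ := (hlmem _).1 hwl
    exact (τcomm _ _ hw hw').1 (((hlmem _).1 hwl').2.2.2 _ h1 h2 h3)
  have hLN : ∀ w ∈ e :: u, Near D a b c w ∧ τ w ∈ l := by
    intro w hw
    rcases List.mem_cons.1 hw with rfl | hw
    exacts [⟨hNe, hel⟩, ⟨((humem w).1 hw).1, ((humem w).1 hw).2.1⟩]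
  have hun : u.Nodup := (hln.erase _).map_on fun t ht t' ht' h => by
    rw [← (hpre t ht).2, ← (hpre t' ht').2, h]
  have hLF : Fac D (e :: u) := ⟨List.nodup_cons.2 ⟨fun h => ((humem e).1 h).2.2 rfl, hun⟩,
    fun w hw => (hLN w hw).1.1,
    fun w hw w' hw' => hlcomm w w' (hLN w hw).1 (hLN w hw).2 (hLN w' hw').1 (hLN w' hw').2⟩
  have hulen : u.length = 4 := by rw [List.length_map, List.length_erase_of_mem hel, hll]
  have huK : ∀ w ∈ e :: u, w ∈ K := fun w hw => inK (hLN w hw).1
  set k : ↥K := ⟨(e :: u).prod, K.list_prod_mem huK⟩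
  have hker' : π k = 1 := by
    set M : List ↥K := (e :: u).attach.map fun w => ⟨w.1, huK w.1 w.2⟩ with hM
    have hMk : M.prod = k := by
      refine Subtype.ext ?_
      show K.subtype M.prod = _
      rw [map_list_prod, hM, List.map_map]
      congr 1
      exact List.attach_map_subtype_val _
    have hval : M.map (fun w => cj g (π w)) = (e :: u).map τ := by
      rw [hM, List.map_map, ← List.attach_map_val (l := e :: u) (f := τ)]
      refine List.map_congr_left fun w _ => ?_
      exact (hτ (hLN w.1 w.2).1).symm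
    have hτu : u.map τ = l.erase (τ e) := by
      rw [hu, List.map_map]
      conv_rhs => rw [← List.map_id (l.erase (τ e))]
      exact List.map_congr_left fun t ht => (hpre t ht).2
    have hperm : List.Perm ((e :: u).map τ) l := by
      rw [List.map_cons, hτu]; exact (List.perm_cons_erase hel).symm
    have hp1 : ((e :: u).map τ).prod = 1 := by
      rw [fac_perm_prod (fun w hw w' hw' => ?_) hperm, hlp]
      obtain ⟨v, hv, rfl⟩ := List.mem_map.1 hw
      obtain ⟨v', hv', rfl⟩ := List.mem_map.1 hw'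
      exact (τcomm _ _ (hLN v hv).1 (hLN v' hv').1).2 (hLF.comm v hv v' hv')
    have hc : cj g (π k) = 1 := by
      rw [← hMk, map_list_prod, cj_list_prod, List.map_map]
      rw [← hval] at hp1
      exact hp1
    exact cj_injective g (hc.trans (show cj g (1 : Cfsg.PSU 6 F 2) = 1 by simp [cj]).symm)
  have bad : ∀ s : List G, (∀ x ∈ s, x ∈ [a, b, c]) → s.Nodup → s.length ≤ 2 → (k : G) ≠ s.prod :=
    fun s h1 h2 h3 => prod_ne P habc hLF (fun w hw => (hLN w hw).1) h1 h2 (by simp)
      (by simp [hulen]; omega)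
  refine ⟨u, ⟨fac_of_subset hLF hun (fun w hw => List.mem_cons_of_mem _ hw), hulen, ?_⟩,
    fun w => ?_⟩
  · rcases (hker k).1 hker' with h | h | h | h | h | h | h | h
    · exact absurd (by simpa using h) (bad [] (by simp) (by simp) (by simp))
    · exact absurd (by simpa using h) (bad [a] (by simp) (by simp) (by simp))
    · exact absurd (by simpa using h) (bad [b] (by simp) (by simp) (by simp))
    · exact absurd (by simpa using h) (bad [b, a] (by simp) (by simp [Ne.symm hab]) (by simp))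
    · exact absurd (by simpa using h) (bad [c] (by simp) (by simp) (by simp))
    · exact absurd (by simpa using h) (bad [c, a] (by simp) (by simp [Ne.symm hac]) (by simp))
    · exact absurd (by simpa using h) (bad [c, b] (by simp) (by simp [Ne.symm hbc]) (by simp))
    · have hk : e * u.prod = [c, b, a].prod := by
        rw [← List.prod_cons, show (e :: u).prod = (k : G) from rfl, h]
        simp [mul_assoc]
      rw [← hz, fac_perm_prod hfac.comm
        (show List.Perm [a, b, c, e] (e :: [c, b, a]) from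
          ((List.reverse_perm [a, b, c, e]).symm : List.Perm [a, b, c, e] [e, c, b, a])),
        List.prod_cons, ← hk, ← mul_assoc, P.data.mul_self hNe.1, one_mul]
  · rw [humem]
    constructor
    · rintro ⟨h1, h2, h3⟩
      refine ⟨h1, h3, hlcomm _ _ hNe hel h1 h2, ?_, fun s hs hse hsy => ?_⟩
      · exact ((τcomm _ _ h1 hy).1 ((hlmem _).1 h2).2.2.1).symm
      · exact (τcomm _ _ hs h1).1 (((hlmem _).1 h2).2.2.2 _ (τmem hs)
          ((τcomm _ _ hs hNe).2 hse) ((τcomm _ _ hs hy).2 hsy))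
    · rintro ⟨h1, h3, hew, hyw, hall⟩
      refine ⟨h1, (hlmem _).2 ⟨τmem h1, (τcomm _ _ h1 hNe).2 hew.symm,
        (τcomm _ _ h1 hy).2 hyw.symm, fun t ht hte hty => ?_⟩, h3⟩
      obtain ⟨s, hs, rfl⟩ := τsurj t ht
      exact (τcomm _ _ hs h1).2 (hall s hs ((τcomm _ _ hs hNe).1 hte) ((τcomm _ _ hs hy).1 hty))

open TTClass.UnitF4 H77GQ in
theorem exists_local (P : M24Prim D) {z a b c e : G} (hm : IsQuad D z [a, b, c, e]) :
    ∃ f, Local D z a f := by
  classical
  obtain ⟨F, i1, i2, hF, τ, T⟩ := exists_proj6 P hm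
  let σ : F ≃+* GFour25.F4 := FiniteField.ringEquivOfCardEq (by rw [hF, GFour25.card_F4])
  obtain ⟨hfac, -, hz⟩ := id hm
  have hn := hfac.nodup
  simp only [List.nodup_cons, List.mem_cons, List.not_mem_nil, or_false, not_or, not_false_eq_true,
    List.nodup_nil, and_true] at hn
  obtain ⟨⟨hab, hac, hae⟩, ⟨hbc, hbe⟩, hce⟩ := hn
  have hNe : Near D a b c e := ⟨hfac.mem e (by simp), by simp [Ne.symm hae, Ne.symm hbe, Ne.symm hce],
    hfac.comm e (by simp) a (by simp), hfac.comm e (by simp) b (by simp),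
    hfac.comm e (by simp) c (by simp)⟩
  have hnbr : ∀ y, Nbr D z a y ↔ Near D a b c y ∧ y ≠ e ∧ Commute e y := by
    intro y
    constructor
    · rintro ⟨⟨hy, hyz⟩, hay, hns⟩
      have hall := M24Prim.quad_commute P.data hm (x := a) (by simp) hy hyz hay
      have hnm : y ∉ [a, b, c, e] := fun h => hns ⟨_, hm, by simp, h⟩
      simp only [List.mem_cons, List.not_mem_nil, or_false, not_or] at hnm
      exact ⟨⟨hy, by simp [hnm.1, hnm.2.1, hnm.2.2.1], hay.symm, (hall b (by simp)).symm,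
        (hall c (by simp)).symm⟩, hnm.2.2.2, hall e (by simp)⟩
    · rintro ⟨⟨hy, hyn, hya, hyb, hyc⟩, hye, hey⟩
      refine ⟨⟨hy, ?_⟩, hya.symm, fun ⟨m, hm', ham, hym⟩ => ?_⟩
      · rw [← hz]
        exact (Commute.list_prod_right _ y (by simp [hya, hyb, hyc, hey.symm])).symm
      · have := (P.quad_unique hm hm' (x := a) (by simp) ham y).2 hym
        simp only [List.mem_cons, List.not_mem_nil, or_false] at this hyn
        tauto
  let rep : G → Fin 6 → F := fun y => if h : Near D a b c y then (T.rep y h).choose else 0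
  have hrep : ∀ {y : G}, Near D a b c y →
      H (rep y) (rep y) = 0 ∧ rep y ≠ 0 ∧ UnitarySix.tt hF (rep y) = τ y := fun {y} h => by
    have : rep y = (T.rep y h).choose := dif_pos h
    rw [this]; exact (T.rep y h).choose_spec
  have horth : ∀ {y : G}, Near D a b c y → (Commute e y ↔ H (rep y) pStar = 0) := fun {y} h => by
    obtain ⟨h1, h2, h3⟩ := hrep h
    rw [← T.comm _ _ hNe h, T.base, ← h3]
    exact ⟨fun h' => UnitarySix.orth_of_tt hF h1 h2 (h_pStar_self hF) pStar_ne h'.symm,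
      fun h' => (UnitarySix.tt_commute hF h1 (h_pStar_self hF) h').symm⟩
  let v : G → FourM.Vec := fun y => proj σ (rep y)
  have hv : ∀ {y : G}, Nbr D z a y → v y ≠ 0 ∧ H (v y) (v y) = 0 := by
    intro y hy
    obtain ⟨h1, h2, h3⟩ := (hnbr y).1 hy
    obtain ⟨r1, r2, r3⟩ := hrep h1
    have ho := (horth h1).1 h3
    refine ⟨fun h0 => h2 (T.inj _ _ h1 hNe ?_), ?_⟩
    · have e0 := proj_ne_zero hF σ ho h0
      have hc : rep y 0 ≠ 0 := fun hc => r2 (by rw [e0, hc, zero_smul])
      rw [T.base, ← r3, UnitarySix.tt_eq hF r1, UnitarySix.tt_eq hF (h_pStar_self hF)]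
      congr 1
      have hh : H (rep y 0 • (pStar : Fin 6 → F)) (rep y 0 • pStar) = 0 := e0 ▸ r1
      rw [← UnitarySix.tSU_smul hF (h_pStar_self hF) hc hh]
      congr 1
    · show H (proj σ (rep y)) (proj σ (rep y)) = 0
      rw [← FourM.hs_eq, hs_proj hF σ ho ho, r1, map_zero]
  have hadj : ∀ y y', Nbr D z a y → Nbr D z a y' →
      (Commute y y' ↔ g45 (FourM.idx (v y)) (FourM.idx (v y')) = true) := by
    intro y y' hy hy'
    obtain ⟨h1, -, h3⟩ := (hnbr y).1 hy
    obtain ⟨h1', -, h3'⟩ := (hnbr y').1 hy'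
    obtain ⟨r1, r2, r3⟩ := hrep h1
    obtain ⟨r1', r2', r3'⟩ := hrep h1'
    obtain ⟨c1, hc1, e1⟩ := FourM.pt_spec _ (hv hy).1 (hv hy).2
    obtain ⟨c2, hc2, e2⟩ := FourM.pt_spec _ (hv hy').1 (hv hy').2
    rw [g45_ok, decide_eq_true_eq, ← T.comm _ _ h1 h1', ← r3, ← r3']
    have key : H (rep y) (rep y') = 0 ↔
        FourM.hs (FourM.pt (FourM.idx (v y))) (FourM.pt (FourM.idx (v y'))) = 0 := by
      rw [← map_eq_zero_iff σ σ.injective, ← hs_proj hF σ ((horth h1).1 h3) ((horth h1').1 h3'),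
        FourM.hs_eq, FourM.hs_eq, show proj σ (rep y) = v y from rfl,
        show proj σ (rep y') = v y' from rfl]
      conv_lhs => rw [e1, e2, h_smul_left, h_smul_right]
      simp [hc1, hc2]
    rw [← key]
    exact ⟨fun h => UnitarySix.orth_of_tt hF r1 r2 r1' r2' h,
      fun h => UnitarySix.tt_commute hF r1 r1' h⟩
  have hsurj : ∀ i < 45, ∃ y, Nbr D z a y ∧ ((FourM.idx (v y) : Fin 45) : ℕ) = i := by
    intro i hi
    obtain ⟨hiso, hne⟩ := FourM.pt_isotropic ⟨i, hi⟩
    set w := FourM.pt ⟨i, hi⟩ with hw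
    set q : Fin 6 → F := ![0, 0, σ.symm (w 0), σ.symm (w 1), σ.symm (w 2), σ.symm (w 3)] with hq
    have hqp : H q pStar = 0 := by rw [h_pStar]; simp [hq]
    have hpq : proj σ q = w := by
      funext j
      fin_cases j <;> simp [proj, hq]
    have hqq : H q q = 0 := σ.injective (by
      rw [map_zero, ← hs_proj hF σ hqp hqp, hpq, FourM.hs_eq, hiso])
    have hq0 : q ≠ 0 := fun h => hne (by rw [← hpq, h]; funext j; simp [proj])
    obtain ⟨y, hy, hyq⟩ := T.surj q hqq hq0
    obtain ⟨r1, r2, r3⟩ := hrep hy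
    obtain ⟨d, hd⟩ := UnitarySix.tt_inj hF hqq hq0 r1 r2 (by rw [r3, hyq])
    have hd0 : d ≠ 0 := fun h => r2 (by rw [hd, h, zero_smul])
    have hvy : v y = σ d • w := by show proj σ (rep y) = _; rw [hd, proj_smul, hpq]
    refine ⟨y, (hnbr y).2 ⟨hy, fun h => ?_, (horth hy).2 (by rw [hd, h_smul_left, hqp, mul_zero])⟩, ?_⟩
    · obtain ⟨d', hd'⟩ := UnitarySix.tt_inj hF (h_pStar_self hF) pStar_ne hqq hq0
        (by rw [← T.base, ← hyq, h])
      refine hne ?_
      rw [← hpq, hd', proj_smul]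
      funext j
      fin_cases j <;> simp [proj, pStar]
    · rw [hvy, FourM.idx_smul_pt _ _ ((map_ne_zero_iff σ σ.injective).2 hd0)]
  refine ⟨fun y => (FourM.idx (v y) : ℕ), fun y _ => (FourM.idx (v y)).isLt, fun y y' hy hy' => ?_,
    hadj, hsurj⟩
  obtain ⟨h1, h2, h3⟩ := (hnbr y).1 hy
  obtain ⟨h1', h2', h3'⟩ := (hnbr y').1 hy'
  obtain ⟨u, hu, humem⟩ := T.line y h1 h2 h3
  have hyu : y ∈ u := (humem y).2 ⟨h1, h2, h3, Commute.refl y, fun s _ _ h => h⟩
  constructor
  · rintro ⟨m', hm', hym, hym'⟩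
    obtain ⟨-, -, -, -, hall⟩ := (humem y').1 ((P.quad_unique hu hm' hyu hym y').2 hym')
    refine eq_of_dominated (FourM.idx (v y)).isLt (FourM.idx (v y')).isLt fun k hk hg => ?_
    obtain ⟨s, hs, hsk⟩ := hsurj k hk
    obtain ⟨hs1, -, hs3⟩ := (hnbr s).1 hs
    rw [← hsk] at hg ⊢
    exact (hadj y' s hy' hs).1 (hall s hs1 hs3.symm ((hadj y s hy hs).2 hg).symm).symm
  · intro hf
    have hg : ∀ w, Nbr D z a w → Commute w y → Commute w y' := fun w hw hc => by
      have h' := (hadj w y hw hy).1 hc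
      exact (hadj w y' hw hy').2 (Fin.ext hf ▸ h')
    refine ⟨u, hu, hyu, (humem y').2 ⟨h1', h2', h3', hg y hy (Commute.refl y), fun s hs hse hsy => ?_⟩⟩
    by_cases hse' : s = e
    · rw [hse']; exact h3'
    · exact hg s ((hnbr s).2 ⟨hs, hse', hse.symm⟩) hsy

end Cfsg.Agent.TTLink.Quad

namespace Cfsg.Agent.TTLink.M24Prim

open Cfsg.Agent.ThreeTransp45 Cfsg.Agent.SporB

variable {G : Type*} [Group G] [Finite G] {D : Set G}

/-- The factorisations of a product of four form the space charted by the 45 points. -/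
theorem quadSpace (P : M24Prim D) {z : G} {l : List G} (hl : IsQuad D z l) : Quad.Space D z where
  data := P.data
  cover _ hx := P.exists_quad hl hx.1 hx.2
  uniq h h' _ hx hx' := P.quad_unique h h' hx hx'
  loc x hx := by
    classical
    obtain ⟨m, hm, hxm⟩ := P.exists_quad hl hx.1 hx.2
    obtain ⟨b, c, e, hbce⟩ := List.length_eq_three.1
      (show (m.erase x).length = 3 by rw [List.length_erase_of_mem hxm, hm.2.1])
    have hperm := List.perm_cons_erase hxm
    rw [hbce] at hperm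
    exact Quad.exists_local P (b := b) (c := c) (e := e)
      ⟨⟨hperm.nodup_iff.1 hm.1.nodup, fun y hy => hm.1.mem y (hperm.mem_iff.2 hy),
        fun y hy y' hy' => hm.1.comm y (hperm.mem_iff.2 hy) y' (hperm.mem_iff.2 hy')⟩, rfl,
        by rw [← fac_perm_prod hm.1.comm hperm]; exact hm.2.2⟩

end Cfsg.Agent.TTLink.M24Prim
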