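import Cfsg.Agent.SporB.FiPair.Structure

/-!
An element of the presented Fischer group exchanging two commuting transpositions does not keep the
commutation pattern of every transposition commuting with both.
-/

set_option autoImplicit false
set_option Elab.async false
set_option maxRecDepth 100000
set_option maxHeartbeats 1600000

namespace Cfsg.Agent.TTLink.QuadSwap

open Cfsg.Agent.CosetCert Cfsg.Agent.SporB.FischerU Cfsg.Agent.SporB.FiPair

local notation "G22" => Cfsg.Spor.Fi22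

/-- The points of the transpositions commuting with both standard ones. -/
def Fixed (x : Fin 3510) : Prop :=
  pRep d1 x = x ∧ pRep d2 x = x ∧ x ≠ ptF 0 ∧ x ≠ ptF 6

/-- The same condition on numbers. -/
noncomputable def fixedB (x : ℕ) : Bool :=
  Nat.beq (mv 0 x) x && Nat.beq (mv 6 x) x && !Nat.beq x 0 && !Nat.beq x 6

theorem fixedB_iff (x : Fin 3510) : fixedB x = true ↔ Fixed x := by
  have h1 : (pRep d1 x : ℕ) = mv 0 x := SporB.FiPair.pRep_tr (ptF 0) x
  have h2 : (pRep d2 x : ℕ) = mv 6 x := SporB.FiPair.pRep_tr (ptF 6) x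
  simp only [fixedB, Fixed, Bool.and_eq_true, Bool.not_eq_true', ← Bool.not_eq_true, Nat.beq_eq, ne_eq,
    Fin.ext_iff, h1, h2, and_assoc]
  rfl

/-- Four points, with the points acting alike and two witnesses. -/
def ptL : List (ℕ × List ℕ × List ℕ) :=
  [(391, [391, 546, 1524, 1912], [62, 291]), (172, [59, 172, 1779, 2692], [40, 113]),
    (122, [68, 122, 1265, 1667], [43, 70]), (1050, [1049, 1050, 1052, 1127], [47, 86])]

/-- The `k`-th entry. -/
def ptE (k : Fin 4) : ℕ × List ℕ × List ℕ := ptL.getD k (0, [], [])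

/-- The index as an index of a generator. -/
def up (k : Fin 4) : Fin 5 := ⟨k, by omega⟩

theorem ptE_gen : ∀ k : Fin 4, gensL.getD (up k : ℕ) [] = [(ptE k).1] ∧ (ptE k).1 < 3510 ∧
    fixedB (ptE k).1 = true ∧
    ∀ w ∈ (ptE k).2.2, w < 3510 ∧ fixedB w = true ∧ Nat.beq (mv (ptE k).1 w) w = true := by
  decide +kernel

/-- A point acting like the `k`-th one on the witnesses is one of the listed ones. -/
noncomputable def sepB (k : Fin 4) (x : ℕ) : Bool :=
  !fixedB x || !Nat.beq (mv (ptE k).1 x) x ||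
    (ptE k).2.2.any (fun w => !Nat.beq (mv x w) w) || (ptE k).2.1.elem x

theorem sep_ok : ∀ k : Fin 4, fixL.all (sepB k) = true := by decide +kernel

theorem mem_fixL {x : Fin 3510} (h1 : pRep d1 x = x) (h2 : pRep d2 x = x) : (x : ℕ) ∈ fixL := by
  have hp : pRep (d1 * d2) x = x := by rw [map_mul, Equiv.Perm.mul_apply, h2, h1]
  have h := allB_spec_zero fix_check (by norm_num : 3510 ≤ 2 ^ 12) x.2
  rw [Bool.or_eq_true, Bool.or_eq_true, Bool.not_eq_true'] at h
  rcases h with (h | h) | h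
  · exact absurd (Nat.le_of_ble_eq_true h) (not_le.2 x.2)
  · have hv := congrArg Fin.val hp
    rw [← el_pair, pRep_el] at hv
    rw [Nat.beq_eq.mpr hv] at h
    exact absurd h (by decide)
  · exact List.mem_of_elem_eq_true h

/-- The product of two listed points acts on the frame as an element of the extraspecial group. -/
theorem twin_ok : ∀ k : Fin 4, ∀ x ∈ (ptE k).2.1,
    sameB ([x, (ptE k).1] ++ [0, 6]) ([0, 6] ++ [x, (ptE k).1]) = true ∧
    ∀ i : Fin 8, ∃ b : Bool, sameB ([x, (ptE k).1] ++ fL i ++ [x, (ptE k).1].reverse)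
      (fL i ++ if b then [0, 6] else []) = true := by decide +kernel

theorem rel_twin {k : Fin 4} {x : Fin 3510} (h : (x : ℕ) ∈ (ptE k).2.1) :
    Rel (tr x) (genGO (up k)) := by
  obtain ⟨hc, hi⟩ := twin_ok k _ h
  have hq : el [(x : ℕ), (ptE k).1] ∈ QQ := inner_criterion (mem_CC_of_sameB hc) fun i => by
    obtain ⟨b, hb⟩ := hi i
    refine ⟨b, ?_⟩
    rw [fEl, ← el_reverse, ← el_append, ← el_append, el_eq_of_sameB hb, el_append]
    cases b
    · simp [el]
    · simp [el_pair, wP]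
  have hg := rel_gen (up k)
  rw [genEl, (ptE_gen k).1, el_singleton] at hg
  have e := (mem_QQ.1 hq).2.mul hg
  rwa [el_cons, el_singleton, mul_assoc, tr_mul_self, mul_one, ptF_val, one_mul] at e

/-- Representatives of the two orbits of the four maps, with words fixing only them. -/
def stabL : List (ℕ × List (List ℕ)) :=
  [(5, [[2, 0, 3, 2, 1, 3, 2, 0, 1, 3], [0]]), (11, [[2, 0, 1], [1, 3, 1]])]

/-- A word from a representative to each non-singular code. -/
def orbL : List (ℕ × ℕ × List ℕ) :=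
  [(5, 5, []), (7, 5, [1]), (10, 5, [0, 2]), (11, 11, []), (13, 11, [1]), (14, 5, [2, 0, 1]),
    (16, 5, [2]), (17, 5, [2, 0, 3]), (18, 5, [3, 2, 0, 3]), (19, 5, [1, 2, 0, 3]), (20, 5, [3, 0, 2]),
    (22, 11, [3]), (24, 5, [3]), (25, 5, [3, 1]), (28, 5, [1, 3]), (31, 5, [1, 3, 1]), (32, 11, [2]),
    (33, 11, [0, 3]), (34, 5, [2, 1, 3]), (35, 11, [3, 2]), (36, 5, [2, 0, 1, 3]),
    (38, 5, [3, 0, 2, 1, 3]), (40, 11, [2, 3]), (41, 5, [1, 0, 3]), (44, 11, [1, 2, 3]), (47, 5, [0, 3]),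
    (48, 5, [0, 1]), (49, 5, [0, 1, 3]), (50, 5, [2, 3, 1]), (51, 5, [3, 0, 1]), (52, 5, [0, 3, 1]),
    (54, 11, [2, 3, 2]), (56, 5, [0, 2, 1, 3]), (57, 5, [1, 2, 3, 0, 2]), (60, 5, [2, 1, 0, 3]),
    (63, 5, [2, 3, 0, 2])]

theorem stab_check : ∀ s ∈ stabL, s.1 < 64 ∧ qm (dec6 s.1) = 1 ∧
    (∀ w ∈ s.2, apW w s.1 = s.1 ∧ ∀ k ∈ w, k < 4) ∧
    ∀ m : Fin 64, qm (dec6 m) = 1 → (∀ w ∈ s.2, apW w m = m) → (m : ℕ) = s.1 := by decide +kernel

theorem orb_check : (∀ e ∈ orbL, e.2.1 ∈ stabL.map Prod.fst ∧ apW e.2.2 e.2.1 = e.1 ∧ ∀ k ∈ e.2.2, k < 4) ∧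
    ∀ n : Fin 64, qm (dec6 n) = 1 → (n : ℕ) ∈ orbL.map Prod.fst := by decide +kernel

/-- A map commuting with the four is the identity. -/
theorem eq_one_of_commute_four {M : GO6} (h : ∀ k : Fin 4, M * genGO (up k) = genGO (up k) * M) : M = 1 := by
  have hw : ∀ w : List ℕ, (∀ k ∈ w, k < 4) → M * wordGO w = wordGO w * M := by
    intro w
    induction w with
    | nil => intro _; simp [wordGO]
    | cons k w ih =>
      intro hk
      have hk4 := hk k List.mem_cons_self
      have e : ix k = up ⟨k, hk4⟩ := Fin.ext (Nat.mod_eq_of_lt (by omega))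
      rw [show wordGO (k :: w) = genGO (ix k) * wordGO w by simp [wordGO], e, ← mul_assoc, h, mul_assoc,
        ih fun j hj => hk j (List.mem_cons_of_mem _ hj), mul_assoc]
  have hrep : ∀ s ∈ stabL, gmv M (dec6 s.1) = dec6 s.1 := by
    intro s hs
    obtain ⟨hlt, hq, hword, huniq⟩ := stab_check s hs
    obtain ⟨hd, hdlt⟩ := dec6_enc6 (gmv M (dec6 s.1))
    have e := huniq ⟨_, hdlt⟩ (by rw [hd, q_gmv]; exact hq) fun w hwm => by
      refine dec6_inj (wordGO_spec w _ hdlt).2 hdlt ?_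
      rw [← (wordGO_spec w _ hdlt).1, hd, ← gmv_mul, ← hw w (hword w hwm).2, gmv_mul,
        (wordGO_spec w _ hlt).1, (hword w hwm).1]
    rw [← hd]
    exact congrArg dec6 e
  refine ext_nonsingular fun v hv => ?_
  obtain ⟨hd, hlt⟩ := dec6_enc6 v
  obtain ⟨e, he, hev⟩ := List.mem_map.1 (orb_check.2 ⟨_, hlt⟩ (by rw [hd]; exact hv))
  obtain ⟨hm, hap, hk⟩ := orb_check.1 e he
  obtain ⟨s, hs, hse⟩ := List.mem_map.1 hm
  have hslt := (stab_check s hs).1
  have hv' : v = gmv (wordGO e.2.2) (dec6 s.1) := by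
    rw [(wordGO_spec _ _ hslt).1, hse, hap, hev, hd]
  rw [gmv_one, hv', ← gmv_mul, hw _ hk, gmv_mul, hrep s hs]

/-- No element exchanging the standard pair keeps all the commutation patterns. -/
theorem swap_false {u : G22} (h1 : u * d1 * u⁻¹ = d2) (h2 : u * d2 * u⁻¹ = d1)
    (hfix : ∀ p : Fin 3510, Fixed p → pRep (tr p) (pRep u p) = pRep u p ∧
      ∀ w : Fin 3510, Fixed w → (pRep (tr (pRep u p)) w = w ↔ pRep (tr p) w = w)) : False := by
  have hp6 : pRep u (ptF 0) = ptF 6 := tr_injective ((conj_tr u (ptF 0)).symm.trans h1)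
  have hp0 : pRep u (ptF 6) = ptF 0 := tr_injective ((conj_tr u (ptF 6)).symm.trans h2)
  have h0d : pRep d2 (ptF 0) = ptF 0 := Fin.ext (by rw [SporB.FiPair.pRep_tr]; decide +kernel)
  have hu : u ∈ CC := by
    rw [mem_CC, ← mul_inv_eq_iff_eq_mul]
    calc u * (d1 * d2) * u⁻¹ = u * d1 * u⁻¹ * (u * d2 * u⁻¹) := by group
      _ = d1 * d2 := by rw [h1, h2]; exact (comm_tr_iff d2 (ptF 0)).2 h0d
  obtain ⟨-, M, hM⟩ := dom_facts.1.ge hu
  have hu1 : ∀ x : Fin 3510, Fixed x → Fixed (pRep u x) := by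
    rintro x ⟨hx1, hx2, hx0, hx6⟩
    refine ⟨?_, ?_, fun e => hx6 ((pRep u).injective (e.trans hp0.symm)),
      fun e => hx0 ((pRep u).injective (e.trans hp6.symm))⟩
    · rw [← h2]
      simp only [map_mul, map_inv, Equiv.Perm.mul_apply, Equiv.Perm.inv_def, Equiv.symm_apply_apply, hx2]
    · rw [← h1]
      simp only [map_mul, map_inv, Equiv.Perm.mul_apply, Equiv.Perm.inv_def, Equiv.symm_apply_apply, hx1]
  have hcom : ∀ k : Fin 4, M * genGO (up k) = genGO (up k) * M := by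
    intro k
    obtain ⟨hg, hlt, hpB, hwit⟩ := ptE_gen k
    set p : Fin 3510 := ⟨(ptE k).1, hlt⟩
    obtain ⟨hcp, hiff⟩ := hfix p ((fixedB_iff p).1 hpB)
    set x := pRep u p
    have hxB : fixedB x = true := (fixedB_iff x).2 (hu1 p ((fixedB_iff p).1 hpB))
    have hxF := (fixedB_iff x).1 hxB
    have h := List.all_eq_true.1 (sep_ok k) x (mem_fixL hxF.1 hxF.2.1)
    simp only [sepB, Bool.or_eq_true, Bool.not_eq_true', hxB, Bool.true_eq_false, false_or] at h
    have htw : (x : ℕ) ∈ (ptE k).2.1 := by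
      rcases h with (h | h) | h
      · exfalso
        have hx' : (pRep (tr p) x : ℕ) = x := congrArg Fin.val hcp
        rw [SporB.FiPair.pRep_tr] at hx'
        rw [Nat.beq_eq.mpr hx'] at h
        exact absurd h (by decide)
      · exfalso
        obtain ⟨w, hw, hb⟩ := List.any_eq_true.1 h
        obtain ⟨hwlt, hwB, hwp⟩ := hwit w hw
        rw [Bool.not_eq_true'] at hb
        have hpw : pRep (tr p) ⟨w, hwlt⟩ = ⟨w, hwlt⟩ :=
          Fin.ext (by rw [SporB.FiPair.pRep_tr]; exact Nat.eq_of_beq_eq_true hwp)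
        have hxw := congrArg Fin.val ((hiff ⟨w, hwlt⟩ ((fixedB_iff ⟨w, hwlt⟩).1 hwB)).2 hpw)
        rw [SporB.FiPair.pRep_tr] at hxw
        rw [Nat.beq_eq.mpr hxw] at hb
        exact absurd hb (by decide)
      · exact List.mem_of_elem_eq_true h
    have hgen : Rel (tr p) (genGO (up k)) := by
      have e := rel_gen (up k)
      rw [genEl, hg, el_singleton] at e
      rwa [show p = ptF (ptE k).1 from Fin.ext (Nat.mod_eq_of_lt hlt).symm]
    have hconj : Rel (tr x) (M * genGO (up k) * M⁻¹) := by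
      rw [← conj_tr]
      exact (hM.mul hgen).mul hM.inv
    exact mul_inv_eq_iff_eq_mul.1 (hconj.unique (rel_twin htw))
  have h := (mem_KK.1 (QQ_le_KK (mem_QQ.2 ⟨hu, eq_one_of_commute_four hcom ▸ hM⟩))).1
  rw [hp6] at h
  exact absurd (congrArg Fin.val h) (by decide)

end Cfsg.Agent.TTLink.QuadSwap
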