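import Cfsg.Agent.TTLink.QuadSpace
import Cfsg.Agent.TTLink.M24PairQuot
import Cfsg.Agent.TTLink.QuadSwapCert
import Cfsg.Agent.SporB.FiPair.Iso

/-!
An element fixing two members of a factorisation and exchanging the other two does not fix every
neighbouring factorisation.
-/

set_option autoImplicit false

namespace Cfsg.Agent.TTLink

open Cfsg.Agent.ThreeTransp45 Cfsg.Agent.SporB Cfsg.Agent.SporB.FischerU Cfsg.Agent.SporB.FiPair

variable {G : Type*} [Group G] [Finite G] {D : Set G}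

namespace M24Prim

theorem quad_no_swap (P : M24Prim D) {z a b c e g : G} (hl : IsQuad D z [a, b, c, e]) (hg : Commute g z)
    (hab : cj g a = b) (hba : cj g b = a) (hgc : cj g c = c) (hge : cj g e = e)
    (hfix : ∀ y, Quad.Nbr D z a y → Quad.Same D z y (cj g y)) : False := by
  obtain ⟨hF, -, hz⟩ := hl
  have hD := P.data
  have _ := hg
  obtain ⟨⟨nab, nac, nae⟩, ⟨nbc, nbe⟩, nce⟩ :
      (a ≠ b ∧ a ≠ c ∧ a ≠ e) ∧ (b ≠ c ∧ b ≠ e) ∧ c ≠ e := by
    simpa [and_assoc] using hF.nodup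
  have mk_link : ∀ {x y : G}, x ∈ [a, b, c, e] → y ∈ [a, b, c, e] → y ≠ x → y ∈ link D x :=
    fun {x y} hx hy hne => ⟨hF.mem y hy, hne, hF.comm x hx y hy⟩
  have hc : c ∈ D := hF.mem c (by simp)
  obtain ⟨H, _, _, E, π, PQ⟩ := P.exists_pairQuot hc
    (mk_link (by simp) (by simp) nce.symm : e ∈ link D c)
  let K := Subgroup.centralizer ({c, e} : Set G)
  have hgK : g ∈ K := mem_pair.2 ⟨(cj_eq_self_iff g c).1 hgc, (cj_eq_self_iff g e).1 hge⟩
  have hM : ∀ {x : G}, x ∈ link D c ∩ link D e → x ∈ K := fun {x} hx =>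
    mem_pair.2 ⟨hx.1.2.2.symm, hx.2.2.2.symm⟩
  have haM : a ∈ link D c ∩ link D e :=
    ⟨mk_link (by simp) (by simp) nac, mk_link (by simp) (by simp) nae⟩
  have hbM : b ∈ link D c ∩ link D e :=
    ⟨mk_link (by simp) (by simp) nbc, mk_link (by simp) (by simp) nbe⟩
  set A : ↥K := ⟨a, hM haM⟩
  set B : ↥K := ⟨b, hM hbM⟩
  obtain ⟨e₀, he₀⟩ := iso_range_tr PQ.prim
  have hmem : ∀ x : ↥K, (x : G) ∈ link D c ∩ link D e → ∃ p, tr p = e₀ (π x) := fun x hx =>
    he₀.subset ⟨π x, PQ.img.subset ⟨x, hx, rfl⟩, rfl⟩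
  obtain ⟨p₁, hp₁⟩ := hmem A haM
  obtain ⟨p₂, hp₂⟩ := hmem B hbM
  have hAB : Commute A B := Subtype.ext (hF.comm a (by simp) b (by simp)).eq
  obtain ⟨h, h1, h2⟩ := pair_conj (x := p₁) (y := p₂) (fun h => nab (congrArg Subtype.val
      (PQ.inj haM hbM (e₀.injective (by rw [← hp₁, ← hp₂, h])) : A = B)))
    (by rw [hp₁, hp₂]; exact ((hAB.map π).map e₀).eq)
  let φ : ↥K →* Cfsg.Spor.Fi22 := ((MulAut.conj h).toMonoidHom.comp e₀.toMonoidHom).comp π
  have φ_val : ∀ x, φ x = h * e₀ (π x) * h⁻¹ := fun _ => rfl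
  have φA : φ A = tr (ptF 0) := by rw [φ_val, ← hp₁]; exact h1
  have φB : φ B = tr (ptF 6) := by rw [φ_val, ← hp₂]; exact h2
  have φcomm : ∀ x y : ↥K, (x : G) ∈ link D c ∩ link D e → (y : G) ∈ link D c ∩ link D e →
      Commute (φ x) (φ y) → Commute (x : G) y := by
    intro x y hx hy hxy
    refine PQ.refl x y hx hy ?_
    have h' := hxy.map ((MulAut.conj h).symm.toMonoidHom)
    simp only [φ, MonoidHom.comp_apply, MulEquiv.coe_toMonoidHom, MulEquiv.symm_apply_apply] at h'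
    have h'' := h'.map e₀.symm
    simpa using h''
  have pre : ∀ p : Fin 3510, ∃ x : ↥K, (x : G) ∈ link D c ∩ link D e ∧ φ x = tr p := by
    intro p
    have hp : tr (pRep h⁻¹ p) ∈ e₀ '' E := he₀ ▸ Set.mem_range_self _
    rw [← PQ.img, Set.image_image] at hp
    obtain ⟨x, hx, hxe⟩ := hp
    refine ⟨x, hx, ?_⟩
    simp only at hxe
    rw [φ_val, hxe, ← conj_tr h⁻¹ p]
    group
  -- a neighbour of `a` for each fixed point
  have nbr : ∀ (p : Fin 3510) (x : ↥K), QuadSwap.Fixed p → (x : G) ∈ link D c ∩ link D e → φ x = tr p →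
      Quad.Nbr D z a x := by
    intro p x hp hx hxp
    have hxa : Commute (x : G) a := φcomm x A hx haM (by
      rw [hxp, φA]; exact ((commute_iff_fix _ _).2 hp.1).symm)
    have hxb : Commute (x : G) b := φcomm x B hx hbM (by
      rw [hxp, φB]; exact ((commute_iff_fix _ _).2 hp.2.1).symm)
    refine ⟨⟨hx.1.1, ?_⟩, hxa.symm, ?_⟩
    · rw [← hz]
      refine (Commute.list_prod_right _ _ fun w hw => ?_).symm
      simp only [List.mem_cons, List.not_mem_nil, or_false] at hw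
      rcases hw with rfl | rfl | rfl | rfl
      exacts [hxa, hxb, hx.1.2.2.symm, hx.2.2.2.symm]
    · rintro ⟨m, hm, ham, hxm⟩
      have hq := (P.quad_unique hm (m := [a, b, c, e]) ⟨hF, rfl, hz⟩ ham (by simp) (x : G)).1 hxm
      simp only [List.mem_cons, List.not_mem_nil, or_false] at hq
      rcases hq with e' | e' | e' | e'
      · exact hp.2.2.1 (tr_injective (by rw [← hxp, ← φA, show x = A from Subtype.ext e']))
      · exact hp.2.2.2 (tr_injective (by rw [← hxp, ← φB, show x = B from Subtype.ext e']))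
      · exact hx.1.2.1 e'
      · exact hx.2.2.1 e'
  set u := φ ⟨g, hgK⟩
  have φcj : ∀ x : ↥K, φ (⟨g, hgK⟩ * x * ⟨g, hgK⟩⁻¹) = u * φ x * u⁻¹ := fun x => by
    rw [map_mul, map_mul, map_inv]
  refine QuadSwap.swap_false (u := u) ?_ ?_ fun p hp => ?_
  · show u * tr (ptF 0) * u⁻¹ = tr (ptF 6)
    rw [← φA, ← φcj, ← φB]
    exact congrArg φ (Subtype.ext hab)
  · show u * tr (ptF 6) * u⁻¹ = tr (ptF 0)
    rw [← φA, ← φB, ← φcj]
    exact congrArg φ (Subtype.ext hba)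
  obtain ⟨y, hy, hyp⟩ := pre p
  set Y : ↥K := ⟨g, hgK⟩ * y * ⟨g, hgK⟩⁻¹
  have hYval : (Y : G) = cj g y := rfl
  have hYp : φ Y = tr (pRep u p) := by rw [φcj, hyp, conj_tr]
  have hYM : (Y : G) ∈ link D c ∩ link D e := by
    rw [hYval]
    refine ⟨⟨hD.inv' g _ hy.1.1, fun e' => hy.1.2.1 ?_, ?_⟩, hD.inv' g _ hy.2.1, fun e' => hy.2.2.1 ?_, ?_⟩
    · rw [← hgc] at e'; exact cj_injective g e'
    · rw [← hgc]; exact (cj_commute_iff g _ _).2 hy.1.2.2
    · rw [← hge] at e'; exact cj_injective g e'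
    · rw [← hge]; exact (cj_commute_iff g _ _).2 hy.2.2.2
  obtain ⟨m, hm, hym, hYm⟩ := hfix y (nbr p y hp hy hyp)
  rw [← hYval] at hYm
  refine ⟨?_, fun w hw => ?_⟩
  · refine (commute_iff_fix _ _).1 ?_
    rw [← hyp, ← hYp]
    exact (show Commute y Y from Subtype.ext (hm.1.comm _ hym _ hYm).eq).map φ
  obtain ⟨v, hv, hvp⟩ := pre w
  have hvQ := (nbr w v hw hv hvp).1
  rw [← commute_iff_fix, ← commute_iff_fix, ← hyp, ← hYp, ← hvp]
  constructor
  · intro h'
    exact (show Commute y v from Subtype.ext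
      (quad_commute hD hm hYm hvQ.1 hvQ.2 (φcomm Y v hYM hv h') _ hym).eq).map φ
  · intro h'
    exact (show Commute Y v from Subtype.ext
      (quad_commute hD hm hym hvQ.1 hvQ.2 (φcomm y v hy hv h') _ hYm).eq).map φ

end M24Prim

end Cfsg.Agent.TTLink
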