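import Cfsg.Agent.TTLink.M24Classes

/-!
In a primitive group of type M(24) the transpositions form the only class of 3-transpositions.
-/

set_option autoImplicit false

namespace Cfsg.Agent.TTLink

open Cfsg.Agent.ThreeTransp45 Cfsg.Agent.SporB

variable {G : Type*} [Group G] [Finite G] {D : Set G}

namespace M24Prim

variable (P : M24Prim D)
include P

theorem image_mem {r : G} (hr : r ∈ D) {D' : Set G} (hD' : Cfsg.IsThreeTranspositionClass D') {e : G}
    (he : e ∈ D') (her : Commute e r) : e = r ∨ ∃ b ∈ link D r, e = b ∨ e = b * r := by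
  have hd' := data_of_class hD'
  let q := QuotientGroup.mk' (Subgroup.center ↥(Subgroup.closure (link D r)))
  set E : ↥(Subgroup.closure (link D r)) := ⟨e, P.mem_link_of_commute hr her⟩
  by_cases h1 : q E = 1
  · exact Or.inl (((P.mk_eq_one_iff' hr).1 h1).resolve_left (ThreeTransp.ne_one hd'.set he))
  right
  have hm := (P.base hr).mem_of_tt h1
    (by rw [← map_mul, show E * E = 1 from Subtype.ext (hd'.mul_self he), map_one])
    fun g => by
      obtain ⟨k, rfl⟩ := QuotientGroup.mk_surjective g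
      have key : ∀ n : ℕ, (e * cj (k : G) e) ^ n = 1 → (q E * cj (q k) (q E)) ^ n = 1 := fun n h => by
        rw [show cj (q k) (q E) = q (cj k E) by simp [cj], ← map_mul, ← map_pow,
          show (E * cj k E) ^ n = 1 from Subtype.ext h, map_one]
      exact (hd'.set.2 e he _ (hd'.inv' (k : G) e he)).imp (key 2) (key 3)
  obtain ⟨B, hB, hBE⟩ := hm
  refine ⟨(B : G), hB, ?_⟩
  rcases (P.mk_eq_one_iff' hr).1 (show q (B⁻¹ * E) = 1 by
      rw [map_mul, map_inv, show q B = q E from hBE, inv_mul_cancel]) with h | h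
  · left
    rw [Subgroup.coe_mul, Subgroup.coe_inv, inv_mul_eq_one] at h
    exact h.symm
  · right
    rw [Subgroup.coe_mul, Subgroup.coe_inv, inv_mul_eq_iff_eq_mul] at h
    exact h

theorem class_unique {D' : Set G} (hD' : Cfsg.IsThreeTranspositionClass D') : D' = D := by
  classical
  have hD := P.data
  have hd' := data_of_class hD'
  suffices h : ∃ e ∈ D', e ∈ D by
    obtain ⟨e, he', he⟩ := h
    ext y
    constructor
    · intro hy
      obtain ⟨g, rfl⟩ := exists_cj_eq hD' he' hy
      exact hD.inv' g e he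
    · intro hy
      obtain ⟨g, rfl⟩ := P.cl e he y hy
      exact hd'.inv' g e he'
  obtain ⟨e, he, -⟩ := id hD'.2.1
  refine ⟨e, he, ?_⟩
  obtain ⟨a, ha, hea⟩ := P.exists_fixed (hd'.mul_self he)
  rcases P.image_mem ha hD' he hea with rfl | ⟨b, hb, rfl | rfl⟩
  · exact ha
  · exact hb.1
  exfalso
  -- a transposition commuting with both factors
  set B : ↥(Subgroup.closure (link D a)) := ⟨b, Subgroup.subset_closure hb⟩
  have hB : B ∈ linkSet D a := hb
  obtain ⟨Cq, hCq⟩ := (P.base ha).linked (show (QuotientGroup.mk B : _ ⧸ _) ∈ linkQuot D a from ⟨B, hB, rfl⟩)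
  obtain ⟨C, hC, rfl⟩ := hCq.1
  have hcb : (C : G) ≠ b := fun h => hCq.2.1 (congrArg _ (Subtype.ext h : C = B))
  have ccb : Commute b (C : G) := commute_reflect hD hB hC hCq.2.2
  have hcD : (C : G) ∈ D := hC.1
  have hbaD : b * a ∉ D := pair_not_mem hD P.cl P.twinFree hb.1 ha hb.2.1
  rcases P.image_mem hcD hD' he (ccb.mul_left hC.2.2) with h | ⟨b', hb', h | h⟩
  · exact hbaD (h.symm ▸ hcD)
  · exact hbaD (h.symm ▸ hb'.1)
  · have hu := factors_unique hD 2 (by norm_num)
      (fun k h1 h2 => P.indeps (2 * k) (by omega) (by omega)) [b, a] [b', (C : G)]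
      ⟨by simp [hb.2.1], by simp [hb.1, ha], by simp [hb.2.2, hb.2.2.symm]⟩
      ⟨by simp [hb'.2.1], by simp [hb'.1, hcD], by simp [hb'.2.2, hb'.2.2.symm]⟩
      rfl rfl (by simpa using h) (C : G)
    simp at hu
    have := hC.2.1
    tauto

end M24Prim

end Cfsg.Agent.TTLink
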