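import Cfsg.Agent.TTLink.M22Sets

/-!
Perfect central extensions by an involution of a group of type M(22): sections on the transpositions,
commuting transpositions have commuting lifts, lifts of involutions are involutions.
-/

set_option autoImplicit false

namespace Cfsg.Agent.TTLink

open Cfsg.Agent.ThreeTransp45 Cfsg.Agent.SporB

variable {X C : Type*} [Group X] [Group C] {E : Set X}

/-- A perfect central extension with kernel of order two. -/
structure DCover (π : C →* X) (d : C) : Prop where
  surj : Function.Surjective π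
  sq : d * d = 1
  ne : d ≠ 1
  central : ∀ c, Commute d c
  ker : ∀ c, π c = 1 ↔ c = 1 ∨ c = d
  perf : commutator C = ⊤

/-- An equivariant lifting of the transpositions. -/
structure Sec (E : Set X) (π : C →* X) (σ : X → C) : Prop where
  map : ∀ u ∈ E, π (σ u) = u
  conj : ∀ c, ∀ u ∈ E, c * σ u * c⁻¹ = σ (cj (π c) u)

/-- The product of the lifts of a list. -/
def ev (σ : X → C) (l : List X) : C := (l.map σ).prod

@[simp] theorem ev_nil (σ : X → C) : ev σ [] = 1 := rfl

theorem ev_cons (σ : X → C) (x : X) (l : List X) : ev σ (x :: l) = σ x * ev σ l := by simp [ev]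

theorem ev_append (σ : X → C) (l m : List X) : ev σ (l ++ m) = ev σ l * ev σ m := by simp [ev]

/-- Lists in a maximal set. -/
def InSet (W : Set X) (l : List X) : Prop := ∀ y ∈ l, y ∈ W

namespace DCover

variable {π : C →* X} {d : C} (K : DCover π d)
include K

theorem eq_or {x y : C} (h : π x = π y) : y = x ∨ y = x * d := by
  rcases (K.ker (x⁻¹ * y)).1 (by rw [map_mul, map_inv, h, inv_mul_cancel]) with e | e
  · exact Or.inl (inv_mul_eq_one.1 e).symm
  · exact Or.inr (by rw [← e, mul_inv_cancel_left])

theorem map_d : π d = 1 := (K.ker d).2 (Or.inr rfl)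

theorem sq_eq {x y : C} (h : π x = π y) : x * x = y * y := by
  rcases K.eq_or h with rfl | rfl
  · rfl
  · rw [mul_assoc x d, (K.central (x * d)).eq, mul_assoc x d d, K.sq, mul_one]

variable [Finite X] [Finite C] (P : M22Prim E)
include P

theorem lift_sq {x : C} (hx : π x * π x = 1) : x * x = 1 := by
  obtain ⟨F, _, _, hF, hcov, hperf⟩ := P.covers
  obtain ⟨y, hy, hyx⟩ := P.hyp.lift_involution (hF := hF) hperf hcov π K.surj K.sq K.ne K.central K.ker hx
  rw [← hy]
  exact K.sq_eq hyx.symm

theorem fix_lift {x c : C} (hx : π x ∈ E) (hc : Commute (π c) (π x)) : Commute c x := by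
  obtain ⟨F, _, _, hF, hcov, -⟩ := P.covers
  obtain ⟨cv⟩ := hcov _ hx
  set L : Subgroup C := (Subgroup.centralizer ({π x} : Set X)).comap π with hL
  have key : ∀ l : ↥L, (l : C) * x * (l : C)⁻¹ * x⁻¹ = 1 ∨ (l : C) * x * (l : C)⁻¹ * x⁻¹ = d := by
    intro l
    refine (K.ker _).1 ?_
    have : Commute (π (l : C)) (π x) := Subgroup.mem_centralizer_singleton_iff.1 l.2
    rw [map_mul, map_mul, map_mul, map_inv, map_inv, this.eq, mul_inv_cancel_right, mul_inv_cancel]
  classical
  have ne : (-1 : ℤˣ) ≠ 1 := by decide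
  let φ : ↥L →* ℤˣ :=
    { toFun := fun l => if (l : C) * x * (l : C)⁻¹ * x⁻¹ = 1 then 1 else -1
      map_one' := by simp
      map_mul' := fun l m => by
        have e : ((l * m : ↥L) : C) * x * ((l * m : ↥L) : C)⁻¹ * x⁻¹ =
            (l : C) * ((m : C) * x * (m : C)⁻¹ * x⁻¹) * (l : C)⁻¹ *
              ((l : C) * x * (l : C)⁻¹ * x⁻¹) := by
          simp [mul_assoc]
        have cd : (l : C) * d * (l : C)⁻¹ = d := by rw [← (K.central _).eq, mul_inv_cancel_right]
        simp only [e]
        rcases key l with h1 | h1 <;> rcases key m with h2 | h2 <;> rw [h1, h2] <;>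
          simp [cd, K.sq, K.ne] }
  obtain ⟨l', hl', he⟩ : ∃ l' ∈ commutator ↥L, π (l' : C) = π c := by
    let ψ : ↥L →* ↥(Subgroup.centralizer ({π x} : Set X)) := π.subgroupComap _
    have hs : Function.Surjective ψ := fun y => by
      obtain ⟨z, hz⟩ := K.surj (y : X)
      exact ⟨⟨z, by rw [hL, Subgroup.mem_comap, hz]; exact y.2⟩, Subtype.ext hz⟩
    have htop : (commutator ↥L).map ψ = ⊤ := by
      rw [commutator_def, Subgroup.map_commutator, Subgroup.map_top_of_surjective _ hs,
        ← commutator_def, cv.perf]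
    obtain ⟨l', h1, h2⟩ : (⟨π c, Subgroup.mem_centralizer_singleton_iff.2 hc.eq⟩ :
        ↥(Subgroup.centralizer ({π x} : Set X))) ∈ (commutator ↥L).map ψ := htop ▸ Subgroup.mem_top _
    exact ⟨l', h1, congrArg Subtype.val h2⟩
  have hfix : Commute (l' : C) x := by
    have h := Abelianization.commutator_subset_ker φ hl'
    rw [MonoidHom.mem_ker] at h
    rcases key l' with h1 | h1
    · exact (mul_inv_eq_iff_eq_mul.1 (mul_inv_eq_one.1 h1))
    · exfalso
      change (if _ then (1 : ℤˣ) else -1) = 1 at h
      rw [if_neg (h1 ▸ K.ne)] at h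
      exact ne h
  rcases K.eq_or he with e | e <;> rw [e]
  · exact hfix
  · exact hfix.mul_left (K.central x)

theorem exists_sec : ∃ σ : X → C, Sec E π σ := by
  classical
  obtain ⟨u₀, hu₀, -⟩ := P.hyp.cls.2.1
  obtain ⟨y, rfl⟩ := K.surj u₀
  have hex : ∀ u ∈ E, ∃ c : C, cj (π c) (π y) = u := fun u hu => by
    obtain ⟨g, hg⟩ := P.hyp.cl _ hu₀ u hu
    obtain ⟨c, rfl⟩ := K.surj g
    exact ⟨c, hg⟩
  refine ⟨fun u => if h : u ∈ E then cj (hex u h).choose y else 1, fun u hu => ?_, fun c u hu => ?_⟩
  · rw [dif_pos hu]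
    conv_rhs => rw [← (hex u hu).choose_spec]
    simp [cj]
  · have hu' : cj (π c) u ∈ E := P.data.inv' _ u hu
    rw [dif_pos hu, dif_pos hu']
    set a := (hex u hu).choose
    set b := (hex _ hu').choose
    have ea : cj (π a) (π y) = u := (hex u hu).choose_spec
    have eb : cj (π b) (π y) = cj (π c) u := (hex _ hu').choose_spec
    show cj c (cj a y) = cj b y
    rw [← cj_mul]
    have hfx : Commute (b⁻¹ * (c * a)) y := K.fix_lift P hu₀ ((cj_eq_self_iff _ _).1 (by
      rw [map_mul, map_inv, map_mul, cj_mul, cj_mul, ea, ← eb, cj_inv_cj]))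
    conv_rhs => rw [← (cj_eq_self_iff _ _).2 hfx, ← cj_mul, mul_inv_cancel_left]

variable {σ : X → C} (S : Sec E π σ)
include S

theorem sec_sq {u : X} (hu : u ∈ E) : σ u * σ u = 1 :=
  K.lift_sq P (by rw [S.map u hu]; exact P.data.mul_self hu)

theorem sec_comm {u w : X} (hu : u ∈ E) (hw : w ∈ E) (h : Commute u w) : Commute (σ u) (σ w) :=
  (K.fix_lift P (x := σ w) (by rw [S.map w hw]; exact hw) (by rw [S.map u hu, S.map w hw]; exact h))

theorem map_ev {l : List X} (hl : ∀ y ∈ l, y ∈ E) : π (ev σ l) = l.prod := by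
  induction l with
  | nil => simp
  | cons a t ih =>
    rw [ev_cons, map_mul, S.map a (hl a (List.mem_cons_self ..)), List.prod_cons,
      ih fun y hy => hl y (List.mem_cons_of_mem _ hy)]

theorem conj_ev (c : C) {l : List X} (hl : ∀ y ∈ l, y ∈ E) :
    c * ev σ l * c⁻¹ = ev σ (l.map (cj (π c))) := by
  induction l with
  | nil => simp
  | cons a t ih =>
    rw [List.map_cons, ev_cons, ev_cons, ← ih fun y hy => hl y (List.mem_cons_of_mem _ hy),
      ← S.conj c a (hl a (List.mem_cons_self ..))]
    simp [mul_assoc]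

theorem ev_comm {W : Set X} (hW : MaxSet E W) {l : List X} (hl : InSet W l) :
    ∀ a ∈ l.map σ, ∀ b ∈ l.map σ, Commute a b := by
  intro a ha b hb
  obtain ⟨u, hu, rfl⟩ := List.mem_map.1 ha
  obtain ⟨w, hw, rfl⟩ := List.mem_map.1 hb
  exact K.sec_comm P S (hW.sub (hl u hu)) (hW.sub (hl w hw)) (hW.comm u (hl u hu) w (hl w hw))

theorem ev_perm {W : Set X} (hW : MaxSet E W) {l m : List X} (hl : InSet W l) (h : l.Perm m) :
    ev σ l = ev σ m := fac_perm_prod (K.ev_comm P S hW hl) (h.map σ)

/-- The flipped section. -/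
theorem sec_flip : Sec E π (fun u => σ u * d) := by
  refine ⟨fun u hu => by rw [map_mul, S.map u hu, K.map_d, mul_one], fun c u hu => ?_⟩
  show c * (σ u * d) * c⁻¹ = σ (cj (π c) u) * d
  rw [← S.conj c u hu, ← mul_assoc c, mul_assoc (c * σ u) d, (K.central c⁻¹).eq, ← mul_assoc]

omit [Finite X] [Finite C] P S in
theorem ev_flip (l : List X) : ev (fun u => σ u * d) l = ev σ l * d ^ l.length := by
  induction l with
  | nil => simp
  | cons a t ih =>
    rw [ev_cons, ev_cons, ih, List.length_cons, pow_succ', mul_assoc (σ a) d, ← mul_assoc d,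
      (K.central (ev σ t)).eq]
    simp only [mul_assoc]

/-- Relations of length at most `N` follow from those without repetitions. -/
theorem rel_le {W : Set X} (hW : MaxSet E W) (N : ℕ)
    (hyp : ∀ l : List X, l.Nodup → InSet W l → 6 ≤ l.length → l.length ≤ N → l.prod = 1 → ev σ l = 1) :
    ∀ l : List X, InSet W l → l.length ≤ N → l.prod = 1 → ev σ l = 1 := by
  classical
  intro l
  induction hn : l.length using Nat.strong_induction_on generalizing l with
  | _ n ih =>
    intro hl hN hp
    by_cases hnd : l.Nodup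
    · by_cases h6 : 6 ≤ l.length
      · exact hyp l hnd hl h6 (hn ▸ hN) hp
      · rcases Nat.eq_zero_or_pos l.length with e | e
        · rw [List.length_eq_zero_iff.1 e]; rfl
        · exact absurd hp (P.hyp.indeps (hW.sub (hl _ (List.getElem_mem (by omega : 0 < l.length))))
            l.length e (by omega) l hnd rfl (fun y hy => hW.sub (hl y hy))
            fun y hy z hz => hW.comm y (hl y hy) z (hl z hz))
    · obtain ⟨a, ha⟩ : ∃ a, 1 < l.count a := by
        by_contra h
        push Not at h
        exact hnd (List.nodup_iff_count_le_one.2 h)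
      have h1 : a ∈ l := List.count_pos_iff.1 (by omega)
      have h2 : a ∈ l.erase a := List.count_pos_iff.1 (by rw [List.count_erase_self]; omega)
      set t := (l.erase a).erase a
      have hperm : l.Perm (a :: a :: t) :=
        (List.perm_cons_erase h1).trans ((List.perm_cons_erase h2).cons a)
      have ht : InSet W t := fun x hx => hl x (List.mem_of_mem_erase (List.mem_of_mem_erase hx))
      have hlen := hperm.length_eq
      simp only [List.length_cons] at hlen
      rw [fac_perm_prod (fun x hx y hy => hW.comm x (hl x hx) y (hl y hy)) hperm, List.prod_cons,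
        List.prod_cons, ← mul_assoc, P.data.mul_self (hW.sub (hl a h1)), one_mul] at hp
      rw [K.ev_perm P S hW hl hperm, ev_cons, ev_cons, ← mul_assoc,
        K.sec_sq P S (hW.sub (hl a h1)), one_mul]
      exact ih t.length (by omega) t rfl ht (by omega) hp

end DCover

end Cfsg.Agent.TTLink
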