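import Cfsg.Agent.TTLink.M22Double
import Cfsg.Agent.TTLink.M22Labels

/-!
Relations between the lifts of commuting transpositions in a perfect double cover of a group of
type M(22).
-/

set_option autoImplicit false

namespace Cfsg.Agent.TTLink

open Cfsg.Agent.ThreeTransp45 Cfsg.Agent.SporB

variable {X C : Type*} [Group X] [Group C] {E : Set X}

/-- All relations of length six and seven hold. -/
def Good (E : Set X) (σ : X → C) : Prop :=
  ∀ W, MaxSet E W → ∀ l : List X, l.Nodup → InSet W l → 6 ≤ l.length → l.length ≤ 7 → l.prod = 1 →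
    ev σ l = 1

theorem MaxSet.fac_list {W : Set X} (hW : MaxSet E W) {l : List X} (hn : l.Nodup) (hl : InSet W l) :
    Fac E l :=
  ⟨hn, fun y hy => hW.sub (hl y hy), fun y hy z hz => hW.comm y (hl y hy) z (hl z hz)⟩

theorem InSet.append {W : Set X} {l m : List X} (hl : InSet W l) (hm : InSet W m) :
    InSet W (l ++ m) := fun y hy => (List.mem_append.1 hy).elim (hl y) (hm y)

theorem InSet.map_cj {W : Set X} {l : List X} (hl : InSet W l) (g : X) :
    InSet (cj g '' W) (l.map (cj g)) := fun y hy => by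
  obtain ⟨x, hx, rfl⟩ := List.mem_map.1 hy
  exact ⟨x, hl x hx, rfl⟩

variable [Finite X]

theorem prod_dup (P : M22Prim E) {W : Set X} (hW : MaxSet E W) {l : List X} (hl : InSet W l) :
    (l ++ l).prod = 1 := by
  induction l with
  | nil => simp
  | cons a t ih =>
    have ht : InSet W t := fun y hy => hl y (List.mem_cons_of_mem _ hy)
    have hc : Commute a t.prod := Commute.list_prod_right _ _ fun y hy =>
      hW.comm a (hl a (List.mem_cons_self ..)) y (ht y hy)
    rw [List.prod_append] at ih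
    rw [List.prod_append, List.prod_cons]
    calc a * t.prod * (a * t.prod) = a * a * (t.prod * t.prod) := by
          simp only [mul_assoc]; rw [← mul_assoc t.prod, ← hc.eq, mul_assoc]
      _ = 1 := by rw [P.data.mul_self (hW.sub (hl a (List.mem_cons_self ..))), ih ht, mul_one]

namespace DCover

variable [Finite C] {π : C →* X} {d : C} (K : DCover π d) (P : M22Prim E) {σ : X → C}
  (S : Sec E π σ)
include K P S

theorem ev_dup {W : Set X} (hW : MaxSet E W) {l : List X} (hl : InSet W l) : ev σ (l ++ l) = 1 := by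
  induction l with
  | nil => simp
  | cons a t ih =>
    have ht : InSet W t := fun y hy => hl y (List.mem_cons_of_mem _ hy)
    rw [K.ev_perm P S hW (hl.append hl)
      (show ((a :: t) ++ (a :: t)).Perm (a :: a :: (t ++ t)) by
        simpa using List.Perm.cons a List.perm_middle),
      ev_cons, ev_cons, ← mul_assoc, K.sec_sq P S (hW.sub (hl a (List.mem_cons_self ..))), one_mul]
    exact ih ht

theorem ev_inv {W : Set X} (hW : MaxSet E W) {l : List X} (hl : InSet W l) :
    (ev σ l)⁻¹ = ev σ l :=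
  inv_eq_of_mul_eq_one_right (by rw [← ev_append]; exact K.ev_dup P S hW hl)

section good

variable (hG : Good E σ)
include hG

theorem rel_seven {W : Set X} (hW : MaxSet E W) {l : List X} (hl : InSet W l) (h7 : l.length ≤ 7)
    (hp : l.prod = 1) : ev σ l = 1 :=
  K.rel_le P S hW 7 (hG W hW) l hl h7 hp

theorem eq_of_prod {W : Set X} (hW : MaxSet E W) {m m' : List X} (hm : InSet W m) (hm' : InSet W m')
    (hlen : m.length + m'.length ≤ 7) (hp : m.prod = m'.prod) : ev σ m = ev σ m' := by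
  have h := K.rel_seven P S hG hW (hm.append hm') (by rw [List.length_append]; exact hlen)
    (by rw [List.prod_append, hp, ← List.prod_append]; exact prod_dup P hW hm')
  rw [ev_append] at h
  rw [mul_eq_one_iff_eq_inv.1 h, K.ev_inv P S hW hm']

theorem reduce {W : Set X} (hW : MaxSet E W) : ∀ l : List X, InSet W l →
    ∃ m, Fac E m ∧ InSet W m ∧ m.length ≤ 3 ∧ m.prod = l.prod ∧ ev σ m = ev σ l := by
  classical
  intro l
  induction hn : l.length using Nat.strong_induction_on generalizing l with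
  | _ n ih =>
    intro hl
    by_cases hnd : l.Nodup
    · rcases l with _ | ⟨a, _ | ⟨b, _ | ⟨c, _ | ⟨e, t⟩⟩⟩⟩
      iterate 4 exact ⟨_, hW.fac_list hnd hl, hl, by simp, rfl, rfl⟩
      have h4 : InSet W [a, b, c, e] := fun y hy => hl y (by
        simp only [List.mem_cons, List.not_mem_nil, or_false] at hy ⊢; tauto)
      have hn4 : [a, b, c, e].Nodup := hnd.sublist (by simp)
      obtain ⟨m, hm, hlen, hmp⟩ := P.four_reduce a b c e (hW.fac_list hn4 h4)
      have hmW : InSet W m := fun y hy => P.factor_mem hW hm hlen (fun w hw => by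
        rw [hmp, show a * (b * (c * e)) = [a, b, c, e].prod by simp]
        exact Commute.list_prod_right _ _ fun z hz => hW.comm w hw z (h4 z hz)) y hy
      have he := K.eq_of_prod P S hG hW hmW h4 (by simp; omega) (by rw [hmp]; simp)
      obtain ⟨m', k1, k2, k3, k4, k5⟩ := ih (m ++ t).length (by
          rw [← hn, List.length_append]; simp only [List.length_cons]; omega) _ rfl
        (hmW.append fun y hy => hl y (by simp [hy]))
      refine ⟨m', k1, k2, k3, k4.trans ?_, k5.trans ?_⟩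
      · rw [List.prod_append, hmp]; simp [mul_assoc]
      · rw [ev_append, he]; simp [ev, mul_assoc]
    · obtain ⟨a, ha⟩ : ∃ a, 1 < l.count a := by
        by_contra h
        push Not at h
        exact hnd (List.nodup_iff_count_le_one.2 h)
      have h1 : a ∈ l := List.count_pos_iff.1 (by omega)
      have h2 : a ∈ l.erase a := List.count_pos_iff.1 (by rw [List.count_erase_self]; omega)
      set t := (l.erase a).erase a
      have hperm : l.Perm (a :: a :: t) :=
        (List.perm_cons_erase h1).trans ((List.perm_cons_erase h2).cons a)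
      have ht : InSet W t := fun x hx => hl x (List.mem_of_mem_erase (List.mem_of_mem_erase hx))
      have hlen := hperm.length_eq
      simp only [List.length_cons] at hlen
      obtain ⟨m, k1, k2, k3, k4, k5⟩ := ih t.length (by omega) t rfl ht
      refine ⟨m, k1, k2, k3, k4.trans ?_, k5.trans ?_⟩
      · rw [fac_perm_prod (fun x hx y hy => hW.comm x (hl x hx) y (hl y hy)) hperm, List.prod_cons,
          List.prod_cons, ← mul_assoc, P.data.mul_self (hW.sub (hl a h1)), one_mul]
      · rw [K.ev_perm P S hW hl hperm, ev_cons, ev_cons, ← mul_assoc,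
          K.sec_sq P S (hW.sub (hl a h1)), one_mul]

theorem rep {W : Set X} (hW : MaxSet E W) {v : C} (hv : v ∈ Subgroup.closure (σ '' W)) :
    ∃ m, Fac E m ∧ InSet W m ∧ m.length ≤ 3 ∧ m.prod = π v ∧ ev σ m = v := by
  obtain ⟨l, hl, rfl⟩ : ∃ l, InSet W l ∧ ev σ l = v := by
    induction hv using Subgroup.closure_induction with
    | mem y hy =>
      obtain ⟨u, hu, rfl⟩ := hy
      exact ⟨[u], by simpa [InSet] using hu, by simp [ev]⟩
    | one => exact ⟨[], by simp [InSet], rfl⟩
    | mul x y _ _ hx hy =>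
      obtain ⟨l, hl, rfl⟩ := hx
      obtain ⟨m, hm, rfl⟩ := hy
      exact ⟨l ++ m, hl.append hm, ev_append σ l m⟩
    | inv x _ hx =>
      obtain ⟨l, hl, rfl⟩ := hx
      exact ⟨l, hl, (K.ev_inv P S hW hl).symm⟩
  obtain ⟨m, h1, h2, h3, h4, h5⟩ := K.reduce P S hG hW l hl
  exact ⟨m, h1, h2, h3, h4.trans (K.map_ev P S fun y hy => hW.sub (hl y hy)).symm, h5⟩

theorem eq_of_map {W V : Set X} (hW : MaxSet E W) (hV : MaxSet E V) {v w : C}
    (hv : v ∈ Subgroup.closure (σ '' W)) (hw : w ∈ Subgroup.closure (σ '' V)) (h : π v = π w) :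
    v = w := by
  obtain ⟨m, h1, h2, h3, h4, rfl⟩ := K.rep P S hG hW hv
  obtain ⟨m', k1, k2, k3, k4, rfl⟩ := K.rep P S hG hV hw
  obtain ⟨U, hU, hsub⟩ := P.exists_maxSet (E := {y | y ∈ m}) (fun y hy => h1.mem y hy)
    fun y hy z hz => h1.comm y hy z hz
  have e : m.prod = m'.prod := by rw [h4, h, k4]
  refine K.eq_of_prod P S hG hU hsub (P.factor_mem hU k1 k3 fun w hw => ?_) (by omega) e
  rw [← e]
  exact Commute.list_prod_right _ _ fun z hz => hU.comm w hw z (hsub hz)

end good

theorem value {W : Set X} (hW : MaxSet E W) {l : List X} (hl : InSet W l) (hp : l.prod = 1) :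
    ev σ l = 1 ∨ ev σ l = d :=
  (K.ker _).1 (by rw [K.map_ev P S fun y hy => hW.sub (hl y hy), hp])

theorem value_conj {W : Set X} (hW : MaxSet E W) {l : List X} (hl : InSet W l) (hp : l.prod = 1)
    (g : X) : ev σ (l.map (cj g)) = ev σ l := by
  obtain ⟨c, rfl⟩ := K.surj g
  rw [← K.conj_ev P S c fun y hy => hW.sub (hl y hy)]
  rcases K.value P S hW hl hp with e | e <;> rw [e]
  · simp
  · rw [← (K.central c).eq, mul_inv_cancel_right]

theorem six_eq {W W' : Set X} (hW : MaxSet E W) (hW' : MaxSet E W') {l l' : List X} (hn : l.Nodup)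
    (hl : InSet W l) (h6 : l.length = 6) (hp : l.prod = 1) (hn' : l'.Nodup) (hl' : InSet W' l')
    (h6' : l'.length = 6) (hp' : l'.prod = 1) : ev σ l' = ev σ l := by
  classical
  obtain ⟨g₀, hg₀⟩ := P.maxSet_conj hW' hW
  obtain ⟨a, b, c, t, rfl⟩ : ∃ a b c t, l = a :: b :: c :: t := by
    rcases l with _ | ⟨a, _ | ⟨b, _ | ⟨c, t⟩⟩⟩ <;> simp_all
  obtain ⟨a', b', c', t', rfl⟩ : ∃ a b c t, l' = a :: b :: c :: t := by
    rcases l' with _ | ⟨a, _ | ⟨b, _ | ⟨c, t⟩⟩⟩ <;> simp_all
  have hm₀ := hg₀ ▸ hl'.map_cj g₀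
  have d1 := hn.sublist (show [a, b, c].Sublist (a :: b :: c :: t) by simp)
  have d2 := (hn'.sublist (show [a', b', c'].Sublist (a' :: b' :: c' :: t') by simp)).map
    (cj_injective g₀)
  simp only [List.map_cons, List.map_nil, List.nodup_cons, List.mem_cons, List.not_mem_nil, or_false,
    not_or, not_false_eq_true, List.nodup_nil, and_true] at d1 d2
  obtain ⟨g₁, hg₁, ea, eb, ec⟩ := P.maxSet_triples hW (hm₀ (cj g₀ a') (by simp))
    (hm₀ (cj g₀ b') (by simp)) (hm₀ (cj g₀ c') (by simp)) d2.1.1 d2.1.2 d2.2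
    (hl a (by simp)) (hl b (by simp)) (hl c (by simp)) d1.1.1 d1.1.2 d1.2
  have hWg : cj (g₁ * g₀) '' W' = W := by
    rw [show cj (g₁ * g₀) = cj g₁ ∘ cj g₀ from funext (cj_mul g₁ g₀), Set.image_comp, hg₀, hg₁]
  have hm := hWg ▸ hl'.map_cj (g₁ * g₀)
  rw [← cj_mul] at ea eb ec
  set m := (a' :: b' :: c' :: t').map (cj (g₁ * g₀)) with hmdef
  have hnm : m.Nodup := hn'.map (cj_injective _)
  have hlm : m.length = 6 := by rw [hmdef, List.length_map, h6']
  have hpm : m.prod = 1 := by rw [hmdef, ← cj_list_prod, hp']; simp [cj]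
  have am : a ∈ m := by rw [hmdef, ← ea]; exact List.mem_map_of_mem (by simp)
  have bm : b ∈ m := by rw [hmdef, ← eb]; exact List.mem_map_of_mem (by simp)
  have cm : c ∈ m := by rw [hmdef, ← ec]; exact List.mem_map_of_mem (by simp)
  have hperm : m.Perm (a :: b :: c :: t) := (List.perm_ext_iff_of_nodup hnm hn).2 fun y => by
    rw [P.hset_of_six (hW.fac_list hnm hm) hlm hpm am bm cm d1.1.1 d1.1.2 d1.2 y,
      P.hset_of_six (hW.fac_list hn hl) h6 hp (by simp) (by simp) (by simp) d1.1.1 d1.1.2 d1.2 y]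
  rw [← K.ev_perm P S hW hm hperm, hmdef, K.value_conj P S hW' hl' hp']

omit K S [Finite C] in
theorem exists_fourth {W : Set X} (hW : MaxSet E W) {l : List X} (hn : l.Nodup)
    (hl : InSet W l) (h7 : l.length = 7) :
    ∃ a b c e, a ∈ l ∧ b ∈ l ∧ c ∈ l ∧ e ∈ l ∧ a ≠ b ∧ a ≠ c ∧ b ≠ c ∧ e ∉ hset E a b c := by
  classical
  obtain ⟨a, b, c, t, rfl⟩ : ∃ a b c t, l = a :: b :: c :: t := by
    rcases l with _ | ⟨a, _ | ⟨b, _ | ⟨c, t⟩⟩⟩ <;> simp_all
  have d1 := hn.sublist (show [a, b, c].Sublist (a :: b :: c :: t) by simp)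
  simp only [List.nodup_cons, List.mem_cons, List.not_mem_nil, or_false, not_or, not_false_eq_true,
    List.nodup_nil, and_true] at d1
  by_contra hno
  push Not at hno
  have hf := hW.fac (hl a (by simp)) (hl b (by simp)) (hl c (by simp)) d1.1.1 d1.1.2 d1.2
  have h1 : ((a :: b :: c :: t).toFinset : Set X) ⊆ hset E a b c := fun y hy =>
    hno a b c y (by simp) (by simp) (by simp) (List.mem_toFinset.1 hy) d1.1.1 d1.1.2 d1.2
  have h2 := Set.ncard_le_ncard h1 (Set.toFinite _)
  rw [Set.ncard_coe_finset, List.toFinset_card_of_nodup hn, h7, P.hset_ncard hf] at h2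
  omega

theorem seven_eq (h1 : ∀ W, MaxSet E W → ∀ l : List X, l.Nodup → InSet W l → l.length = 6 →
      l.prod = 1 → ev σ l = 1)
    {W W' : Set X} (hW : MaxSet E W) (hW' : MaxSet E W') {l l' : List X} (hn : l.Nodup)
    (hl : InSet W l) (h7 : l.length = 7) (hp : l.prod = 1) (hn' : l'.Nodup) (hl' : InSet W' l')
    (h7' : l'.length = 7) (hp' : l'.prod = 1) : ev σ l' = ev σ l := by
  classical
  obtain ⟨a, b, c, e, ha, hb, hc, he, hab, hac, hbc, heR⟩ := exists_fourth P hW hn hl h7
  obtain ⟨a', b', c', e', ha', hb', hc', he', hab', hac', hbc', heR'⟩ :=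
    exists_fourth P hW' hn' hl' h7'
  obtain ⟨g₀, hg₀⟩ := P.maxSet_conj hW' hW
  have mem₀ : ∀ {y}, y ∈ l' → cj g₀ y ∈ W := fun {y} hy => hg₀ ▸ ⟨y, hl' y hy, rfl⟩
  obtain ⟨g₁, hg₁, ea, eb, ec⟩ := P.maxSet_triples hW (mem₀ ha') (mem₀ hb') (mem₀ hc')
    ((cj_injective g₀).ne hab') ((cj_injective g₀).ne hac') ((cj_injective g₀).ne hbc')
    (hl a ha) (hl b hb) (hl c hc) hab hac hbc
  have hf := hW.fac (hl a ha) (hl b hb) (hl c hc) hab hac hbc
  have hRW := P.hset_subset hW (hl a ha) (hl b hb) (hl c hc)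
  have hR : IsHex E (hset E a b c) := ⟨a, b, c, hf, rfl⟩
  rw [← cj_mul] at ea eb ec
  have hWg : cj (g₁ * g₀) '' W' = W := by
    rw [show cj (g₁ * g₀) = cj g₁ ∘ cj g₀ from funext (cj_mul g₁ g₀), Set.image_comp, hg₀, hg₁]
  set g := g₁ * g₀
  set p := cj g e'
  have hpW : p ∈ W := hWg ▸ ⟨e', hl' e' he', rfl⟩
  have hpR : p ∉ hset E a b c := fun h => heR' (by
    have := hset_map (f := MulAut.conj g⁻¹) (fun y hy => P.data.inv' g⁻¹ y hy) h
    change cj g⁻¹ p ∈ hset E (cj g⁻¹ a) (cj g⁻¹ b) (cj g⁻¹ c) at this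
    rwa [← ea, ← eb, ← ec, cj_inv_cj, cj_inv_cj, cj_inv_cj, cj_inv_cj] at this)
  obtain ⟨h, hh, nh⟩ := P.exists_off hW hR hRW hpW hpR
  obtain ⟨h', hh', chh', -, hpe⟩ := P.translation hW hR hRW hpW hpR hh nh hpW hpR (hl e he) heR
  obtain ⟨hst, hfix⟩ := P.pair_stab hW hR hRW hpW hpR hh hh' nh chh'
  set G := h * h' * g
  have hWG : cj G '' W' = W := by
    rw [show cj G = cj (h * h') ∘ cj g from funext (cj_mul _ g), Set.image_comp, hWg, hst]
  obtain ⟨ma, mb, mc⟩ := M22Prim.mem_hset_self hf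
  have eG : cj G a' = a ∧ cj G b' = b ∧ cj G c' = c ∧ cj G e' = e := by
    refine ⟨?_, ?_, ?_, ?_⟩ <;> rw [cj_mul]
    · rw [ea]; exact hfix a ma
    · rw [eb]; exact hfix b mb
    · rw [ec]; exact hfix c mc
    · exact hpe
  set m := l'.map (cj G) with hmdef
  have hm : InSet W m := hWG ▸ hl'.map_cj G
  have hnm : m.Nodup := hn'.map (cj_injective _)
  have hlm : m.length = 7 := by rw [hmdef, List.length_map, h7']
  have hpm : m.prod = 1 := by rw [hmdef, ← cj_list_prod, hp']; simp [cj]
  have h4n : [a, b, c, e].Nodup := by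
    have : a ≠ e ∧ b ≠ e ∧ c ≠ e :=
      ⟨fun h => heR (h ▸ ma), fun h => heR (h ▸ mb), fun h => heR (h ▸ mc)⟩
    simp [hab, hac, hbc, this]
  -- split off the four common members
  have split : ∀ {z : List X}, z.Nodup → z.length = 7 → (∀ y ∈ [a, b, c, e], y ∈ z) →
      ∃ r : List X, r.length = 3 ∧ z.Perm ([a, b, c, e] ++ r) := by
    intro z hz hz7 hsub
    set r := z.filter (fun y => decide (y ∉ [a, b, c, e]))
    have hnd : ([a, b, c, e] ++ r).Nodup := List.nodup_append.2 ⟨h4n, hz.filter _, fun x hx y hy e' =>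
      (by simpa using (List.mem_filter.1 hy).2 : y ∉ [a, b, c, e]) (e' ▸ hx)⟩
    have hr : z.Perm ([a, b, c, e] ++ r) := (List.perm_ext_iff_of_nodup hz hnd).2 fun y => by
      rw [List.mem_append, List.mem_filter]
      constructor
      · intro hy
        by_cases h : y ∈ [a, b, c, e]
        · exact Or.inl h
        · exact Or.inr ⟨hy, decide_eq_true h⟩
      · rintro (h | h)
        exacts [hsub y h, h.1]
    refine ⟨r, ?_, hr⟩
    have := hr.length_eq
    simp only [List.length_append, List.length_cons, List.length_nil, hz7] at this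
    omega
  obtain ⟨r, hr3, hrl⟩ := split hn h7 (by simp [ha, hb, hc, he])
  obtain ⟨r', hr3', hrm⟩ := split hnm hlm (by
    intro y hy
    simp only [List.mem_cons, List.not_mem_nil, or_false] at hy
    rw [hmdef, List.mem_map]
    rcases hy with rfl | rfl | rfl | rfl
    exacts [⟨a', ha', eG.1⟩, ⟨b', hb', eG.2.1⟩, ⟨c', hc', eG.2.2.1⟩, ⟨e', he', eG.2.2.2⟩])
  have i4 : InSet W [a, b, c, e] := fun y hy => hl y (hrl.symm.subset (List.mem_append_left _ hy))
  have ir : InSet W r := fun y hy => hl y (hrl.symm.subset (List.mem_append_right _ hy))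
  have ir' : InSet W r' := fun y hy => hm y (hrm.symm.subset (List.mem_append_right _ hy))
  have hperm : (l ++ m).Perm (([a, b, c, e] ++ [a, b, c, e]) ++ (r ++ r')) :=
    (hrl.append hrm).trans (by
      rw [List.append_assoc, List.append_assoc]
      refine List.Perm.append_left _ ?_
      rw [← List.append_assoc, ← List.append_assoc]
      exact List.perm_append_comm.append_right r')
  have hrr : (r ++ r').prod = 1 := by
    have := fac_perm_prod (fun x hx y hy =>
      hW.comm x ((hl.append hm) x hx) y ((hl.append hm) y hy)) hperm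
    rw [List.prod_append, hp, hpm, one_mul, List.prod_append, prod_dup P hW i4, one_mul] at this
    exact this.symm
  have h6 := K.rel_le P S hW 6 (fun z hz1 hz2 h6 h6' hz3 => h1 W hW z hz1 hz2 (by omega) hz3)
    (r ++ r') (ir.append ir') (by rw [List.length_append]; omega) hrr
  have := K.ev_perm P S hW (hl.append hm) hperm
  rw [ev_append, ev_append _ _ (r ++ r'), K.ev_dup P S hW i4, h6, one_mul] at this
  rw [← K.value_conj P S hW' hl' hp' G, ← hmdef, mul_eq_one_iff_inv_eq.1 this |>.symm,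
    K.ev_inv P S hW hl]

theorem exists_good (h1 : ∀ W, MaxSet E W → ∀ l : List X, l.Nodup → InSet W l → l.length = 6 →
    l.prod = 1 → ev σ l = 1) : ∃ τ : X → C, Sec E π τ ∧ Good E τ := by
  by_cases h : ∃ W l, MaxSet E W ∧ l.Nodup ∧ InSet W l ∧ l.length = 7 ∧ l.prod = 1 ∧ ev σ l = d
  · obtain ⟨W₀, l₀, hW₀, hn₀, hl₀, h7₀, hp₀, he₀⟩ := h
    refine ⟨fun u => σ u * d, K.sec_flip P S, fun W hW l hn hl h6 h7 hp => ?_⟩
    rw [K.ev_flip]
    rcases (show l.length = 6 ∨ l.length = 7 by omega) with e | e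
    · rw [e, h1 W hW l hn hl e hp]
      simp [pow_succ, K.sq]
    · rw [e, K.seven_eq P S h1 hW₀ hW hn₀ hl₀ h7₀ hp₀ hn hl e hp, he₀]
      simp [pow_succ, K.sq]
  · refine ⟨σ, S, fun W hW l hn hl h6 h7 hp => ?_⟩
    rcases (show l.length = 6 ∨ l.length = 7 by omega) with e | e
    · exact h1 W hW l hn hl e hp
    · rcases K.value P S hW hl hp with h' | h'
      · exact h'
      · exact absurd ⟨W, l, hW, hn, hl, e, hp, h'⟩ h

end DCover

end Cfsg.Agent.TTLink
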