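import Cfsg.Agent.TTLink.M22DoubleRel

/-!
In a perfect double cover of a group of type M(22) the lifts of a hexad multiply to the central
involution: otherwise the central involution would have a complement in a subgroup of odd index.
-/

set_option autoImplicit false

namespace Cfsg.Agent.TTLink

open Cfsg.Agent.ThreeTransp45 Cfsg.Agent.SporB

variable {X C : Type*} [Group X] [Group C] {E : Set X}

/-- The elements stabilising a maximal set and fixing a hexad in it pointwise. -/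
def fixing (W R : Set X) : Subgroup X where
  carrier := {x | cj x '' W = W ∧ ∀ r ∈ R, cj x r = r}
  one_mem' := ⟨by simp [show (cj (1 : X)) = id from funext cj_one], fun r _ => cj_one r⟩
  mul_mem' := fun {x y} hx hy => ⟨by
      rw [show cj (x * y) = cj x ∘ cj y from funext (cj_mul x y), Set.image_comp, hy.1, hx.1],
    fun r hr => by rw [cj_mul, hy.2 r hr, hx.2 r hr]⟩
  inv_mem' := fun {x} hx => ⟨by
      conv_lhs => rw [← hx.1, ← Set.image_comp, show cj x⁻¹ ∘ cj x = id from funext (cj_inv_cj x)]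
      rw [Set.image_id],
    fun r hr => by conv_lhs => rw [← hx.2 r hr, cj_inv_cj]⟩

/-- The elements mapping a set to itself. -/
def setStab (S : Set X) : Subgroup X where
  carrier := {x | cj x '' S = S}
  one_mem' := by simp [show (cj (1 : X)) = id from funext cj_one]
  mul_mem' := fun {x y} (hx : cj x '' S = S) (hy : cj y '' S = S) => by
    show cj (x * y) '' S = S
    rw [show cj (x * y) = cj x ∘ cj y from funext (cj_mul x y), Set.image_comp, hy, hx]
  inv_mem' := fun {x} (hx : cj x '' S = S) => by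
    show cj x⁻¹ '' S = S
    conv_lhs => rw [← hx, ← Set.image_comp, show cj x⁻¹ ∘ cj x = id from funext (cj_inv_cj x)]
    rw [Set.image_id]

theorem fixing_setStab {W R : Set X} {x : X} (hx : x ∈ fixing W R) : x ∈ setStab W ∧ x ∈ setStab R :=
  ⟨hx.1, (Set.image_congr hx.2).trans (Set.image_id R)⟩

/-- The products of lifts of commuting transpositions off the maximal set. -/
def pairs (E : Set X) (σ : X → C) (R : Set X) (g : X) : Set C :=
  {x | ∃ h h', Adj E R h ∧ Adj E R h' ∧ Commute h h' ∧ ¬ Commute g h ∧ σ h * σ h' = x}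

/-- The lifts of a maximal set together with these products. -/
def kGrp (E : Set X) (σ : X → C) (W R : Set X) (g : X) : Subgroup C :=
  Subgroup.closure (σ '' W ∪ pairs E σ R g)

theorem adj_cj {x y : X} (hD : Data E) {R : Set X} (hx : Adj E R x) (hy : Adj E R y) :
    Adj E R (cj x y) :=
  ⟨hD.inv' x y hy.1, fun hm => hy.2.1 (by
    have := (cj_eq_self_iff x (cj x y)).2 (hx.2.2 _ hm)
    rw [hD.cj_cj hx.1] at this
    rwa [← this] at hm),
   fun r hr => by
    have := (cj_commute_iff x y r).2 (hy.2.2 r hr)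
    rwa [(cj_eq_self_iff x r).2 (hx.2.2 r hr)] at this⟩

/-- An orbit divides the index. -/
theorem card_dvd_of_orbit {K₀ K : Subgroup X} [Finite X] (hle : K₀ ≤ K) (x : X) (S : Set X)
    (h0 : ∀ k ∈ K₀, cj k x = x) (hS : ∀ k ∈ K, cj k x ∈ S) (htr : ∀ q ∈ S, ∃ k ∈ K, cj k x = q) :
    Nat.card ↥K₀ * S.ncard ∣ Nat.card ↥K := by
  letI : MulAction ↥K X :=
    { smul := fun k y => cj (k : X) y
      one_smul := fun y => cj_one y
      mul_smul := fun k l y => cj_mul (k : X) (l : X) y }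
  have horb : MulAction.orbit ↥K x = S := by
    ext q
    constructor
    · rintro ⟨k, rfl⟩; exact hS k k.2
    · intro hq
      obtain ⟨k, hk, e⟩ := htr q hq
      exact ⟨⟨k, hk⟩, e⟩
  have hst : K₀.subgroupOf K ≤ MulAction.stabilizer ↥K x := fun k hk => h0 k hk
  rw [← horb, ← MulAction.index_stabilizer, ← Nat.card_congr (Subgroup.subgroupOfEquivOfLe hle).toEquiv]
  rw [← Subgroup.card_mul_index (MulAction.stabilizer ↥K x)]
  exact Nat.mul_dvd_mul_right (Subgroup.card_dvd_of_le hst) _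

theorem card_closure_maxSet [Finite X] (P : M22Prim E) {W : Set X} (hW : MaxSet E W) :
    2 ^ 10 ∣ Nat.card ↥(Subgroup.closure W) := by
  classical
  haveI : Fact (Nat.Prime 2) := ⟨Nat.prime_two⟩
  set A := Subgroup.closure W
  haveI hAc : IsMulCommutative ↥A :=
    Subgroup.isMulCommutative_closure fun a ha b hb => (hW.comm a ha b hb).eq
  letI : CommGroup ↥A := { (inferInstance : Group ↥A) with mul_comm := hAc.is_comm.comm }
  letI : Fintype ↥W := Fintype.ofFinite _
  let v : ↥W → ↥A := fun i => ⟨i, Subgroup.subset_closure i.2⟩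
  let f : Finset ↥W → ↥A := fun T => ∏ i ∈ T, v i
  have coe : ∀ T : Finset ↥W, (f T : X) = (T.toList.map Subtype.val).prod := fun T => by
    show A.subtype _ = _
    rw [← Finset.prod_map_toList, map_list_prod, List.map_map]
    rfl
  have fac : ∀ T : Finset ↥W, Fac E (T.toList.map Subtype.val) := fun T =>
    hW.fac_list (T.nodup_toList.map Subtype.val_injective) fun y hy => by
      obtain ⟨i, -, rfl⟩ := List.mem_map.1 hy
      exact i.2
  have mem : ∀ (T : Finset ↥W) (i : ↥W), (i : X) ∈ T.toList.map Subtype.val ↔ i ∈ T := fun T i => by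
    simp [List.mem_map]
  set S := (Finset.univ : Finset ↥W).powersetCard 3
  have hS : S.card = 1540 := by
    rw [Finset.card_powersetCard, Finset.card_univ, ← Nat.card_eq_fintype_card,
      Nat.card_coe_set_eq, hW.card]
    rfl
  have key : ∀ T ∈ S, ∀ T' ∈ S, f T' = f T → T' = T ∨
      ∃ a b c, T.toList.map Subtype.val = [a, b, c] ∧
        T' = Finset.univ.filter fun i : ↥W => (i : X) ∈ hset E a b c ∧ i ∉ T := by
    intro T hT T' hT' he
    have cT := (Finset.mem_powersetCard.1 hT).2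
    have cT' := (Finset.mem_powersetCard.1 hT').2
    set l := T.toList.map Subtype.val with hl
    set l' := T'.toList.map Subtype.val with hl'
    have e1 : l.length = 3 := by rw [hl, List.length_map, Finset.length_toList, cT]
    have e2 : l'.length = 3 := by rw [hl', List.length_map, Finset.length_toList, cT']
    have ep : l'.prod = l.prod := by
      rw [hl, hl', ← coe, ← coe, he]
    by_cases hcom : ∃ x, x ∈ l ∧ x ∈ l'
    · left
      obtain ⟨x, hx, hx'⟩ := hcom
      have key : ∀ {m : List X}, Fac E m → x ∈ m → m.prod = x * (m.erase x).prod := fun {m} hm ham => by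
        rw [fac_perm_prod hm.comm (List.perm_cons_erase ham), List.prod_cons]
      rw [key (fac T) hx, key (fac T') hx'] at ep
      have hu := factors_unique P.data 2 (by norm_num)
        (fun k h1 h2 => P.hyp.indeps ((fac T).mem x hx) (2 * k) (by omega) (by omega))
        _ _ (fac_erase (fac T') x) (fac_erase (fac T) x)
        (by rw [List.length_erase_of_mem hx', e2]) (by rw [List.length_erase_of_mem hx, e1])
        (mul_left_cancel ep)
      ext i
      rw [← mem T' i, ← mem T i]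
      by_cases hi : (i : X) = x
      · rw [hi]; exact iff_of_true hx' hx
      · rw [← List.mem_erase_of_ne hi, hu, List.mem_erase_of_ne hi]
    · right
      push Not at hcom
      obtain ⟨a, b, c, habc⟩ := List.length_eq_three.1 e1
      refine ⟨a, b, c, habc, ?_⟩
      have hn : (l ++ l').Nodup := List.nodup_append.2
        ⟨(fac T).nodup, (fac T').nodup, fun x hx y hy e => hcom x hx (e ▸ hy)⟩
      have hin : InSet W (l ++ l') := by
        refine InSet.append ?_ ?_ <;> intro y hy <;> obtain ⟨i, -, rfl⟩ := List.mem_map.1 hy <;> exact i.2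
      have hp : (l ++ l').prod = 1 := by
        rw [List.prod_append, ep, ← List.prod_append]
        exact prod_dup P hW fun y hy => hin y (List.mem_append_left _ hy)
      have d3 := (fac T).nodup
      rw [← hl, habc] at d3
      simp only [List.nodup_cons, List.mem_cons, List.not_mem_nil, or_false, not_or, not_false_eq_true,
        List.nodup_nil, and_true] at d3
      have hiff := P.hset_of_six (hW.fac_list hn hin) (by rw [List.length_append, e1, e2]) hp
        (p := a) (q := b) (r := c) (by simp [habc]) (by simp [habc]) (by simp [habc]) d3.1.1 d3.1.2 d3.2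
      ext i
      rw [Finset.mem_filter, ← hiff, List.mem_append, ← mem T i, ← mem T' i, ← hl, ← hl']
      constructor
      · intro hi; exact ⟨Finset.mem_univ _, Or.inr hi, fun h => hcom _ h hi⟩
      · rintro ⟨-, h | h, hn⟩
        exacts [absurd h hn, h]
  have hfib : ∀ y : ↥A, (S.filter fun T => f T = y).card ≤ 2 := by
    intro y
    rcases (S.filter fun T => f T = y).eq_empty_or_nonempty with e | ⟨T, hT⟩
    · simp [e]
    obtain ⟨hTS, hTy⟩ := Finset.mem_filter.1 hT
    obtain ⟨a, b, c, habc⟩ := List.length_eq_three.1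
      (show (T.toList.map Subtype.val).length = 3 by
        rw [List.length_map, Finset.length_toList, (Finset.mem_powersetCard.1 hTS).2])
    refine le_trans (Finset.card_le_card (t := {T,
      Finset.univ.filter fun i : ↥W => (i : X) ∈ hset E a b c ∧ i ∉ T}) fun T' hT' => ?_) Finset.card_le_two
    obtain ⟨hT'S, hT'y⟩ := Finset.mem_filter.1 hT'
    rcases key T hTS T' hT'S (hT'y.trans hTy.symm) with h | ⟨a', b', c', h1, h2⟩
    · simp [h]
    · rw [habc] at h1
      injection h1 with ea h1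
      injection h1 with eb h1
      injection h1 with ec _
      subst ea eb ec
      simp [h2]
  have hbig : 770 ≤ Nat.card ↥A := by
    have h := Finset.card_le_mul_card_image S 2 (f := f) fun y _ => hfib y
    haveI : Fintype ↥A := Fintype.ofFinite _
    have h2 := Finset.card_le_univ (S.image f)
    rw [← Nat.card_eq_fintype_card] at h2
    omega
  obtain ⟨n, hn⟩ := IsPGroup.iff_card.1 (P.data.isPGroup_closure hW.sub hW.comm)
  refine hn ▸ pow_dvd_pow 2 ?_
  by_contra h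
  have := Nat.pow_le_pow_right (show 0 < 2 by norm_num) (show n ≤ 9 by omega)
  rw [hn] at hbig
  norm_num at this
  omega

variable [Finite X] [Finite C] {π : C →* X} {d : C}

namespace DCover

variable (K : DCover π d) (P : M22Prim E) {σ : X → C} (S : Sec E π σ) {W : Set X} (hW : MaxSet E W)
include K P S hW

theorem closure_normalizer {c : C} (hc : π c ∈ setStab W) :
    c ∈ Subgroup.normalizer (Subgroup.closure (σ '' W) : Set C) := by
  have key : (Subgroup.closure (σ '' W)).map (MulAut.conj c).toMonoidHom = Subgroup.closure (σ '' W) := by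
    rw [MonoidHom.map_closure]
    congr 1
    conv_rhs => rw [← (hc : cj (π c) '' W = W), Set.image_image]
    rw [Set.image_image]
    exact Set.image_congr fun u hu => S.conj c u (hW.sub hu)
  rw [Subgroup.mem_normalizer_iff]
  intro x
  constructor
  · intro hx
    rw [← key]
    exact ⟨x, hx, rfl⟩
  · intro hx
    rw [← key] at hx
    obtain ⟨y, hy, e⟩ := hx
    simp only [MulEquiv.coe_toMonoidHom, MulAut.conj_apply, mul_left_inj, mul_right_inj] at e
    exact e ▸ hy

section hexad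

variable {R : Set X} (hR : IsHex E R) (hRW : R ⊆ W) {g : X} (hg : g ∈ W) (hgR : g ∉ R)
include hR hRW hg hgR

theorem kGrp_fixing {x : C} (hx : x ∈ kGrp E σ W R g) : π x ∈ fixing W R := by
  suffices h : (kGrp E σ W R g) ≤ (fixing W R).comap π from h hx
  refine (Subgroup.closure_le _).2 ?_
  rintro y (⟨w, hw, rfl⟩ | ⟨h, h', hh, hh', hc, hn, rfl⟩)
  · rw [SetLike.mem_coe, Subgroup.mem_comap, S.map w (hW.sub hw)]
    exact ⟨(Set.image_congr fun u hu => (cj_eq_self_iff w u).2 (hW.comm w hw u hu)).trans (Set.image_id W),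
      fun r hr => (cj_eq_self_iff w r).2 (hW.comm w hw r (hRW hr))⟩
  · rw [SetLike.mem_coe, Subgroup.mem_comap, map_mul, S.map h hh.1, S.map h' hh'.1]
    exact P.pair_stab hW hR hRW hg hgR hh hh' hn hc

theorem kGrp_conj {c : C} (hcW : π c ∈ setStab W) (hcR : π c ∈ setStab R) :
    c ∈ Subgroup.normalizer (kGrp E σ W R g : Set C) := by
  -- both directions at once
  suffices key : ∀ c : C, π c ∈ setStab W → π c ∈ setStab R → ∀ x ∈ kGrp E σ W R g,
      c * x * c⁻¹ ∈ kGrp E σ W R g by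
    rw [Subgroup.mem_normalizer_iff]
    intro x
    refine ⟨key c hcW hcR x, fun h => ?_⟩
    have := key c⁻¹ (by rw [map_inv]; exact inv_mem hcW) (by rw [map_inv]; exact inv_mem hcR) _ h
    simpa [mul_assoc] using this
  intro c hcW hcR x hx
  suffices h : (kGrp E σ W R g).map (MulAut.conj c).toMonoidHom ≤ kGrp E σ W R g from
    h ⟨x, hx, rfl⟩
  rw [kGrp, MonoidHom.map_closure, Subgroup.closure_le]
  rintro _ ⟨y, hy | ⟨h, h', hh, hh', hc, hn, rfl⟩, rfl⟩
  · obtain ⟨w, hw, rfl⟩ := hy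
    refine Subgroup.subset_closure (Or.inl ⟨cj (π c) w, (hcW : cj (π c) '' W = W) ▸ ⟨w, hw, rfl⟩, ?_⟩)
    exact (S.conj c w (hW.sub hw)).symm
  · refine Subgroup.subset_closure (Or.inr ?_)
    have adj : ∀ {u}, Adj E R u → Adj E R (cj (π c) u) := fun {u} hu => by
      refine ⟨P.data.inv' _ _ hu.1, fun hm => hu.2.1 ?_, fun r hr => ?_⟩
      · rw [← (hcR : cj (π c) '' R = R)] at hm
        obtain ⟨r, hr, e⟩ := hm
        exact cj_injective _ e ▸ hr
      · rw [← (hcR : cj (π c) '' R = R)] at hr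
        obtain ⟨r', hr', rfl⟩ := hr
        exact (cj_commute_iff _ _ _).2 (hu.2.2 r' hr')
    have hg' : cj (π c) g ∈ W := (hcW : cj (π c) '' W = W) ▸ ⟨g, hg, rfl⟩
    have hgR' : cj (π c) g ∉ R := fun hm => by
      rw [← (hcR : cj (π c) '' R = R)] at hm
      obtain ⟨r, hr, e⟩ := hm
      exact hgR (cj_injective _ e ▸ hr)
    refine ⟨cj (π c) h, cj (π c) h', adj hh, adj hh', (cj_commute_iff _ _ _).2 hc, fun hc' => hn ?_, ?_⟩
    · refine (cj_commute_iff (π c) g h).1 ?_
      exact P.adj_trans hR (M22Prim.adj_of_mem hW hRW hg' hgR') (M22Prim.adj_of_mem hW hRW hg hgR)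
        (adj hh) (hW.comm _ hg' g hg) hc'
    · rw [← S.conj c h hh.1, ← S.conj c h' hh'.1]
      simp [mul_assoc]

variable (hG : Good E σ)
include hG

/-- An element of the group is a product from two commutative parts. -/
theorem kGrp_decomp : ∃ h V, Adj E R h ∧ ¬ Commute g h ∧ MaxSet E V ∧ R ⊆ V ∧
    (∀ x, Adj E R x → Commute x h → x ∈ V) ∧
    ∀ y ∈ kGrp E σ W R g, ∃ b ∈ Subgroup.closure (σ '' W), ∃ v ∈ Subgroup.closure (σ '' V), y = b * v := by
  have hD := P.data
  obtain ⟨h, hh, ngh⟩ := P.exists_off hW hR hRW hg hgR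
  have aW : ∀ {x}, x ∈ W → x ∉ R → Adj E R x := fun hx hxR => M22Prim.adj_of_mem hW hRW hx hxR
  obtain ⟨V, hV, hsub⟩ := P.exists_maxSet (E := R ∪ {x | Adj E R x ∧ Commute x h}) (by
      rintro x (hx | ⟨hx, -⟩)
      exacts [hW.sub (hRW hx), hx.1]) (by
      rintro a (ha | ⟨ha, ca⟩) b (hb | ⟨hb, cb⟩)
      exacts [hW.comm a (hRW ha) b (hRW hb), (hb.2.2 a ha).symm, ha.2.2 b hb,
        P.adj_trans hR ha hh hb ca cb.symm])
  refine ⟨h, V, hh, ngh, hV, fun x hx => hsub (Or.inl hx), fun x hx hc => hsub (Or.inr ⟨hx, hc⟩), ?_⟩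
  set S₂ := Subgroup.closure {x : C | ∃ k k', Adj E R k ∧ Adj E R k' ∧ Commute k h ∧ Commute k' h ∧
    σ k * σ k' = x}
  have hS₂V : S₂ ≤ Subgroup.closure (σ '' V) := (Subgroup.closure_le _).2 (by
    rintro _ ⟨k, k', hk, hk', ck, ck', rfl⟩
    exact Subgroup.mul_mem _ (Subgroup.subset_closure ⟨k, hsub (Or.inr ⟨hk, ck⟩), rfl⟩)
      (Subgroup.subset_closure ⟨k', hsub (Or.inr ⟨hk', ck'⟩), rfl⟩))
  have hnorm : S₂ ≤ Subgroup.normalizer (Subgroup.closure (σ '' W) : Set C) :=
    (Subgroup.closure_le _).2 (by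
      rintro _ ⟨k, k', hk, hk', ck, ck', rfl⟩
      refine K.closure_normalizer P S hW ?_
      rw [map_mul, S.map k hk.1, S.map k' hk'.1]
      exact (P.pair_stab hW hR hRW hg hgR hk hk'
        (fun c => ngh (P.adj_trans hR (aW hg hgR) hk hh c ck)) (P.adj_trans hR hk hh hk' ck ck'.symm)).1)
  have hle : kGrp E σ W R g ≤ Subgroup.closure (σ '' W) ⊔ S₂ := by
    refine (Subgroup.closure_le _).2 ?_
    rintro x (hx | ⟨h₁, h₁', k1, k1', c1, n1, rfl⟩)
    · exact Subgroup.mem_sup_left (Subgroup.subset_closure hx)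
    by_cases c0 : Commute h₁ h
    · exact Subgroup.mem_sup_right (Subgroup.subset_closure
        ⟨h₁, h₁', k1, k1', c0, P.adj_trans hR k1' k1 hh c1.symm c0, rfl⟩)
    have n1' : ¬ Commute g h₁' := fun c => n1 (P.adj_trans hR (aW hg hgR) k1' k1 c c1.symm)
    have c0' : ¬ Commute h₁' h := fun c => c0 (P.adj_trans hR k1 k1' hh c1 c)
    have move : ∀ {u}, Adj E R u → ¬ Commute g u → ¬ Commute u h →
        Adj E R (cj g u) ∧ Commute (cj g u) h := by
      intro u hu ngu nuh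
      refine ⟨adj_cj hD (aW hg hgR) hu, ?_⟩
      have := P.adj_three hR (aW hg hgR) hh hu ngh (fun c => ngu c.symm) nuh
      rw [← hD.cj_eq hh.1, hD.cj_comm hh.1 (hW.sub hg) fun c => ngh c.symm] at this
      have := (cj_commute_iff g u (cj g h)).2 this
      rwa [hD.cj_cj (hW.sub hg)] at this
    obtain ⟨x1, x2⟩ := move k1 n1 c0
    obtain ⟨y1, y2⟩ := move k1' n1' c0'
    have hσg : σ g ∈ Subgroup.closure (σ '' W) ⊔ S₂ :=
      Subgroup.mem_sup_left (Subgroup.subset_closure ⟨g, hg, rfl⟩)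
    have e : σ h₁ * σ h₁' = σ g * (σ (cj g h₁) * σ (cj g h₁')) * (σ g)⁻¹ := by
      have e1 := S.conj (σ g) (cj g h₁) x1.1
      have e2 := S.conj (σ g) (cj g h₁') y1.1
      rw [S.map g (hW.sub hg), hD.cj_cj (hW.sub hg)] at e1 e2
      rw [← e1, ← e2]
      simp [mul_assoc]
    rw [SetLike.mem_coe, e]
    exact Subgroup.mul_mem _ (Subgroup.mul_mem _ hσg (Subgroup.mem_sup_right (Subgroup.subset_closure
      ⟨_, _, x1, y1, x2, y2, rfl⟩))) (Subgroup.inv_mem _ hσg)
  intro y hy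
  have := hle hy
  rw [← SetLike.mem_coe, Subgroup.coe_mul_of_right_le_normalizer_left _ _ hnorm] at this
  obtain ⟨b, hb, v, hv, e⟩ := this
  exact ⟨b, hb, v, hS₂V hv, e.symm⟩

theorem d_notMem_kGrp : d ∉ kGrp E σ W R g := by
  intro hd
  obtain ⟨h, V, -, -, hV, -, -, hdec⟩ := K.kGrp_decomp P S hW hR hRW hg hgR hG
  obtain ⟨b, hb, v, hv, e⟩ := hdec d hd
  have := congrArg π e
  rw [K.map_d, map_mul] at this
  have := K.eq_of_map P S hG hW hV hb (inv_mem hv) (by rw [map_inv]; exact eq_inv_of_mul_eq_one_left this.symm)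
  exact K.ne (by rw [e, this, inv_mul_cancel])

/-- Off the hexad the action is semiregular. -/
theorem kGrp_semiregular {y : C} (hy : y ∈ kGrp E σ W R g) {p : X} (hp : p ∈ W) (hpR : p ∉ R)
    (hfix : cj (π y) p = p) : y ∈ Subgroup.closure (σ '' W) := by
  have hD := P.data
  obtain ⟨hyW, hyR⟩ := K.kGrp_fixing P S hW hR hRW hg hgR hy
  obtain ⟨h, V, hh, ngh, hV, -, hmem, hdec⟩ := K.kGrp_decomp P S hW hR hRW hg hgR hG
  obtain ⟨b, hb, v, hv, rfl⟩ := hdec y hy
  obtain ⟨mb, fb, ib, lb, pb, rfl⟩ := K.rep P S hG hW hb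
  obtain ⟨m, fm, im, lm, pm, rfl⟩ := K.rep P S hG hV hv
  have bfix : ∀ q ∈ W, cj (π (ev σ mb)) q = q := fun q hq => by
    rw [← pb, cj_eq_self_iff]
    exact (Commute.list_prod_right _ _ fun z hz => hW.comm q hq z (ib z hz)).symm
  have step : ∀ q ∈ W, cj (π (ev σ mb * ev σ m)) q = q → cj m.prod q = q := by
    intro q hq e
    rw [map_mul, cj_mul, ← pm] at e
    exact cj_injective (π (ev σ mb)) (e.trans (bfix q hq).symm)
  have hall : ∀ q ∈ W, cj m.prod q = q := by
    intro q hq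
    by_cases hqR : q ∈ R
    · exact step q hq (hyR q hqR)
    obtain ⟨h', hh', chh', -, hpq⟩ := P.translation hW hR hRW hg hgR hh ngh hp hpR hq hqR
    have hc : Commute m.prod (h * h') := by
      refine Commute.mul_right ?_ ?_ <;> refine (Commute.list_prod_right _ _ fun z hz => hV.comm _ ?_ z (im z hz)).symm
      · exact hmem h hh (Commute.refl h)
      · exact hmem h' hh' chh'.symm
    rw [← hpq, ← cj_mul, hc.eq, cj_mul, step p hp hfix]
  have hmW : InSet W m := P.factor_mem hW fm lm fun w hw =>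
    ((cj_eq_self_iff _ _).1 (hall w hw)).symm
  refine Subgroup.mul_mem _ hb (Subgroup.list_prod_mem _ fun z hz => ?_)
  obtain ⟨u, hu, rfl⟩ := List.mem_map.1 hz
  exact Subgroup.subset_closure ⟨u, hmW u hu, rfl⟩

end hexad

omit hW in
theorem no_good (hG : Good E σ) : False := by
  classical
  have hD := P.data
  obtain ⟨W, hW, -⟩ := P.exists_maxSet (E := (∅ : Set X)) (Set.empty_subset _) (by simp)
  have hW3 : 2 < W.ncard := by rw [hW.card]; norm_num
  obtain ⟨a₀, b₀, c₀, ha₀, hb₀, hc₀, hab₀, hac₀, hbc₀⟩ := (Set.two_lt_ncard_iff (Set.toFinite _)).1 hW3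
  have hf₀ := hW.fac ha₀ hb₀ hc₀ hab₀ hac₀ hbc₀
  set R := hset E a₀ b₀ c₀
  have hR : IsHex E R := ⟨a₀, b₀, c₀, hf₀, rfl⟩
  have hRW : R ⊆ W := P.hset_subset hW ha₀ hb₀ hc₀
  have hR6 : R.ncard = 6 := P.hset_ncard hf₀
  -- four points of the hexad
  obtain ⟨a, b, ha, hb, hab⟩ := (Set.one_lt_ncard_iff (Set.toFinite R)).1 (by omega)
  have h4 : (R \ {a, b}).ncard = 4 := by
    rw [Set.ncard_sdiff (by simp [Set.insert_subset_iff, ha, hb]) (Set.toFinite _), hR6,
      Set.ncard_pair hab]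
  obtain ⟨f, f', ⟨hf, hfab⟩, ⟨hf', hf'ab⟩, hff'⟩ :=
    (Set.one_lt_ncard_iff (Set.toFinite (R \ {a, b}))).1 (by omega)
  simp only [Set.mem_insert_iff, Set.mem_singleton_iff, not_or] at hfab hf'ab
  obtain ⟨p, hp, hpR⟩ : ∃ p ∈ W, p ∉ R := Set.not_subset.1 fun h => by
    have := Set.ncard_le_ncard h (Set.toFinite _)
    rw [hW.card, hR6] at this
    omega
  have pn : ∀ {r}, r ∈ R → p ≠ r := fun hr e => hpR (e ▸ hr)
  -- an involution interchanging `a` and `b`
  have hf2 := hW.fac (hRW hf) (hRW hf') hp hff' (pn hf).symm (pn hf').symm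
  set R₂ := hset E f f' p
  have hR₂ : IsHex E R₂ := ⟨f, f', p, hf2, rfl⟩
  have hR₂W : R₂ ⊆ W := P.hset_subset hW (hRW hf) (hRW hf') hp
  obtain ⟨m2f, m2f', m2p⟩ := M22Prim.mem_hset_self hf2
  have meet : ∀ {R' : Set X}, IsHex E R' → ∀ {x y z}, x ∈ R → x ∈ R' → y ∈ R → y ∈ R' → z ∈ R → z ∈ R' →
      x ≠ y → x ≠ z → y ≠ z → R' = R := fun {R'} hR' {x y z} x1 x2 y1 y2 z1 z2 nxy nxz nyz =>
    (P.hex_eq hR' x2 y2 z2 nxy nxz nyz).2.symm.trans (P.hex_eq hR x1 y1 z1 nxy nxz nyz).2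
  have ha₂ : a ∉ R₂ := fun h => hpR (meet hR₂ hf m2f hf' m2f' ha h hff' hfab.1 hf'ab.1 ▸ m2p)
  have hb₂ : b ∉ R₂ := fun h => hpR (meet hR₂ hf m2f hf' m2f' hb h hff' hfab.2 hf'ab.2 ▸ m2p)
  obtain ⟨h₂, hh₂, nh₂⟩ := P.exists_off hW hR₂ hR₂W (hRW ha) ha₂
  obtain ⟨h₂', hh₂', ch₂, -, huab⟩ :=
    P.translation hW hR₂ hR₂W (hRW ha) ha₂ hh₂ nh₂ (hRW ha) ha₂ (hRW hb) hb₂
  obtain ⟨huW, hufix⟩ := P.pair_stab hW hR₂ hR₂W (hRW ha) ha₂ hh₂ hh₂' nh₂ ch₂
  set u := h₂ * h₂'
  have hu2 : u * u = 1 := by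
    show h₂ * h₂' * (h₂ * h₂') = 1
    rw [mul_assoc, ← mul_assoc h₂' h₂, ← ch₂.eq, mul_assoc h₂, hD.mul_self hh₂'.1, mul_one,
      hD.mul_self hh₂.1]
  have huba : cj u b = a := by rw [← huab, ← cj_mul, hu2, cj_one]
  have hudom : ∀ {x}, x ∈ E → cj u x ∈ E := fun hx => hD.inv' _ _ hx
  have uset : ∀ {x y z}, x ∈ R → y ∈ R → z ∈ R → x ≠ y → x ≠ z → y ≠ z → cj u x ∈ R → cj u y ∈ R →
      cj u z ∈ R → cj u '' R = R := by
    intro x y z hx hy hz nxy nxz nyz mx my mz
    refine Set.eq_of_subset_of_ncard_le ?_ ?_ (Set.toFinite _)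
    · rintro _ ⟨r, hr, rfl⟩
      rw [← (P.hex_eq hR hx hy hz nxy nxz nyz).2] at hr
      have := hset_map (f := MulAut.conj u) (fun y hy => hD.inv' u y hy) hr
      change cj u r ∈ hset E (cj u x) (cj u y) (cj u z) at this
      rwa [(P.hex_eq hR mx my mz ((cj_injective u).ne nxy) ((cj_injective u).ne nxz)
        ((cj_injective u).ne nyz)).2] at this
    · rw [Set.ncard_image_of_injective _ (cj_injective u)]
  have huR : cj u '' R = R := uset hf hf' ha hff' hfab.1 hf'ab.1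
    (by rw [hufix f m2f]; exact hf) (by rw [hufix f' m2f']; exact hf') (by rw [huab]; exact hb)
  -- the hexad through `a`, `b` and `p`
  have hf1 := hW.fac (hRW ha) (hRW hb) hp hab (pn ha).symm (pn hb).symm
  set R₁ := hset E a b p
  have hR₁ : IsHex E R₁ := ⟨a, b, p, hf1, rfl⟩
  have hR₁W : R₁ ⊆ W := P.hset_subset hW (hRW ha) (hRW hb) hp
  obtain ⟨m1a, m1b, m1p⟩ := M22Prim.mem_hset_self hf1
  have out1 : ∀ q ∈ R \ {a, b}, q ∉ R₁ := by
    rintro q ⟨hq, hqab⟩ h
    simp only [Set.mem_insert_iff, Set.mem_singleton_iff, not_or] at hqab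
    exact hpR (meet hR₁ ha m1a hb m1b hq h hab (Ne.symm hqab.1) (Ne.symm hqab.2) ▸ m1p)
  have huR₁ : cj u '' R₁ = R₁ := by
    refine Set.eq_of_subset_of_ncard_le ?_ ?_ (Set.toFinite _)
    · rintro _ ⟨r, hr, rfl⟩
      have := hset_map (f := MulAut.conj u) (fun y hy => hD.inv' u y hy) hr
      change cj u r ∈ hset E (cj u a) (cj u b) (cj u p) at this
      rw [huab, huba, hufix p m2p] at this
      exact hull_swap this
    · rw [Set.ncard_image_of_injective _ (cj_injective u)]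
  have hf₁ : f ∉ R₁ := out1 f ⟨hf, by simp [hfab]⟩
  -- the three layers
  set K₁ := kGrp E σ W R p
  set U := kGrp E σ W R₁ f ⊓ (setStab R).comap π
  obtain ⟨û, hû⟩ := K.surj u
  have nd₁ : d ∉ K₁ := K.d_notMem_kGrp P S hW hR hRW hp hpR hG
  have hUn : U ≤ Subgroup.normalizer (K₁ : Set C) := fun y hy =>
    K.kGrp_conj P S hW hR hRW hp hpR (K.kGrp_fixing P S hW hR₁ hR₁W (hRW hf) hf₁ hy.1).1 hy.2
  set K₂ := K₁ ⊔ U
  have mem₂ : ∀ y ∈ K₂, ∃ k ∈ K₁, ∃ z ∈ U, y = k * z := fun y hy => by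
    rw [← SetLike.mem_coe, Subgroup.coe_mul_of_right_le_normalizer_left _ _ hUn] at hy
    obtain ⟨k, hk, z, hz, e⟩ := hy
    exact ⟨k, hk, z, hz, e.symm⟩
  have fix₂ : ∀ y ∈ K₂, π y ∈ setStab W ∧ π y ∈ setStab R ∧ cj (π y) a = a ∧ cj (π y) b = b := by
    intro y hy
    obtain ⟨k, hk, z, hz, rfl⟩ := mem₂ y hy
    obtain ⟨k1, k2⟩ := K.kGrp_fixing P S hW hR hRW hp hpR hk
    obtain ⟨z1, z2⟩ := K.kGrp_fixing P S hW hR₁ hR₁W (hRW hf) hf₁ hz.1
    rw [map_mul]
    refine ⟨mul_mem (show π k ∈ setStab W from k1) z1,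
      mul_mem (fixing_setStab (⟨k1, k2⟩ : π k ∈ fixing W R)).2 hz.2, ?_, ?_⟩
    · rw [cj_mul, z2 a m1a, k2 a ha]
    · rw [cj_mul, z2 b m1b, k2 b hb]
  have nd₂ : d ∉ K₂ := by
    intro hd
    obtain ⟨k, hk, z, hz, e⟩ := mem₂ d hd
    obtain ⟨k1, k2⟩ := K.kGrp_fixing P S hW hR hRW hp hpR hk
    have ez : π z = (π k)⁻¹ := eq_inv_of_mul_eq_one_right (by rw [← map_mul, ← e, K.map_d])
    have hzf : cj (π z) f = f := by rw [ez]; exact ((fixing W R).inv_mem ⟨k1, k2⟩).2 f hf
    have hzB := K.kGrp_semiregular P S hW hR₁ hR₁W (hRW hf) hf₁ hG hz.1 (hRW hf) hf₁ hzf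
    refine nd₁ (e ▸ mul_mem hk ?_)
    exact Subgroup.closure_mono Set.subset_union_left hzB
  set M₀ := K₂ ⊔ Subgroup.zpowers û
  have hû2 : û * û = 1 := K.lift_sq P (by rw [hû, hu2])
  have hzp : ∀ z ∈ Subgroup.zpowers û, z = 1 ∨ z = û := by
    intro z hz
    obtain ⟨n, rfl⟩ := Subgroup.mem_zpowers_iff.1 hz
    rcases Int.even_or_odd n with ⟨j, rfl⟩ | ⟨j, rfl⟩
    · left; rw [← two_mul, zpow_mul, zpow_two, hû2, one_zpow]
    · right; rw [zpow_add_one, zpow_mul, zpow_two, hû2, one_zpow, one_mul]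
  have hûn : Subgroup.zpowers û ≤ Subgroup.normalizer (K₂ : Set C) := by
    rw [Subgroup.zpowers_le]
    have e1 : ∀ y ∈ K₂, û * y * û⁻¹ ∈ K₂ := by
      intro y hy
      obtain ⟨k, hk, z, hz, rfl⟩ := mem₂ y hy
      have hk' := (Subgroup.mem_normalizer_iff.1 (K.kGrp_conj P S hW hR hRW hp hpR (c := û)
        (by rw [hû]; exact huW) (by rw [hû]; exact huR)) k).1 hk
      have hz1 := (Subgroup.mem_normalizer_iff.1 (K.kGrp_conj P S hW hR₁ hR₁W (hRW hf) hf₁ (c := û)
        (by rw [hû]; exact huW) (by rw [hû]; exact huR₁)) z).1 hz.1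
      have hz2 : π (û * z * û⁻¹) ∈ setStab R := by
        rw [map_mul, map_mul, map_inv, hû]
        exact mul_mem (mul_mem huR hz.2) (inv_mem (huR : u ∈ setStab R))
      rw [show û * (k * z) * û⁻¹ = (û * k * û⁻¹) * (û * z * û⁻¹) by simp [mul_assoc]]
      exact Subgroup.mul_mem_sup hk' ⟨hz1, hz2⟩
    rw [Subgroup.mem_normalizer_iff]
    intro y
    refine ⟨e1 y, fun h => ?_⟩
    have := e1 _ h
    rw [inv_eq_of_mul_eq_one_right hû2, ← mul_assoc, ← mul_assoc, hû2, one_mul, mul_assoc, hû2,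
      mul_one] at this
    exact this
  have mem₃ : ∀ y ∈ M₀, ∃ k ∈ K₂, y = k ∨ y = k * û := fun y hy => by
    rw [← SetLike.mem_coe, Subgroup.coe_mul_of_right_le_normalizer_left _ _ hûn] at hy
    obtain ⟨k, hk, z, hz, e⟩ := hy
    refine ⟨k, hk, ?_⟩
    rcases hzp z hz with rfl | rfl
    · exact Or.inl (by simpa using e.symm)
    · exact Or.inr e.symm
  have nd₃ : d ∉ M₀ := by
    intro hd
    obtain ⟨k, hk, e | e⟩ := mem₃ d hd
    · exact nd₂ (e ▸ hk)
    · have hp' : π k * u = 1 := by rw [← hû, ← map_mul, ← e, K.map_d]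
      have := (fix₂ k hk).2.2.1
      rw [eq_inv_of_mul_eq_one_left hp', inv_eq_of_mul_eq_one_right hu2, huab] at this
      exact hab this.symm
  -- orders
  set B := Subgroup.closure W
  have hB1 : B ≤ K₁.map π := (Subgroup.closure_le _).2 fun w hw =>
    ⟨σ w, Subgroup.subset_closure (Or.inl ⟨w, hw, rfl⟩), S.map w (hW.sub hw)⟩
  have h1 : Nat.card ↥B * (W \ R).ncard ∣ Nat.card ↥(K₁.map π) := by
    refine card_dvd_of_orbit hB1 p (W \ R) ?_ ?_ ?_
    · intro k hk
      rw [cj_eq_self_iff]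
      have : B ≤ Subgroup.centralizer ({p} : Set X) := (Subgroup.closure_le _).2 fun w hw =>
        Subgroup.mem_centralizer_singleton_iff.2 (hW.comm w hw p hp).eq
      exact Subgroup.mem_centralizer_singleton_iff.1 (this hk)
    · rintro _ ⟨y, hy, rfl⟩
      obtain ⟨y1, y2⟩ := K.kGrp_fixing P S hW hR hRW hp hpR hy
      exact ⟨y1 ▸ ⟨p, hp, rfl⟩, fun h => hpR (cj_injective _ (y2 _ h) ▸ h)⟩
    · rintro q ⟨hq, hqR⟩
      obtain ⟨h, hh, ngh⟩ := P.exists_off hW hR hRW hp hpR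
      obtain ⟨h', hh', chh', -, e⟩ := P.translation hW hR hRW hp hpR hh ngh hp hpR hq hqR
      refine ⟨h * h', ⟨σ h * σ h', Subgroup.subset_closure (Or.inr ⟨h, h', hh, hh', chh', ngh, rfl⟩), ?_⟩, e⟩
      rw [map_mul, S.map h hh.1, S.map h' hh'.1]
  have h2 : Nat.card ↥(K₁.map π) * (R \ {a, b}).ncard ∣ Nat.card ↥(K₂.map π) := by
    refine card_dvd_of_orbit (Subgroup.map_mono le_sup_left) f (R \ {a, b}) ?_ ?_ ?_
    · rintro _ ⟨y, hy, rfl⟩
      exact (K.kGrp_fixing P S hW hR hRW hp hpR hy).2 f hf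
    · rintro _ ⟨y, hy, rfl⟩
      obtain ⟨-, y2, y3, y4⟩ := fix₂ y hy
      refine ⟨(y2 : cj (π y) '' R = R) ▸ ⟨f, hf, rfl⟩, ?_⟩
      rintro (h | h)
      · exact hfab.1 (cj_injective _ (h.trans y3.symm))
      · exact hfab.2 (cj_injective _ (h.trans y4.symm))
    · rintro q hq
      obtain ⟨h, hh, ngh⟩ := P.exists_off hW hR₁ hR₁W (hRW hf) hf₁
      obtain ⟨h', hh', chh', -, e⟩ :=
        P.translation hW hR₁ hR₁W (hRW hf) hf₁ hh ngh (hRW hf) hf₁ (hRW hq.1) (out1 q hq)
      obtain ⟨-, hfx⟩ := P.pair_stab hW hR₁ hR₁W (hRW hf) hf₁ hh hh' ngh chh'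
      refine ⟨h * h', ⟨σ h * σ h', Subgroup.mem_sup_right ⟨Subgroup.subset_closure
        (Or.inr ⟨h, h', hh, hh', chh', ngh, rfl⟩), ?_⟩, by rw [map_mul, S.map h hh.1, S.map h' hh'.1]⟩, e⟩
      show π (σ h * σ h') ∈ setStab R
      rw [map_mul, S.map h hh.1, S.map h' hh'.1]
      refine Set.eq_of_subset_of_ncard_le ?_ ?_ (Set.toFinite _)
      · rintro _ ⟨r, hr, rfl⟩
        rw [← (P.hex_eq hR ha hb hf hab (Ne.symm hfab.1) (Ne.symm hfab.2)).2] at hr
        have := hset_map (f := MulAut.conj (h * h')) (fun y hy => hD.inv' _ y hy) hr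
        change cj (h * h') r ∈ hset E (cj (h * h') a) (cj (h * h') b) (cj (h * h') f) at this
        rw [hfx a m1a, hfx b m1b, e] at this
        have nq := hq.2
        simp only [Set.mem_insert_iff, Set.mem_singleton_iff, not_or] at nq
        rwa [(P.hex_eq hR ha hb hq.1 hab (Ne.symm nq.1) (Ne.symm nq.2)).2] at this
      · rw [Set.ncard_image_of_injective _ (cj_injective _)]
  have h3 : Nat.card ↥(K₂.map π) * ({a, b} : Set X).ncard ∣ Nat.card ↥(M₀.map π) := by
    refine card_dvd_of_orbit (Subgroup.map_mono le_sup_left) a {a, b} ?_ ?_ ?_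
    · rintro _ ⟨y, hy, rfl⟩
      exact (fix₂ y hy).2.2.1
    · rintro _ ⟨y, hy, rfl⟩
      obtain ⟨k, hk, rfl | rfl⟩ := mem₃ y hy
      · exact Or.inl (fix₂ y hk).2.2.1
      · rw [map_mul, hû, cj_mul, huab]
        exact Or.inr (fix₂ k hk).2.2.2
    · rintro q (rfl | rfl)
      · exact ⟨1, one_mem _, cj_one q⟩
      · exact ⟨u, ⟨û, Subgroup.mem_sup_right (Subgroup.mem_zpowers û), hû⟩, huab⟩
  rw [Set.ncard_pair hab] at h3
  rw [h4] at h2
  rw [Set.ncard_sdiff hRW (Set.toFinite _), hW.card, hR6] at h1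
  have hdvd : 2 ^ 17 ∣ Nat.card ↥(M₀.map π) := by
    have h0 := card_closure_maxSet P hW
    have t1 : 2 ^ 10 * 16 ∣ Nat.card ↥(K₁.map π) := (Nat.mul_dvd_mul_right h0 16).trans h1
    have t2 : 2 ^ 10 * 16 * 4 ∣ Nat.card ↥(K₂.map π) := (Nat.mul_dvd_mul_right t1 4).trans h2
    exact (show (2 : ℕ) ^ 17 ∣ 2 ^ 10 * 16 * 4 * 2 from dvd_refl _).trans
      ((Nat.mul_dvd_mul_right t2 2).trans h3)
  -- transfer
  set M : Subgroup C := (M₀.map π).comap π with hM
  have hM0 : M₀ ≤ M := Subgroup.le_comap_map π M₀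
  have hdM : d ∈ M := by rw [hM, Subgroup.mem_comap, K.map_d]; exact one_mem _
  have hidx : ¬ 2 ∣ M.index := by
    rw [hM, Subgroup.index_comap_of_surjective _ K.surj]
    intro h
    have hc := Subgroup.card_mul_index (M₀.map π)
    rw [P.group_card] at hc
    have := Nat.mul_dvd_mul hdvd h
    rw [hc] at this
    norm_num at this
  have hd' : (⟨d, hdM⟩ : ↥M) ∉ M₀.subgroupOf M := nd₃
  have hdec : ∀ y : ↥M, y ∈ M₀.subgroupOf M ∨ y * ⟨d, hdM⟩ ∈ M₀.subgroupOf M := by
    intro y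
    obtain ⟨z, hz, e⟩ := (y.2 : π (y : C) ∈ M₀.map π)
    rcases K.eq_or e with h | h
    · exact Or.inl (show (y : C) ∈ M₀ from h ▸ hz)
    · refine Or.inr (show (y : C) * d ∈ M₀ from ?_)
      rw [h, mul_assoc, K.sq, mul_one]
      exact hz
  have h2i : (M₀.subgroupOf M).index = 2 := by
    rw [Subgroup.index_eq_two_iff]
    refine ⟨⟨d, hdM⟩, fun y => ?_⟩
    rcases hdec y with h | h
    · exact Or.inr ⟨h, fun h' => hd' ((Subgroup.mul_mem_cancel_left _ h).1 h')⟩
    · exact Or.inl ⟨h, fun h' => hd' ((Subgroup.mul_mem_cancel_left _ h').1 h)⟩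
  let φ : ↥M →* ℤˣ :=
    { toFun := fun y => if y ∈ M₀.subgroupOf M then 1 else -1
      map_one' := if_pos (one_mem _)
      map_mul' := fun y z => by
        have := Subgroup.mul_mem_iff_of_index_two h2i (a := y) (b := z)
        by_cases hy : y ∈ M₀.subgroupOf M <;> by_cases hz : z ∈ M₀.subgroupOf M <;>
          simp_all }
  have key : MonoidHom.transfer φ d = φ ⟨d ^ M.index, pow_mem hdM _⟩ :=
    MonoidHom.transfer_eq_pow φ d fun k g₀ _ => by
      rw [((K.central g₀⁻¹).pow_left k).eq.symm, inv_mul_cancel_right]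
  have hone : MonoidHom.transfer φ d = 1 :=
    Abelianization.commutator_subset_ker _ (K.perf ▸ Subgroup.mem_top d)
  rw [hone] at key
  obtain ⟨j, hj⟩ := Nat.odd_iff.2 (Nat.two_dvd_ne_zero.1 hidx)
  have hpow : d ^ M.index = d := by rw [hj, pow_succ, pow_mul, pow_two, K.sq, one_pow, one_mul]
  rw [show (⟨d ^ M.index, pow_mem hdM _⟩ : ↥M) = ⟨d, hdM⟩ from Subtype.ext hpow] at key
  change 1 = (if _ then (1 : ℤˣ) else -1) at key
  rw [if_neg hd'] at key
  exact absurd key (by decide)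

omit hW in
/-- The lifts of a hexad multiply to the central involution. -/
theorem hexad_value {W : Set X} (hW : MaxSet E W) {l : List X} (hn : l.Nodup) (hl : InSet W l)
    (h6 : l.length = 6) (hp : l.prod = 1) : ev σ l = d := by
  rcases K.value P S hW hl hp with h | h
  · exfalso
    obtain ⟨τ, T, hG⟩ := K.exists_good P S fun W' hW' l' hn' hl' h6' hp' => by
      rw [K.six_eq P S hW hW' hn hl h6 hp hn' hl' h6' hp', h]
    exact K.no_good P T hG
  · exact h

end DCover

end Cfsg.Agent.TTLink
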