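import Cfsg.Agent.TTLink.M22Thompson

/-!
The maximal commuting sets of transpositions of a group of type M(22): conjugacy, triple
transitivity of their stabilisers and the translations fixing a hexad.
-/

set_option autoImplicit false

namespace Cfsg.Agent.TTLink

open Cfsg.Agent.ThreeTransp45 Cfsg.Agent.SporB

variable {G : Type*} [Group G] {D : Set G}

/-- A set of twenty-two commuting transpositions. -/
structure MaxSet (D : Set G) (W : Set G) : Prop where
  sub : W ⊆ D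
  comm : ∀ a ∈ W, ∀ b ∈ W, Commute a b
  card : W.ncard = 22

theorem fac_three {a b c : G} (ha : a ∈ D) (hb : b ∈ D) (hc : c ∈ D) (hab : a ≠ b) (hac : a ≠ c)
    (hbc : b ≠ c) (cab : Commute a b) (cac : Commute a c) (cbc : Commute b c) : Fac D [a, b, c] := by
  refine ⟨by simp [hab, hac, hbc], by simp [ha, hb, hc], ?_⟩
  intro x hx y hy
  simp only [List.mem_cons, List.not_mem_nil, or_false] at hx hy
  rcases hx with rfl | rfl | rfl <;> rcases hy with rfl | rfl | rfl <;>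
    first
      | exact Commute.refl _
      | assumption
      | exact cab.symm
      | exact cac.symm
      | exact cbc.symm

namespace MaxSet

variable {W : Set G} (hW : MaxSet D W)
include hW

theorem fac {a b c : G} (ha : a ∈ W) (hb : b ∈ W) (hc : c ∈ W) (hab : a ≠ b) (hac : a ≠ c)
    (hbc : b ≠ c) : Fac D [a, b, c] :=
  fac_three (hW.sub ha) (hW.sub hb) (hW.sub hc) hab hac hbc (hW.comm a ha b hb) (hW.comm a ha c hc)
    (hW.comm b hb c hc)

theorem image (hD : Data D) (g : G) : MaxSet D (cj g '' W) := by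
  refine ⟨?_, ?_, by rw [Set.ncard_image_of_injective _ (cj_injective g), hW.card]⟩
  · rintro _ ⟨a, ha, rfl⟩
    exact hD.inv' g a (hW.sub ha)
  · rintro _ ⟨a, ha, rfl⟩ _ ⟨b, hb, rfl⟩
    exact (cj_commute_iff g a b).2 (hW.comm a ha b hb)

end MaxSet

variable [Finite G]

namespace M22Prim

variable (P : M22Prim D)
include P

theorem commuting_le {E : Set G} (hE : E ⊆ D) (hc : ∀ a ∈ E, ∀ b ∈ E, Commute a b) :
    E.ncard ≤ 22 := by
  have hbdd : BddAbove {n : ℕ | ∃ F : Set G, F ⊆ D ∧ F.Finite ∧ (∀ a ∈ F, ∀ b ∈ F, Commute a b) ∧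
      F.ncard = n} := ⟨Nat.card G, fun n ⟨F, _, _, _, he⟩ => he ▸ Set.ncard_le_card F⟩
  exact P.width_eq ▸ le_csSup hbdd ⟨E, hE, Set.toFinite _, hc, rfl⟩

theorem mem_maxSet {W : Set G} (hW : MaxSet D W) {y : G} (hy : y ∈ D)
    (hc : ∀ x ∈ W, Commute y x) : y ∈ W := by
  by_contra h
  have := P.commuting_le (E := insert y W) (Set.insert_subset hy hW.sub) (by
    rintro a (rfl | ha) b (rfl | hb)
    exacts [Commute.refl _, hc b hb, (hc a ha).symm, hW.comm a ha b hb])
  rw [Set.ncard_insert_of_notMem h (Set.toFinite _), hW.card] at this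
  omega

theorem exists_maxSet {E : Set G} (hE : E ⊆ D) (hc : ∀ a ∈ E, ∀ b ∈ E, Commute a b) :
    ∃ W, MaxSet D W ∧ E ⊆ W := by
  haveI : Fact (Nat.Prime 2) := ⟨Nat.prime_two⟩
  obtain ⟨T, hT⟩ := (P.data.isPGroup_closure hE hc).exists_le_sylow
  exact ⟨{x | x ∈ D ∧ x ∈ (T : Subgroup G)}, ⟨fun x hx => hx.1,
    fun a ha b hb => P.data.commute_of_mem_pGroup T.isPGroup' ha.1 hb.1 ha.2 hb.2,
    (P.sylow_transpositions T).1⟩, fun x hx => ⟨hE hx, hT (Subgroup.subset_closure hx)⟩⟩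

theorem maxSet_conj {W W' : Set G} (hW : MaxSet D W) (hW' : MaxSet D W') :
    ∃ g : G, cj g '' W = W' := by
  haveI : Fact (Nat.Prime 2) := ⟨Nat.prime_two⟩
  obtain ⟨T, hT⟩ := (P.data.isPGroup_closure hW.sub hW.comm).exists_le_sylow
  obtain ⟨T', hT'⟩ := (P.data.isPGroup_closure hW'.sub hW'.comm).exists_le_sylow
  obtain ⟨g, hg⟩ := MulAction.exists_smul_eq G T T'
  refine ⟨g, Set.eq_of_subset_of_ncard_le ?_ ?_ (Set.toFinite _)⟩
  · rintro _ ⟨w, hw, rfl⟩
    refine P.mem_maxSet hW' (P.data.inv' g w (hW.sub hw)) fun x hx => ?_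
    refine P.data.commute_of_mem_pGroup T'.isPGroup' (P.data.inv' g w (hW.sub hw)) (hW'.sub hx) ?_
      (hT' (Subgroup.subset_closure hx))
    rw [← hg, Sylow.coe_subgroup_smul]
    exact ⟨w, hT (Subgroup.subset_closure hw), rfl⟩
  · rw [(hW.image P.data g).card, hW'.card]

theorem sylow_maxSet {W : Set G} (hW : MaxSet D W) (T : Sylow 2 G) (hT : W ⊆ (T : Subgroup G)) :
    {x | x ∈ D ∧ x ∈ (T : Subgroup G)} = W :=
  Set.eq_of_subset_of_ncard_le (fun _ hx => P.mem_maxSet hW hx.1 fun _ hw =>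
      P.data.commute_of_mem_pGroup T.isPGroup' hx.1 (hW.sub hw) hx.2 (hT hw))
    (by rw [(P.sylow_transpositions T).1, hW.card]) (Set.toFinite _)

/-- The factors of an element centralising a maximal set lie in it. -/
theorem factor_mem {W : Set G} (hW : MaxSet D W) {m : List G} (hm : Fac D m) (hlen : m.length ≤ 3)
    (hc : ∀ w ∈ W, Commute w m.prod) : ∀ b ∈ m, b ∈ W := fun b hb =>
  P.mem_maxSet hW (hm.mem b hb) fun w hw =>
    (commute_prod P.data hm hlen (hW.sub hw) (hc w hw) b hb).symm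

theorem hset_subset {W : Set G} (hW : MaxSet D W) {a b c : G} (ha : a ∈ W) (hb : b ∈ W)
    (hc : c ∈ W) : hset D a b c ⊆ W := fun y hy =>
  P.mem_maxSet hW hy.1 fun x hx =>
    (hy.2.2.2.2 x (hW.sub hx) (hW.comm x hx a ha) (hW.comm x hx b hb) (hW.comm x hx c hc)).symm

/-- The stabiliser of a maximal set is triply transitive on it. -/
theorem maxSet_triples {W : Set G} (hW : MaxSet D W) {a b c a' b' c' : G} (ha : a ∈ W) (hb : b ∈ W)
    (hc : c ∈ W) (hab : a ≠ b) (hac : a ≠ c) (hbc : b ≠ c) (ha' : a' ∈ W) (hb' : b' ∈ W)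
    (hc' : c' ∈ W) (hab' : a' ≠ b') (hac' : a' ≠ c') (hbc' : b' ≠ c') :
    ∃ g, cj g '' W = W ∧ cj g a = a' ∧ cj g b = b' ∧ cj g c = c' := by
  haveI : Fact (Nat.Prime 2) := ⟨Nat.prime_two⟩
  have hD := P.data
  obtain ⟨g, ea, eb, ec⟩ := P.triples (hW.fac ha hb hc hab hac hbc) (hW.fac ha' hb' hc' hab' hac' hbc')
  have hW₁ := hW.image hD g
  set Z : Subgroup G := Subgroup.centralizer ({a', b', c'} : Set G)
  -- maximal sets containing the triple lie in its centraliser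
  have le : ∀ {V : Set G}, MaxSet D V → a' ∈ V → b' ∈ V → c' ∈ V →
      Subgroup.closure V ≤ Z := fun {V} hV h1 h2 h3 =>
    (Subgroup.closure_le _).2 fun w hw => by
      rw [SetLike.mem_coe, Subgroup.mem_centralizer_iff]
      rintro x (rfl | rfl | rfl)
      exacts [(hV.comm _ h1 w hw).eq, (hV.comm _ h2 w hw).eq, (hV.comm _ h3 w hw).eq]
  have sylow : ∀ {V : Set G}, MaxSet D V → a' ∈ V → b' ∈ V → c' ∈ V →
      ∃ R : Sylow 2 ↥Z, ∀ z : ↥Z, z ∈ (R : Subgroup ↥Z) → (z : G) ∈ D → (z : G) ∈ V := by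
    intro V hV h1 h2 h3
    have hp : IsPGroup 2 ↥((Subgroup.closure V).subgroupOf Z) :=
      (hD.isPGroup_closure hV.sub hV.comm).of_equiv
        (Subgroup.subgroupOfEquivOfLe (le hV h1 h2 h3)).symm
    obtain ⟨R, hR⟩ := hp.exists_le_sylow
    refine ⟨R, fun z hz hzD => P.mem_maxSet hV hzD fun v hv => ?_⟩
    refine hD.commute_of_mem_pGroup (R.isPGroup'.map Z.subtype) hzD (hV.sub hv) ⟨z, hz, rfl⟩
      ⟨⟨v, le hV h1 h2 h3 (Subgroup.subset_closure hv)⟩, hR ?_, rfl⟩
    exact Subgroup.subset_closure hv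
  obtain ⟨R, hR⟩ := sylow hW ha' hb' hc'
  have h₁ : a' ∈ cj g '' W ∧ b' ∈ cj g '' W ∧ c' ∈ cj g '' W :=
    ⟨⟨a, ha, ea⟩, ⟨b, hb, eb⟩, ⟨c, hc, ec⟩⟩
  obtain ⟨R₁, hR₁'⟩ := (show IsPGroup 2 ↥((Subgroup.closure (cj g '' W)).subgroupOf Z) from
    (hD.isPGroup_closure hW₁.sub hW₁.comm).of_equiv
      (Subgroup.subgroupOfEquivOfLe (le hW₁ h₁.1 h₁.2.1 h₁.2.2)).symm).exists_le_sylow
  obtain ⟨z, hz⟩ := MulAction.exists_smul_eq ↥Z R₁ R
  have hzc : ∀ x ∈ ({a', b', c'} : Set G), cj (z : G) x = x := fun x hx =>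
    (cj_eq_self_iff _ _).2 (Subgroup.mem_centralizer_iff.1 z.2 x hx).symm
  refine ⟨(z : G) * g, Set.eq_of_subset_of_ncard_le ?_ ?_ (Set.toFinite _), ?_, ?_, ?_⟩
  · rintro _ ⟨w, hw, rfl⟩
    have hwZ : cj g w ∈ Z := le hW₁ h₁.1 h₁.2.1 h₁.2.2 (Subgroup.subset_closure ⟨w, hw, rfl⟩)
    rw [cj_mul]
    have hmem : z * ⟨cj g w, hwZ⟩ * z⁻¹ ∈ (R : Subgroup ↥Z) := by
      rw [← hz, Sylow.coe_subgroup_smul]
      exact ⟨⟨cj g w, hwZ⟩, hR₁' (Subgroup.subset_closure ⟨w, hw, rfl⟩), rfl⟩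
    exact hR _ hmem (hD.inv' _ _ (hD.inv' g w (hW.sub hw)))
  · rw [(hW.image hD _).card, hW.card]
  · rw [cj_mul, ea]; exact hzc _ (by simp)
  · rw [cj_mul, eb]; exact hzc _ (by simp)
  · rw [cj_mul, ec]; exact hzc _ (by simp)

section hexad

variable {W : Set G} (hW : MaxSet D W) {R : Set G} (hR : IsHex D R) (hRW : R ⊆ W)
include hW hR hRW

omit P hR [Finite G] in
theorem adj_of_mem {x : G} (hx : x ∈ W) (hxR : x ∉ R) : Adj D R x :=
  ⟨hW.sub hx, hxR, fun r hr => hW.comm x hx r (hRW hr)⟩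

theorem mem_of_adj {g x : G} (hg : g ∈ W) (hgR : g ∉ R) (hx : Adj D R x) (hc : Commute x g) :
    x ∈ W := P.mem_maxSet hW hx.1 fun w hw => by
  by_cases hwR : w ∈ R
  · exact hx.2.2 w hwR
  · exact P.adj_trans hR hx (adj_of_mem hW hRW hg hgR) (adj_of_mem hW hRW hw hwR) hc
      (hW.comm g hg w hw)

/-- Some transposition centralising the hexad lies outside the maximal set. -/
theorem exists_off {g : G} (hg : g ∈ W) (hgR : g ∉ R) :
    ∃ h, Adj D R h ∧ ¬ Commute g h := by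
  classical
  by_contra hno
  push Not at hno
  have hD := P.data
  obtain ⟨a, b, c, hf, rfl⟩ := hR
  obtain ⟨ma, mb, mc⟩ := mem_hset_self hf
  have hR' : IsHex D (hset D a b c) := ⟨a, b, c, hf, rfl⟩
  -- everything commuting with `a`, `b` and `c` lies in `W`
  have hsub : ∀ x ∈ D, Commute x a → Commute x b → Commute x c → x ∈ W := by
    intro x hx h1 h2 h3
    by_cases hxR : x ∈ hset D a b c
    · exact hRW hxR
    · have hA : Adj D (hset D a b c) x := ⟨hx, hxR, fun r hr => (hr.2.2.2.2 x hx h1 h2 h3)⟩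
      exact P.mem_of_adj hW hR' hRW hg hgR hA (hno x hA).symm
  obtain ⟨hn, hm, hcm⟩ := hf
  simp only [List.nodup_cons, List.mem_cons, List.not_mem_nil, or_false, not_or, not_false_eq_true,
    List.nodup_nil, and_true] at hn
  simp only [List.mem_cons, List.not_mem_nil, or_false, forall_eq_or_imp, forall_eq] at hm hcm
  have hcl := P.hyp.cl
  have ht := P.hyp.twinFree
  set S := link D a ∩ (link D b ∩ link D c)
  have hSW : S ⊆ W \ {a} := fun x hx =>
    ⟨hsub x hx.1.1 hx.1.2.2.symm hx.2.1.2.2.symm hx.2.2.2.2.symm, hx.1.2.1⟩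
  have lb : b ∈ link D a := ⟨hm.2.1, Ne.symm hn.1.1, hcm.1.2.1⟩
  have lc : c ∈ link D a := ⟨hm.2.2, Ne.symm hn.1.2, hcm.1.2.2⟩
  have hX := P.link_srg hm.1
  let B : ↥(Subgroup.closure (link D a)) := ⟨b, Subgroup.subset_closure lb⟩
  let C : ↥(Subgroup.closure (link D a)) := ⟨c, Subgroup.subset_closure lc⟩
  obtain ⟨-, hinj⟩ := injOn_link hD hcl ht hm.1
  have hBC : (QuotientGroup.mk C : ↥(Subgroup.closure (link D a)) ⧸ _) ∈
      link (linkQuot D a) (QuotientGroup.mk B) :=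
    ⟨⟨C, lc, rfl⟩, fun e => hn.2 (congrArg Subtype.val (hinj lc lb e)).symm,
      (show Commute B C from Subtype.ext hcm.2.1.2.2.eq).map (QuotientGroup.mk' _)⟩
  have h51 := hX.adj _ ⟨B, lb, rfl⟩ _ hBC
  have eB := down_link hD hcl ht hm.1 (B := B) lb
  have eC := down_link hD hcl ht hm.1 (B := C) lc
  rw [eB, eC, down_inter hD hcl ht hm.1 (Set.inter_subset_left) (Set.inter_subset_left),
    down_ncard hD hcl ht hm.1 (Set.inter_subset_left.trans Set.inter_subset_left)] at h51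
  have e : (link D a ∩ link D (B : G)) ∩ (link D a ∩ link D (C : G)) = S := by
    ext x
    simp only [S, B, C, Set.mem_inter_iff]
    tauto
  rw [e] at h51
  have h22 := Set.ncard_le_ncard hSW (Set.toFinite _)
  rw [Set.ncard_sdiff_singleton_of_mem (hRW ma) , hW.card, h51] at h22
  omega

/-- A translation fixing the hexad. -/
theorem translation {g h p q : G} (hg : g ∈ W) (hgR : g ∉ R) (hh : Adj D R h)
    (hgh : ¬ Commute g h) (hp : p ∈ W) (hpR : p ∉ R) (hq : q ∈ W) (hqR : q ∉ R) :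
    ∃ h', Adj D R h' ∧ Commute h h' ∧ ¬ Commute g h' ∧ cj (h * h') p = q := by
  have hD := P.data
  have aW : ∀ {x}, x ∈ W → x ∉ R → Adj D R x := fun hx hxR => adj_of_mem hW hRW hx hxR
  -- members of the plane do not commute with `h`
  have nc : ∀ {x}, x ∈ W → x ∉ R → ¬ Commute x h := fun {x} hx hxR hc =>
    hgh (P.adj_trans hR (aW hg hgR) (aW hx hxR) hh (hW.comm g hg x hx) hc)
  have hpD := hW.sub hp
  have hqD := hW.sub hq
  have nph := nc hp hpR
  have nqh := nc hq hqR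
  set k := cj p h with hk
  have cjA : ∀ {x y}, Adj D R x → Adj D R y → Adj D R (cj x y) := fun {x y} hx hy =>
    ⟨hD.inv' x y hy.1, fun hm => hy.2.1 (by
      have := (cj_eq_self_iff x (cj x y)).2 (hx.2.2 _ hm)
      rw [hD.cj_cj hx.1] at this
      rwa [← this] at hm),
     fun r hr => by
      have := (cj_commute_iff x y r).2 (hy.2.2 r hr)
      rwa [(cj_eq_self_iff x r).2 (hx.2.2 r hr)] at this⟩
  have hkA : Adj D R k := cjA (aW hp hpR) hh
  have nkh : ¬ Commute k h := fun hc => by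
    have : Commute (cj h p) h := by rwa [hD.cj_comm hh.1 hpD fun c => nph c.symm]
    exact nph ((cj_commute_iff h p h).1 (by rwa [cj_self]))
  have nkp : ¬ Commute k p := fun hc => by
    exact nph ((cj_commute_iff p h p).1 (by rw [cj_self]; exact hc)).symm
  have nkq : ¬ Commute k q := fun hc =>
    nkp (P.adj_trans hR hkA (aW hq hqR) (aW hp hpR) hc (hW.comm q hq p hp))
  have hkq : Commute k (cj q h) := by
    have := P.adj_three hR (aW hq hqR) hh hkA nqh nkq nkh
    rwa [← hD.cj_eq hh.1, hD.cj_comm hh.1 hqD fun c => nqh c.symm] at this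
  set h' := cj q k with hh'
  have hA' : Adj D R h' := cjA (aW hq hqR) hkA
  have chh' : Commute h h' := by
    have := (cj_commute_iff q k (cj q h)).2 hkq
    rw [hD.cj_cj hqD] at this
    exact this.symm
  have ngh' : ¬ Commute g h' := fun hc =>
    hgh (P.adj_trans hR (aW hg hgR) hA' hh hc chh'.symm)
  refine ⟨h', hA', chh', ngh', ?_⟩
  have npk' : ¬ Commute h' p := fun hc =>
    ngh' (P.adj_trans hR (aW hg hgR) (aW hp hpR) hA' (hW.comm g hg p hp) hc.symm)
  rw [cj_mul, hD.cj_comm hA'.1 hpD npk', hh', hk]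
  have e1 : cj p (cj q (cj p h)) = cj q h := by
    rw [← cj_mul, ← cj_mul, (hW.comm p hp q hq).eq, mul_assoc, hD.mul_self hpD, mul_one]
  rw [e1, hD.cj_comm hqD hh.1 nqh, hD.cj_cj hh.1]

/-- Products of two commuting transpositions off the maximal set stabilise it. -/
theorem pair_stab {g h h' : G} (hg : g ∈ W) (hgR : g ∉ R) (hh : Adj D R h) (hh' : Adj D R h')
    (hgh : ¬ Commute g h) (hc : Commute h h') :
    cj (h * h') '' W = W ∧ ∀ r ∈ R, cj (h * h') r = r := by
  have hD := P.data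
  have aW : ∀ {x}, x ∈ W → x ∉ R → Adj D R x := fun hx hxR => adj_of_mem hW hRW hx hxR
  have hfix : ∀ r ∈ R, cj (h * h') r = r := fun r hr => by
    rw [cj_mul, (cj_eq_self_iff h' r).2 (hh'.2.2 r hr), (cj_eq_self_iff h r).2 (hh.2.2 r hr)]
  refine ⟨Set.eq_of_subset_of_ncard_le ?_ ?_ (Set.toFinite _), hfix⟩
  · rintro _ ⟨x, hx, rfl⟩
    by_cases hxR : x ∈ R
    · rw [hfix x hxR]; exact hx
    have ngh' : ¬ Commute g h' := fun c => hgh (P.adj_trans hR (aW hg hgR) hh' hh c hc.symm)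
    have nxh' : ¬ Commute x h' := fun c =>
      ngh' (P.adj_trans hR (aW hg hgR) (aW hx hxR) hh' (hW.comm g hg x hx) c)
    set z := cj h g with hz
    have hzA : Adj D R z := ⟨hD.inv' h g (hW.sub hg), fun hm => hgR (by
        have := (cj_eq_self_iff h z).2 (hh.2.2 _ hm)
        rw [hz, hD.cj_cj hh.1] at this
        rw [hz, ← this] at hm
        exact hm),
      fun r hr => by
        have := (cj_commute_iff h g r).2 ((aW hg hgR).2.2 r hr)
        rwa [(cj_eq_self_iff h r).2 (hh.2.2 r hr)] at this⟩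
    have nzh : ¬ Commute z h := fun c => by
      exact hgh ((cj_commute_iff h g h).1 (by rw [cj_self]; exact c))
    have nzg : ¬ Commute z g := fun c => by
      rw [hz, hD.cj_comm hh.1 (hW.sub hg) fun c => hgh c.symm] at c
      exact hgh ((cj_commute_iff g h g).1 (by rw [cj_self]; exact c)).symm
    have nzx : ¬ Commute z x := fun c =>
      nzg (P.adj_trans hR hzA (aW hx hxR) (aW hg hgR) c (hW.comm x hx g hg))
    have nzh' : ¬ Commute z h' := fun c => nzh (P.adj_trans hR hzA hh' hh c hc.symm)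
    have hzy := P.adj_three hR (aW hx hxR) hh' hzA nxh' nzx nzh'
    rw [← hD.cj_eq hh'.1] at hzy
    have hcg := (cj_commute_iff h z (cj h' x)).2 hzy
    rw [hz, hD.cj_cj hh.1, ← cj_mul] at hcg
    refine P.mem_of_adj hW hR hRW hg hgR ⟨hD.inv' _ x (hW.sub hx), fun hm => ?_, fun r hr => ?_⟩ hcg.symm
    · have := hfix _ hm
      exact hxR (by rwa [← cj_injective _ this])
    · have := (cj_commute_iff (h * h') x r).2 (hW.comm x hx r (hRW hr))
      rwa [hfix r hr] at this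
  · rw [(hW.image hD _).card, hW.card]

end hexad

end M22Prim

end Cfsg.Agent.TTLink
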