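import Cfsg.Agent.TTLink.M23Order
import Cfsg.Agent.TTLink.M24Triple

/-!
The centraliser of the product of two commuting transpositions in the commutator subgroup of a
primitive group of type M(24) whose transpositions lie outside that subgroup.
-/

set_option autoImplicit false
set_option maxHeartbeats 400000

namespace Cfsg.Agent.TTLink

open Cfsg.Agent.ThreeTransp45 Cfsg.Agent.SporB UnitarySix

variable {G : Type*} [Group G] {D : Set G}

/-- The image of a member of a link in the link quotient. -/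
abbrev pairImg {d₁ d₂ : G} (h₂ : d₂ ∈ link D d₁) :
    ↥(Subgroup.closure (link D d₁)) ⧸ Subgroup.center ↥(Subgroup.closure (link D d₁)) :=
  QuotientGroup.mk' _ ⟨d₂, Subgroup.subset_closure h₂⟩

/-- The link group of a commuting pair inside the link quotient of its first member, modulo its centre. -/
abbrev PairFiQuot {d₁ d₂ : G} (h₂ : d₂ ∈ link D d₁) :=
  ↥(Subgroup.closure (link (linkQuot D d₁) (pairImg h₂))) ⧸
    Subgroup.center ↥(Subgroup.closure (link (linkQuot D d₁) (pairImg h₂)))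

/-- An action on a group modulo the centre, from an action by conjugation on a subgroup. -/
theorem exists_quot_action {Q : Type*} [Group Q] {K₀ CL : Subgroup G}
    (hconj : ∀ (c : ↥CL) (k : ↥K₀), (c : G) * k * (c : G)⁻¹ ∈ K₀) {π : ↥K₀ →* Q}
    (hπ : Function.Surjective π) (hker : π.ker = Subgroup.center ↥K₀) :
    ∃ Ψ : ↥CL →* MulAut Q, ∀ (c : ↥CL) (k : ↥K₀), Ψ c (π k) = π ⟨_, hconj c k⟩ := by
  let γ : ↥CL → ↥K₀ →* ↥K₀ := fun c => MonoidHom.mk' (fun k => ⟨(c : G) * k * (c : G)⁻¹, hconj c k⟩)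
    fun k k' => Subtype.ext (by simp [mul_assoc])
  have hγ : ∀ c, π.ker ≤ (π.comp (γ c)).ker := by
    intro c k hk
    rw [hker] at hk
    rw [← MonoidHom.comap_ker, hker, Subgroup.mem_comap, Subgroup.mem_center_iff]
    intro g
    have hg : (⟨(c : G)⁻¹ * g * c, by simpa using hconj c⁻¹ g⟩ : ↥K₀) * k =
        k * ⟨(c : G)⁻¹ * g * c, by simpa using hconj c⁻¹ g⟩ := Subgroup.mem_center_iff.1 hk _
    apply Subtype.ext
    have h := congrArg (fun z : ↥K₀ => (c : G) * z * (c : G)⁻¹) hg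
    simpa [γ, mul_assoc] using h
  let f : ↥CL → Q →* Q := fun c => π.liftOfSurjective hπ ⟨π.comp (γ c), hγ c⟩
  have hf : ∀ c k, f c (π k) = π (γ c k) := fun c k =>
    MonoidHom.liftOfRightInverse_comp_apply _ _ _ ⟨π.comp (γ c), hγ c⟩ k
  have hfm : ∀ c c' p, f (c * c') p = f c (f c' p) := by
    intro c c' p
    obtain ⟨k, rfl⟩ := hπ p
    rw [hf, hf, hf]
    exact congrArg π (Subtype.ext (by simp [γ, mul_assoc]))
  have hf1 : ∀ p, f 1 p = p := by
    intro p
    obtain ⟨k, rfl⟩ := hπ p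
    rw [hf]
    exact congrArg π (Subtype.ext (by simp [γ]))
  exact ⟨MonoidHom.mk'
    (fun c => MonoidHom.toMulEquiv (f c) (f c⁻¹)
      (MonoidHom.ext fun p => by simp [← hfm, hf1]) (MonoidHom.ext fun p => by simp [← hfm, hf1]))
    fun c c' => MulEquiv.ext (hfm c c'), hf⟩

variable [Finite G]

namespace M23Prim

variable (P : M23Prim D)
include P

/-- The centraliser of a transposition modulo the transposition, onto the quotient of its link group. -/
theorem cent_proj {b : G} (hb : b ∈ D) :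
    ∃ ψ : ↥(Subgroup.centralizer ({b} : Set G)) →*
        ↥(Subgroup.closure (link D b)) ⧸ Subgroup.center ↥(Subgroup.closure (link D b)),
      Function.Surjective ψ ∧ (∀ x, ψ x = 1 ↔ ((x : G) = 1 ∨ (x : G) = b)) ∧
        commutator ↥(Subgroup.centralizer ({b} : Set G)) = ⊤ := by
  obtain ⟨⟨hperf, -⟩, hcen⟩ := P.quasisimple hb
  have hX : Subgroup.closure (link D b) = Subgroup.centralizer ({b} : Set G) :=
    le_antisymm (fun (x : G) (hx : x ∈ Subgroup.closure (link D b)) =>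
      show x ∈ Subgroup.centralizer ({b} : Set G) by
        rw [Subgroup.mem_centralizer_singleton_iff]; exact (commute_d hx).eq.symm) fun x hx =>
      P.mem_link_of_commute hb (P.base_all hb) (Subgroup.mem_centralizer_singleton_iff.1 hx)
  let e := MulEquiv.subgroupCongr hX.symm
  refine ⟨(QuotientGroup.mk' _).comp e.toMonoidHom, (QuotientGroup.mk'_surjective _).comp e.surjective,
    fun x => ?_, ?_⟩
  · rw [MonoidHom.comp_apply, QuotientGroup.mk'_apply, mk_eq_one_iff, hcen, Subgroup.mem_subgroupOf]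
    show (x : G) ∈ Subgroup.zpowers b ↔ _
    constructor
    · intro hm
      obtain ⟨n, hn⟩ := Subgroup.mem_zpowers_iff.1 hm
      rw [← hn]
      rcases Int.even_or_odd n with ⟨m, rfl⟩ | ⟨m, rfl⟩
      · left; rw [← two_mul, zpow_mul, zpow_two, P.data.mul_self hb, one_zpow]
      · right; rw [zpow_add_one, zpow_mul, zpow_two, P.data.mul_self hb, one_zpow, one_mul]
    · rintro (h | h) <;> rw [h]
      exacts [one_mem _, Subgroup.mem_zpowers _]
  · exact hX ▸ Group.isPerfect_def.1 hperf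

end M23Prim

namespace M24Prim

variable (P : M24Prim D)
include P

/-- The inner quotient of a commuting pair is a primitive group of type M(22). -/
theorem pair_base {d₁ d₂ : G} (h₁ : d₁ ∈ D) (h₂ : d₂ ∈ link D d₁) :
    M22Prim (linkQuot (linkQuot D d₁) (pairImg h₂)) :=
  (P.base h₁).base_all ⟨⟨d₂, Subgroup.subset_closure h₂⟩, h₂, rfl⟩

/-- The joint centraliser of two commuting transpositions modulo them. -/
theorem pair_proj {d₁ d₂ : G} (h₁ : d₁ ∈ D) (h₂ : d₂ ∈ link D d₁) (K₂ : Subgroup G)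
    (hK₂ : K₂ = Subgroup.centralizer ({d₁, d₂} : Set G)) :
    ∃ π : ↥K₂ →* PairFiQuot h₂, Function.Surjective π ∧
      (∀ k, π k = 1 ↔ ((k : G) = 1 ∨ (k : G) = d₁ ∨ (k : G) = d₂ ∨ (k : G) = d₂ * d₁)) ∧
      ∀ k : ↥K₂, ∃ c ∈ commutator ↥K₂, (k : G) = c ∨ (k : G) = c * d₁ := by
  classical
  have hD := P.data
  obtain ⟨hnc, hinj⟩ := injOn_link hD P.cl P.twinFree h₁
  let q := QuotientGroup.mk' (Subgroup.center ↥(Subgroup.closure (link D d₁)))
  set B : ↥(Subgroup.closure (link D d₁)) := ⟨d₂, Subgroup.subset_closure h₂⟩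
  have hB : B ∈ linkSet D d₁ := h₂
  have hqB : q B ∈ linkQuot D d₁ := ⟨B, hB, rfl⟩
  obtain ⟨ψ, hψ, hψker, hperf⟩ := (P.base h₁).cent_proj hqB
  have hK : ∀ k : ↥K₂, Commute (k : G) d₁ ∧ Commute (k : G) d₂ := fun k => by
    obtain ⟨k, hk⟩ := k
    rw [hK₂, Subgroup.mem_centralizer_iff] at hk
    exact ⟨(hk d₁ (by simp)).symm, (hk d₂ (by simp)).symm⟩
  let up : ↥K₂ → ↥(Subgroup.closure (link D d₁)) := fun k => ⟨k, P.mem_link_of_commute h₁ (hK k).1⟩
  let θ : ↥K₂ →* ↥(Subgroup.centralizer ({q B} : Set _)) := MonoidHom.mk'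
    (fun k => ⟨q (up k), Subgroup.mem_centralizer_singleton_iff.2
      ((show Commute (up k) B from Subtype.ext (hK k).2.eq).map q).eq⟩)
    fun k k' => Subtype.ext (map_mul q (up k) (up k'))
  have θs : Function.Surjective θ := by
    rintro ⟨x, hx⟩
    obtain ⟨h, rfl⟩ := QuotientGroup.mk_surjective x
    have hc : Commute (q h) (q B) := Subgroup.mem_centralizer_singleton_iff.1 hx
    have hfix : Commute (h : G) d₂ := (cj_eq_self_iff (h : G) d₂).1 (congrArg Subtype.val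
      (hinj (conj_linkSet hD h hB) hB
        ((show q (h * B * h⁻¹) = cj (q h) (q B) by simp [cj]).trans ((cj_eq_self_iff _ _).2 hc))))
    refine ⟨⟨h, ?_⟩, Subtype.ext rfl⟩
    rw [hK₂, Subgroup.mem_centralizer_iff]
    rintro z (rfl | rfl)
    exacts [(commute_d h.2).eq, hfix.eq.symm]
  have qsplit : ∀ z : ↥(Subgroup.closure (link D d₁)), q z = 1 ↔ ((z : G) = 1 ∨ (z : G) = d₁) :=
    fun z => P.mk_eq_one_iff' h₁
  refine ⟨ψ.comp θ, hψ.comp θs, fun k => ?_, fun k => ?_⟩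
  · rw [MonoidHom.comp_apply, hψker]
    show q (up k) = 1 ∨ q (up k) = q B ↔ _
    rw [show q (up k) = q B ↔ q (B⁻¹ * up k) = 1 by rw [map_mul, map_inv, inv_mul_eq_one, eq_comm],
      qsplit, qsplit]
    show ((k : G) = 1 ∨ (k : G) = d₁) ∨ (d₂⁻¹ * (k : G) = 1 ∨ d₂⁻¹ * (k : G) = d₁) ↔ _
    simp only [inv_mul_eq_iff_eq_mul, mul_one, or_assoc]
  · have hm : θ k ∈ (commutator ↥K₂).map θ := by
      rw [commutator_def, Subgroup.map_commutator, Subgroup.map_top_of_surjective θ θs,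
        ← commutator_def, hperf]
      trivial
    obtain ⟨c, hc, hck⟩ := hm
    refine ⟨c, hc, ?_⟩
    have h1 : q (up (c⁻¹ * k)) = 1 :=
      congrArg Subtype.val (show θ (c⁻¹ * k) = 1 by rw [map_mul, map_inv, hck, inv_mul_cancel])
    rcases (qsplit _).1 h1 with e | e
    · left
      exact (inv_mul_eq_one.1 (show (c : G)⁻¹ * k = 1 from e)).symm
    · right
      exact inv_mul_eq_iff_eq_mul.1 (show (c : G)⁻¹ * k = d₁ from e)

/-- The centraliser of the product of two commuting transpositions. -/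
theorem pair_product_structure {d₁ d₂ : G} (h₁ : d₁ ∈ D) (h₂ : d₂ ∈ link D d₁)
    (hpar : ∀ d ∈ D, d ∉ commutator G) (K CL : Subgroup G)
    (hK : K = commutator G ⊓ Subgroup.centralizer ({d₁, d₂} : Set G))
    (hCL : CL = commutator G ⊓ Subgroup.centralizer ({d₁ * d₂} : Set G)) :
    Cfsg.IsQuasisimple ↥K ∧ K = (Cfsg.generalizedFittingSubgroup ↥CL).map CL.subtype ∧ K ≤ CL ∧
      (K.subgroupOf CL).index = 2 ∧ d₁ * d₂ ∈ K ∧
      ∃ Ψ : ↥CL →* MulAut (PairFiQuot h₂), Ψ.ker = (Subgroup.zpowers (d₁ * d₂)).subgroupOf CL ∧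
        Ψ.ker.index = 2 * Nat.card (PairFiQuot h₂) := by
  classical
  have hD := P.data
  have hd₂ : d₂ ∈ D := h₂.1
  have c12 : Commute d₁ d₂ := h₂.2.2
  set L := commutator G with hL
  set K₂ := Subgroup.centralizer ({d₁, d₂} : Set G) with hK₂
  set j := d₁ * d₂ with hj
  obtain ⟨π, hπ, hker, hcases⟩ := P.pair_proj h₁ h₂ K₂ hK₂
  have mem2 : ∀ g : G, g ∈ K₂ ↔ Commute g d₁ ∧ Commute g d₂ := fun g => by
    rw [hK₂, Subgroup.mem_centralizer_iff]
    simp only [Set.mem_insert_iff, Set.mem_singleton_iff, forall_eq_or_imp, forall_eq]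
    exact ⟨fun h => ⟨h.1.symm, h.2.symm⟩, fun h => ⟨h.1.symm, h.2.symm⟩⟩
  have mL : ∀ {a b : G}, a ∈ D → b ∈ D → a * b ∈ L := fun {a b} ha hb =>
    (P.mem_commutator_or hb a).resolve_left (hpar a ha)
  have hd1K : d₁ ∈ K₂ := (mem2 d₁).2 ⟨Commute.refl _, c12⟩
  have hd2K : d₂ ∈ K₂ := (mem2 d₂).2 ⟨c12.symm, Commute.refl _⟩
  have hjK : j ∈ K := hK ▸ ⟨mL h₁ hd₂, mul_mem hd1K hd2K⟩
  have hj2 : j * j = 1 := by
    rw [hj, mul_assoc, ← mul_assoc d₂ d₁, ← c12.eq, mul_assoc, hD.mul_self hd₂, mul_one,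
      hD.mul_self h₁]
  have hjp : ∀ x : G, x ∈ Subgroup.zpowers j ↔ x = 1 ∨ x = j := fun x => by
    constructor
    · intro hm
      obtain ⟨n, rfl⟩ := Subgroup.mem_zpowers_iff.1 hm
      rcases Int.even_or_odd n with ⟨m, rfl⟩ | ⟨m, rfl⟩
      · left; rw [← two_mul, zpow_mul, zpow_two, hj2, one_zpow]
      · right; rw [zpow_add_one, zpow_mul, zpow_two, hj2, one_zpow, one_mul]
    · rintro (rfl | rfl)
      exacts [one_mem _, Subgroup.mem_zpowers _]
  have hKK₂ : K ≤ K₂ := hK ▸ inf_le_right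
  have hKL : K ≤ L := hK ▸ inf_le_left
  let ι₀ : ↥K →* ↥K₂ := Subgroup.inclusion hKK₂
  set π₀ := π.comp ι₀ with hπ₀
  have hπd : π ⟨d₁, hd1K⟩ = 1 := (hker _).2 (Or.inr (Or.inl rfl))
  have hπ₀s : Function.Surjective π₀ := fun p => by
    obtain ⟨k, rfl⟩ := hπ p
    rcases P.mem_commutator_or h₁ (k : G) with h | h
    · exact ⟨⟨k, hK ▸ ⟨h, k.2⟩⟩, rfl⟩
    · refine ⟨⟨k * d₁, hK ▸ ⟨h, mul_mem k.2 hd1K⟩⟩, ?_⟩
      show π (k * ⟨d₁, hd1K⟩) = π k
      rw [map_mul, hπd, mul_one]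
  have hker₀ : ∀ k : ↥K, π₀ k = 1 ↔ ((k : G) = 1 ∨ (k : G) = j) := by
    intro k
    show π (ι₀ k) = 1 ↔ _
    rw [hker, Subgroup.coe_inclusion]
    constructor
    · rintro (h | h | h | h)
      · exact Or.inl h
      · exact absurd (h ▸ hKL k.2) (hpar d₁ h₁)
      · exact absurd (h ▸ hKL k.2) (hpar d₂ hd₂)
      · exact Or.inr (h.trans c12.eq.symm)
    · rintro (h | h)
      · exact Or.inl h
      · exact Or.inr (Or.inr (Or.inr (h.trans c12.eq)))
  have hKn : ∀ k : ↥K, Commute (k : G) d₁ ∧ Commute (k : G) d₂ := fun k => (mem2 _).1 (hKK₂ k.2)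
  have := (P.pair_base h₁ h₂).simple
  have hnab : ¬ IsMulCommutative (PairFiQuot h₂) := fun hm => by
    have PW := P.pair_base h₁ h₂
    obtain ⟨a, ha, -⟩ := PW.hyp.cls.2.1
    obtain ⟨b, hb⟩ := PW.hyp.link_nonempty ha
    obtain ⟨g, hg⟩ := PW.hyp.cl a ha b hb.1
    exact hb.2.1 (hg.symm.trans ((cj_eq_self_iff g a).2 (hm.1.1 g a)))
  have hZ : Subgroup.center (PairFiQuot h₂) = ⊥ :=
    (Subgroup.Normal.eq_bot_or_eq_top inferInstance).resolve_right fun h => hnab
      ⟨⟨fun a b => Subgroup.mem_center_iff.1 (h ▸ Subgroup.mem_top b) a⟩⟩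
  have hcent : π₀.ker = Subgroup.center ↥K := by
    refine le_antisymm (fun k hk => ?_) fun k hk => ?_
    · refine Subgroup.mem_center_iff.2 fun g => Subtype.ext ?_
      show (g : G) * k = k * g
      rcases (hker₀ k).1 hk with e | e <;> rw [e]
      · rw [mul_one, one_mul]
      · exact ((hKn g).1.mul_right (hKn g).2).eq
    · refine Subgroup.mem_bot.1 (hZ ▸ Subgroup.mem_center_iff.2 fun p => ?_)
      obtain ⟨g, rfl⟩ := hπ₀s p
      rw [← map_mul, ← map_mul, Subgroup.mem_center_iff.1 hk g]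
  -- perfectness
  have hle : (commutator ↥K₂).map K₂.subtype ≤ ⁅K, K⁆ := by
    have split : ∀ a ∈ K₂, ∃ a' ∈ K, ∃ z ∈ K₂, (∀ y ∈ K₂, z * y = y * z) ∧ a = a' * z := by
      intro a ha
      rcases P.mem_commutator_or h₁ a with h | h
      · exact ⟨a, hK ▸ ⟨h, ha⟩, 1, one_mem _, fun y _ => by simp, by simp⟩
      · exact ⟨a * d₁, hK ▸ ⟨h, mul_mem ha hd1K⟩, d₁, hd1K, fun y hy => ((mem2 y).1 hy).1.eq.symm,
          by rw [mul_assoc, hD.mul_self h₁, mul_one]⟩
    rw [Subgroup.map_subtype_commutator, Subgroup.commutator_le]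
    intro a ha b hb
    obtain ⟨a', ha', za, za2, hza, rfl⟩ := split a ha
    obtain ⟨b', hb', zb, zb2, hzb, rfl⟩ := split b hb
    have e : a' * za * (b' * zb) * (a' * za)⁻¹ * (b' * zb)⁻¹ = a' * b' * a'⁻¹ * b'⁻¹ := by
      calc a' * za * (b' * zb) * (a' * za)⁻¹ * (b' * zb)⁻¹
          = a' * (za * (b' * zb)) * za⁻¹ * a'⁻¹ * zb⁻¹ * b'⁻¹ := by group
        _ = a' * b' * (zb * a'⁻¹) * zb⁻¹ * b'⁻¹ := by rw [hza _ (mul_mem (hKK₂ hb') zb2)]; group
        _ = _ := by rw [hzb _ (inv_mem (hKK₂ ha'))]; group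
    rw [commutatorElement_def, e, ← commutatorElement_def]
    exact Subgroup.commutator_mem_commutator ha' hb'
  have hperf : ⁅K, K⁆ = K := by
    refine le_antisymm (Subgroup.commutator_le_self _) fun k hk => ?_
    obtain ⟨c, hc, e | e⟩ := hcases ⟨k, hKK₂ hk⟩
    · rw [show k = (c : G) from e]; exact hle ⟨c, hc, rfl⟩
    · exfalso
      have hcK := hle ⟨c, hc, rfl⟩
      have h1 : d₁ ∈ K := by
        rw [show d₁ = (c : G)⁻¹ * k by rw [show k = (c : G) * d₁ from e, inv_mul_cancel_left]]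
        exact mul_mem (inv_mem ((Subgroup.commutator_le_self K) hcK)) hk
      exact hpar d₁ h₁ (hKL h1)
  let eK : ↥K ⧸ π₀.ker ≃* PairFiQuot h₂ := QuotientGroup.quotientKerEquivOfSurjective π₀ hπ₀s
  have hqs : Cfsg.IsQuasisimple ↥K := ⟨Subgroup.isPerfect_iff.2 hperf,
    ((QuotientGroup.quotientMulEquivOfEq hcent.symm).trans eK).isSimpleGroup_congr.2 inferInstance⟩
  -- the swap
  have memCL : ∀ g, g ∈ CL ↔ g ∈ L ∧ Commute g j := fun g => by
    rw [hCL, Subgroup.mem_inf, Subgroup.mem_centralizer_singleton_iff]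
    exact Iff.rfl
  have hKCL : K ≤ CL := fun x hx =>
    (memCL x).2 ⟨hKL hx, (hKn ⟨x, hx⟩).1.mul_right (hKn ⟨x, hx⟩).2⟩
  have f12 : Fac D [d₁, d₂] := ⟨by simp [h₂.2.1.symm], by simp [h₁, hd₂], by simp [c12, c12.symm]⟩
  have f21 : Fac D [d₂, d₁] := ⟨by simp [h₂.2.1], by simp [h₁, hd₂], by simp [c12, c12.symm]⟩
  have hcl : ∀ c ∈ CL, (cj c d₁ = d₁ ∧ cj c d₂ = d₂) ∨ (cj c d₁ = d₂ ∧ cj c d₂ = d₁) := by
    intro c hc
    have hp : ([d₁, d₂].map (cj c)).prod = [d₁, d₂].prod := by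
      simp only [List.map_cons, List.map_nil, List.prod_cons, List.prod_nil, mul_one, ← cj_map_mul]
      exact (cj_eq_self_iff c _).2 ((memCL c).1 hc).2
    have h := fun x hx => (factors_unique hD 2 (by norm_num)
      (fun k k1 k2 => P.indeps (2 * k) (by omega) (by omega)) _ _ (fac_map hD c f12) f12 rfl rfl hp
      (cj c x)).1 (List.mem_map_of_mem hx)
    have e1 := h d₁ (by simp)
    have e2 := h d₂ (by simp)
    simp only [List.mem_cons, List.not_mem_nil, or_false] at e1 e2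
    have hne : cj c d₁ ≠ cj c d₂ := fun e => h₂.2.1 (cj_injective c e).symm
    rcases e1 with e1 | e1 <;> rcases e2 with e2 | e2
    · exact absurd (e1.trans e2.symm) hne
    · exact Or.inl ⟨e1, e2⟩
    · exact Or.inr ⟨e1, e2⟩
    · exact absurd (e1.trans e2.symm) hne
  have hmemK : ∀ c ∈ CL, c ∈ K ↔ cj c d₁ = d₁ := by
    intro c hc
    constructor
    · intro hk; exact (cj_eq_self_iff _ _).2 (hKn ⟨c, hk⟩).1
    · intro h
      rcases hcl c hc with ⟨e1, e2⟩ | ⟨e1, -⟩
      · rw [hK]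
        exact ⟨((memCL c).1 hc).1, (mem2 c).2 ⟨(cj_eq_self_iff _ _).1 e1, (cj_eq_self_iff _ _).1 e2⟩⟩
      · exact absurd (e1.symm.trans h) h₂.2.1
  obtain ⟨s, hs, hs12, hs21⟩ : ∃ s ∈ CL, cj s d₁ = d₂ ∧ cj s d₂ = d₁ := by
    obtain ⟨g₀, hg₀⟩ := P.conj_lists f12 f21 rfl (by simp)
    simp only [List.map_cons, List.map_nil, List.cons.injEq, and_true] at hg₀
    obtain ⟨g, hgL, hg1, hg2⟩ : ∃ g ∈ L, cj g d₁ = d₂ ∧ cj g d₂ = d₁ := by
      rcases P.mem_commutator_or h₁ g₀ with h | h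
      · exact ⟨g₀, h, hg₀⟩
      · refine ⟨g₀ * d₁, h, ?_, ?_⟩ <;> rw [cj_mul]
        · rw [(cj_eq_self_iff d₁ d₁).2 (Commute.refl _)]; exact hg₀.1
        · rw [(cj_eq_self_iff d₁ d₂).2 c12]; exact hg₀.2
    refine ⟨g, (memCL g).2 ⟨hgL, (cj_eq_self_iff g _).1 ?_⟩, hg1, hg2⟩
    rw [hj, cj_map_mul, hg1, hg2, ← c12.eq]
  have hindex : (K.subgroupOf CL).index = 2 := by
    rw [Subgroup.index_eq_two_iff]
    refine ⟨⟨s, hs⟩, fun b => ?_⟩
    simp only [Subgroup.mem_subgroupOf, hmemK _ b.2, Subgroup.coe_mul, hmemK _ (mul_mem b.2 hs), cj_mul,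
      hs12]
    rcases hcl b b.2 with ⟨e1, e2⟩ | ⟨e1, e2⟩
    · exact Or.inr ⟨e1, fun e => h₂.2.1 (e2.symm.trans e)⟩
    · exact Or.inl ⟨e2, fun e => h₂.2.1 (e1.symm.trans e)⟩
  have hKn' : (K.subgroupOf CL).Normal := Subgroup.normal_of_index_eq_two hindex
  have hconj : ∀ (c : ↥CL) (k : ↥K), (c : G) * k * (c : G)⁻¹ ∈ K := fun c k =>
    hKn'.conj_mem ⟨k, hKCL k.2⟩ k.2 c
  obtain ⟨Ψ, hΨ⟩ := exists_quot_action hconj hπ₀s hcent
  -- the kernel of the action
  have hΨker : Ψ.ker = (Subgroup.zpowers j).subgroupOf CL := by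
    ext c
    rw [MonoidHom.mem_ker, Subgroup.mem_subgroupOf, hjp]
    constructor
    swap
    · intro hc
      refine MulEquiv.ext fun p => ?_
      obtain ⟨k, rfl⟩ := hπ₀s p
      rw [hΨ, MulAut.one_apply]
      refine congrArg π₀ (Subtype.ext ?_)
      show (c : G) * k * (c : G)⁻¹ = k
      rw [mul_inv_eq_iff_eq_mul]
      rcases hc with e | e <;> rw [e]
      · rw [one_mul, mul_one]
      · exact ((hKn k).1.mul_right (hKn k).2).eq.symm
    intro h
    have hfix : ∀ y : G, y ∈ D → y ≠ d₁ → y ≠ d₂ → Commute y d₁ → Commute y d₂ → Commute (c : G) y := by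
      intro y hy hy1 hy2 c1 c2
      have hyd : y * d₁ ∈ K := hK ▸ ⟨mL hy h₁, mul_mem ((mem2 y).2 ⟨c1, c2⟩) hd1K⟩
      have e := MulEquiv.ext_iff.1 h (π₀ ⟨y * d₁, hyd⟩)
      rw [hΨ, MulAut.one_apply] at e
      have e' : π₀ ((⟨y * d₁, hyd⟩ : ↥K)⁻¹ * ⟨_, hconj c ⟨y * d₁, hyd⟩⟩) = 1 := by
        rw [map_mul, map_inv, e, inv_mul_cancel]
      have hy' := (hker₀ _).1 e'
      simp only [Subgroup.coe_mul, Subgroup.coe_inv, inv_mul_eq_iff_eq_mul, mul_one] at hy'
      change cj (c : G) (y * d₁) = y * d₁ ∨ cj (c : G) (y * d₁) = y * d₁ * j at hy'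
      have hyj : y * d₁ * j = y * d₂ := by
        rw [hj, mul_assoc, ← mul_assoc d₁ d₁, hD.mul_self h₁, one_mul]
      have hy'' : cj (c : G) y = y ∨ cj (c : G) y = y * j := by
        rw [cj_map_mul, hyj] at hy'
        rcases hcl c c.2 with ⟨e1, -⟩ | ⟨e1, -⟩ <;> rw [e1] at hy'
        · refine hy'.imp mul_right_cancel fun e => mul_right_cancel (b := d₁) (e.trans ?_)
          rw [hj, c12.eq, ← mul_assoc, mul_assoc _ d₁ d₁, hD.mul_self h₁, mul_one]
        · refine hy'.symm.imp mul_right_cancel fun e => mul_right_cancel (b := d₂) (e.trans ?_)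
          rw [hj, ← mul_assoc, mul_assoc _ d₂ d₂, hD.mul_self hd₂, mul_one]
      refine (cj_eq_self_iff (c : G) y).1 (hy''.resolve_right fun e => ?_)
      set z := cj (c : G) y with hz
      have hzD : z ∈ D := hD.inv' _ y hy
      have hzy : z ≠ y := fun e' => by
        have := e.symm.trans e'
        rw [mul_eq_left] at this
        rw [hj, mul_eq_one_iff_eq_inv, hD.inv_eq hd₂] at this
        exact h₂.2.1 this.symm
      have hz1 : z ≠ d₁ := fun e' => by
        have := e.symm.trans e'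
        rw [hj, c12.eq, ← mul_assoc, mul_eq_right, mul_eq_one_iff_eq_inv, hD.inv_eq hd₂] at this
        exact hy2 this
      have hz2 : z ≠ d₂ := fun e' => by
        have := e.symm.trans e'
        rw [hj, ← mul_assoc, mul_eq_right, mul_eq_one_iff_eq_inv, hD.inv_eq h₁] at this
        exact hy1 this
      have hzc : Commute z y ∧ Commute z d₁ ∧ Commute z d₂ := by
        rw [e, hj]
        exact ⟨(Commute.refl y).mul_left ((c1.symm).mul_left c2.symm),
          c1.mul_left ((Commute.refl d₁).mul_left c12.symm),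
          c2.mul_left (c12.mul_left (Commute.refl d₂))⟩
      refine P.indeps 4 (by norm_num) (by norm_num) [z, y, d₁, d₂] ?_ rfl ?_ ?_ ?_
      · simp [hzy, hz1, hz2, hy1, hy2, h₂.2.1.symm]
      · simp [hzD, hy, h₁, hd₂]
      · intro u hu v hv
        simp only [List.mem_cons, List.not_mem_nil, or_false] at hu hv
        obtain ⟨q1, q2, q3⟩ := hzc
        rcases hu with rfl | rfl | rfl | rfl <;> rcases hv with rfl | rfl | rfl | rfl <;>
          first | exact Commute.refl _ | assumption | (apply Commute.symm; assumption)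
      · have hyjc : Commute y j := c1.mul_right c2
        simp only [List.prod_cons, List.prod_nil, mul_one]
        rw [← hj, e, mul_assoc, ← mul_assoc j y, ← hyjc.eq, mul_assoc y j j, hj2, mul_one,
          hD.mul_self hy]
    -- an auxiliary third member
    obtain ⟨hnc, hinj⟩ := injOn_link hD P.cl P.twinFree h₁
    obtain ⟨_, ⟨Y, hY, rfl⟩, hYne, hYc⟩ :=
      (P.base h₁).linked (a := pairImg h₂) ⟨⟨d₂, Subgroup.subset_closure h₂⟩, h₂, rfl⟩
    have hy2 : (Y : G) ≠ d₂ := fun e => hYne (congrArg (QuotientGroup.mk' _)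
      (Subtype.ext (show (Y : G) = d₂ from e)))
    have hyc : Commute d₂ (Y : G) := commute_reflect hD
      (show (⟨d₂, Subgroup.subset_closure h₂⟩ : ↥(Subgroup.closure (link D d₁))) ∈ linkSet D d₁ from h₂)
      hY hYc
    have hyl : (Y : G) ∈ link D d₁ := hY
    obtain ⟨t, htp, ht⟩ := P.six_triple h₁ hyl h₂ hy2 hyc.symm
    have hcy : Commute (c : G) Y := hfix Y hyl.1 hyl.2.1 hy2 hyl.2.2.symm hyc.symm
    have hcyd : Commute (c : G) ((Y : G) * d₁) := by
      rw [← htp]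
      refine Commute.list_prod_right _ _ fun y hy => ?_
      obtain ⟨y1, y2, -, y4, y5, -, y7⟩ := ht y hy
      exact hfix y y1 y2 y4 y5 y7
    have hcd : cj (c : G) d₁ = d₁ := by
      have h' : cj (c : G) ((Y : G) * d₁) = Y * d₁ := (cj_eq_self_iff _ _).2 hcyd
      rw [cj_map_mul, (cj_eq_self_iff _ _).2 hcy] at h'
      exact mul_left_cancel h'
    have hcK : (c : G) ∈ K := (hmemK _ c.2).2 hcd
    refine (hker₀ ⟨c, hcK⟩).1 (Subgroup.mem_bot.1 (hZ ▸ Subgroup.mem_center_iff.2 fun p => ?_))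
    obtain ⟨k, rfl⟩ := hπ₀s p
    have e := MulEquiv.ext_iff.1 h (π₀ k)
    rw [hΨ, MulAut.one_apply, show (⟨_, hconj c k⟩ : ↥K) = (⟨c, hcK⟩ : ↥K) * k * (⟨c, hcK⟩ : ↥K)⁻¹ from
      rfl, map_mul, map_mul, map_inv, mul_inv_eq_iff_eq_mul] at e
    exact e.symm
  have hFeq : Cfsg.generalizedFittingSubgroup ↥CL = K.subgroupOf CL := by
    refine genFitting_eq_of_quasisimple
      (Components.quasisimple_of_mulEquiv (Subgroup.subgroupOfEquivOfLe hKCL).symm hqs) fun c hc => ?_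
    have h1 : c ∈ Ψ.ker := by
      refine MulEquiv.ext fun p => ?_
      obtain ⟨k, rfl⟩ := hπ₀s p
      rw [hΨ, MulAut.one_apply]
      refine congrArg π₀ (Subtype.ext ?_)
      show (c : G) * k * (c : G)⁻¹ = k
      rw [mul_inv_eq_iff_eq_mul]
      exact (congrArg Subtype.val (Subgroup.mem_centralizer_iff.1 hc ⟨k, hKCL k.2⟩ k.2)).symm
    rw [hΨker, Subgroup.mem_subgroupOf, hjp] at h1
    rw [Subgroup.mem_subgroupOf]
    rcases h1 with e | e <;> rw [e]
    exacts [one_mem _, hjK]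
  refine ⟨hqs, ?_, hKCL, hindex, hjK, Ψ, hΨker, ?_⟩
  · rw [hFeq, Subgroup.map_subgroupOf_eq_of_le hKCL]
  · have hjle : Subgroup.zpowers j ≤ K := Subgroup.zpowers_le.2 hjK
    have hmul := Subgroup.relIndex_mul_relIndex (Subgroup.zpowers j) K CL hjle hKCL
    simp only [Subgroup.relIndex] at hmul
    have hi : ((Subgroup.zpowers j).subgroupOf K).index = Nat.card (PairFiQuot h₂) := by
      rw [show (Subgroup.zpowers j).subgroupOf K = π₀.ker from Subgroup.ext fun k => by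
        rw [Subgroup.mem_subgroupOf, hjp, MonoidHom.mem_ker, hker₀], Subgroup.index_eq_card]
      exact Nat.card_congr eK.toEquiv
    rw [hΨker, ← hmul, hindex, hi, mul_comm]

end M24Prim

/-- The automorphism group of a group is twice the group, if the centre is trivial and there are two
outer classes. -/
theorem card_mulAut_of_out {Q : Type*} [Group Q] (hz : Subgroup.center Q = ⊥)
    (ho : Nat.card (Cfsg.Out Q) = 2) : Nat.card (MulAut Q) = 2 * Nat.card Q := by
  have hi : Function.Injective (MulAut.conj : Q →* MulAut Q) := by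
    rw [← MonoidHom.ker_eq_bot_iff, eq_bot_iff, ← hz]
    intro g hg
    refine Subgroup.mem_center_iff.2 fun x => ?_
    have h : g * x * g⁻¹ = x := MulEquiv.ext_iff.1 hg x
    exact (mul_inv_eq_iff_eq_mul.1 h).symm
  rw [Subgroup.card_eq_card_quotient_mul_card_subgroup (Cfsg.Inn Q)]
  congr 1
  exact (Nat.card_congr (MonoidHom.ofInjective hi).toEquiv).symm

/-- An injective action on a quotient of full order gives the automorphism group. -/
theorem quot_equiv_mulAut {C Q M : Type*} [Group C] [Group Q] [Finite Q] [Group M] (Ψ : C →* MulAut Q)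
    (N : Subgroup C) [N.Normal] (hN : Ψ.ker = N) (e : Q ≃* M) (hz : Subgroup.center M = ⊥)
    (ho : Nat.card (Cfsg.Out M) = 2) (hi : Ψ.ker.index = 2 * Nat.card Q) :
    Nonempty (C ⧸ N ≃* MulAut M) := by
  have : Finite M := Finite.of_equiv Q e.toEquiv
  let cg : MulAut Q ≃* MulAut M :=
    { toFun := fun φ => (e.symm.trans φ).trans e
      invFun := fun φ => (e.trans φ).trans e.symm
      left_inv := fun φ => MulEquiv.ext fun x => by simp
      right_inv := fun φ => MulEquiv.ext fun x => by simp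
      map_mul' := fun φ ψ => MulEquiv.ext fun x => by simp }
  have : Finite (MulAut M) := Finite.of_injective (fun e => (e : M → M))
    fun e e' h => MulEquiv.ext (congrFun h)
  have : Finite (MulAut Q) := Finite.of_injective (fun e => (e : Q → Q))
    fun e e' h => MulEquiv.ext (congrFun h)
  have hcard : Nat.card (C ⧸ Ψ.ker) = Nat.card (MulAut Q) := by
    rw [← Subgroup.index_eq_card, hi, Nat.card_congr cg.toEquiv, card_mulAut_of_out hz ho,
      Nat.card_congr e.toEquiv]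
  exact ⟨((QuotientGroup.quotientMulEquivOfEq hN.symm).trans
    (MulEquiv.ofBijective (QuotientGroup.kerLift Ψ) ((Nat.bijective_iff_injective_and_card _).2
      ⟨QuotientGroup.kerLift_injective Ψ, hcard⟩))).trans cg⟩

end Cfsg.Agent.TTLink
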