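import Cfsg.Agent.TTLink.M22Stab

/-!
A parity homomorphism on a group of 3-transpositions from one on a single centraliser.

If `π` is a sign on the centraliser of one transposition, equal to `-1` on all transpositions in it,
and any four transpositions have a fifth commuting with none of them, then there is a sign on the
whole group, equal to `-1` on all transpositions and extending `π`. For non-commuting `x`, `a` the
even element `x * a` maps `x` to `a`; round a triangle of non-commuting transpositions these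
elements multiply to an element of sign one, so they give a coherent choice of signs.
-/

set_option autoImplicit false

namespace Cfsg.Agent.TTLink

open Cfsg.Agent.ThreeTransp45 Cfsg.Agent.SporB

variable {G : Type*} [Group G] {D : Set G}

theorem mem_centralizer_iff_cj {x g : G} :
    g ∈ Subgroup.centralizer ({x} : Set G) ↔ cj g x = x := by
  rw [Subgroup.mem_centralizer_singleton_iff, cj_eq_self_iff]
  exact Iff.rfl

/-- The product of two non-commuting transpositions maps the first to the second. -/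
theorem cj_edge (hD : Data D) {x a : G} (hx : x ∈ D) (ha : a ∈ D) (h : ¬ Commute x a) :
    cj (x * a) x = a := by
  rw [cj_mul, hD.cj_eq ha x, ← hD.braid hx ha h, hD.cj_eq hx]
  calc x * (x * a * x) * x = x * x * a * (x * x) := by simp only [mul_assoc]
    _ = a := by rw [hD.mul_self hx, one_mul, mul_one]

/-- The product round a triangle is the product of two commuting transpositions or has cube one. -/
theorem triangle_cases (hD : Data D) {x a b : G} (hx : x ∈ D) (ha : a ∈ D) (hb : b ∈ D)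
    (hxa : ¬ Commute x a) (hab : ¬ Commute a b) (hxb : ¬ Commute x b) :
    (Commute x (cj b a) ∧ b * x * (a * b) * (x * a) = x * cj b a) ∨
      (b * x * (a * b) * (x * a)) ^ 3 = 1 := by
  have sx := hD.mul_self hx
  have sa := hD.mul_self ha
  have sb := hD.mul_self hb
  by_cases hxc : Commute x (cj b a)
  · left
    refine ⟨hxc, ?_⟩
    have hcD : cj b a ∈ D := hD.inv' b a ha
    have hbc : ¬ Commute b (cj b a) := fun h => hab (by
      have := (cj_commute_iff b b a).1 (by rwa [cj_self])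
      exact this.symm)
    set c := cj b a with hc
    have hac : a = b * c * b := by
      rw [hc, hD.cj_eq hb]
      calc a = b * b * a * (b * b) := by rw [sb, one_mul, mul_one]
        _ = b * (b * a * b) * b := by simp only [mul_assoc]
    calc b * x * (a * b) * (x * a) = b * x * (b * c * (b * b)) * (x * (b * c * b)) := by
          rw [hac]; simp only [mul_assoc]
      _ = b * x * b * (c * x) * (b * c * b) := by rw [sb, mul_one]; simp only [mul_assoc]
      _ = b * x * b * (x * c) * (b * c * b) := by rw [← hxc.eq]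
      _ = x * b * x * x * c * (b * c * b) := by
          rw [← hD.braid hx hb hxb]; simp only [mul_assoc]
      _ = x * b * c * (c * b * c) := by
          rw [mul_assoc (x * b) x x, sx, mul_one, hD.braid hb hcD hbc]
      _ = x * (b * (c * c) * b) * c := by simp only [mul_assoc]
      _ = x * c := by rw [hD.mul_self hcD, mul_one, sb, mul_one]
  · right
    have hbe : ¬ Commute b (cj x a) := by
      intro h
      apply hxc
      -- conjugate by `a`
      have e : cj x a = cj a x := hD.cj_comm hx ha hxa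
      rw [e] at h
      have h2 := (cj_commute_iff a b (cj a x)).2 h
      rw [hD.cj_cj ha, hD.cj_comm ha hb hab] at h2
      exact h2.symm
    set u := a * x with hu
    set y := b * x with hy
    have cube : ∀ {s t : G}, s ∈ D → t ∈ D → ¬ Commute s t → (s * t) ^ 3 = 1 :=
      fun hs ht h => tt_cube hD.set hs ht h
    have hu3 : u ^ 3 = 1 := cube ha hx fun h => hxa h.symm
    have hy3 : y ^ 3 = 1 := cube hb hx fun h => hxb h.symm
    have hyu : (y * u) ^ 3 = 1 := by
      have e : y * u = b * cj x a := by rw [hD.cj_eq hx]; simp only [hy, hu, mul_assoc]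
      rw [e]
      exact cube hb (hD.inv' x a ha) hbe
    have huy : (u * y⁻¹) ^ 3 = 1 := by
      have e : u * y⁻¹ = a * b := by
        rw [hy, hu, mul_inv_rev, hD.inv_eq hx, hD.inv_eq hb, mul_assoc, ← mul_assoc x x, sx, one_mul]
      rw [e]
      exact cube ha hb hab
    have hcm := cube_conj hyu hy3 hu3 huy
    have e : b * x * (a * b) * (x * a) = y * u * y⁻¹ * u⁻¹ := by
      rw [hy, hu, mul_inv_rev, mul_inv_rev, hD.inv_eq hx, hD.inv_eq ha, hD.inv_eq hb]
      calc b * x * (a * b) * (x * a) = b * x * (a * 1 * b) * (x * a) := by rw [mul_one]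
        _ = _ := by rw [← sx]; simp only [mul_assoc]
    rw [e, (hcm.symm.inv_right).mul_pow, inv_pow, hu3, inv_one, mul_one,
      show (y * u * y⁻¹) ^ 3 = y * u ^ 3 * y⁻¹ from conj_pow, hu3, mul_one, mul_inv_cancel]

/-- A sign on a group of 3-transpositions extending one on a centraliser. -/
theorem exists_parity (hD : Data D) (hgen : Subgroup.closure D = ⊤) {x₀ : G} (hx₀ : x₀ ∈ D)
    (hfar : ∀ a ∈ D, ∀ b ∈ D, ∀ c ∈ D, ∀ e ∈ D,
      ∃ f ∈ D, ¬ Commute f a ∧ ¬ Commute f b ∧ ¬ Commute f c ∧ ¬ Commute f e)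
    (π : ↥(Subgroup.centralizer ({x₀} : Set G)) →* ℤˣ)
    (hπ : ∀ d (hd : d ∈ Subgroup.centralizer ({x₀} : Set G)), d ∈ D → π ⟨d, hd⟩ = -1) :
    ∃ ε : G →* ℤˣ, (∀ d ∈ D, ε d = -1) ∧ ∀ k : ↥(Subgroup.centralizer ({x₀} : Set G)), ε (k : G) = π k := by
  classical
  -- the sign of an element, when it fixes `x₀`
  let N : Subgroup G := π.ker.map (Subgroup.centralizer ({x₀} : Set G)).subtype
  have hN : ∀ {g : G}, g ∈ N ↔ ∃ h : g ∈ Subgroup.centralizer ({x₀} : Set G), π ⟨g, h⟩ = 1 := by
    intro g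
    constructor
    · rintro ⟨k, hk, rfl⟩
      exact ⟨k.2, hk⟩
    · rintro ⟨h, e⟩
      exact ⟨⟨g, h⟩, e, rfl⟩
  let Eq : G → G → Prop := fun g g' => g⁻¹ * g' ∈ N
  have trans : ∀ {g h k}, Eq g h → Eq h k → Eq g k := fun {g h k} a b => by
    have := mul_mem a b
    simpa [Eq, mul_assoc] using this
  have symm : ∀ {g h}, Eq g h → Eq h g := fun {g h} a => by simpa [Eq] using N.inv_mem a
  have lmul : ∀ {g h} (k : G), Eq g h → Eq (k * g) (k * h) := fun {g h} k a => by
    simpa [Eq, mul_assoc] using a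
  -- the triangles
  have tri : ∀ {g x a b : G}, cj g x₀ = x → a ∈ D → b ∈ D → ¬ Commute x a → ¬ Commute a b →
      ¬ Commute x b → Eq ((x * b) * g) ((a * b) * (x * a) * g) := by
    intro g x a b hg ha hb hxa hab hxb
    have hx : x ∈ D := hg ▸ hD.inv' g x₀ hx₀
    have key : cj g⁻¹ (b * x * (a * b) * (x * a)) ∈ N := by
      have hx' : cj g⁻¹ x = x₀ := by rw [← hg, cj_inv_cj]
      rcases triangle_cases hD hx ha hb hxa hab hxb with ⟨hc, e⟩ | e
      · rw [e, cj_map_mul, hx', hN]
        have h1 : x₀ ∈ Subgroup.centralizer ({x₀} : Set G) :=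
          Subgroup.mem_centralizer_singleton_iff.2 rfl
        have h2 : cj g⁻¹ (cj b a) ∈ Subgroup.centralizer ({x₀} : Set G) := by
          rw [Subgroup.mem_centralizer_singleton_iff, ← hx']
          exact ((cj_commute_iff g⁻¹ _ _).2 hc.symm).eq
        refine ⟨mul_mem h1 h2, ?_⟩
        rw [show (⟨x₀ * cj g⁻¹ (cj b a), mul_mem h1 h2⟩ : ↥(Subgroup.centralizer ({x₀} : Set G))) =
          ⟨x₀, h1⟩ * ⟨_, h2⟩ from rfl, map_mul, hπ _ h1 hx₀, hπ _ h2 (hD.inv' _ _ (hD.inv' _ _ ha))]
        decide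
      · have hmem : cj g⁻¹ (b * x * (a * b) * (x * a)) ∈ Subgroup.centralizer ({x₀} : Set G) := by
          rw [mem_centralizer_iff_cj, ← hx', ← cj_mul]
          have hwx : cj (b * x * (a * b) * (x * a)) x = x := by
            rw [cj_mul, cj_edge hD hx ha hxa, cj_mul, cj_edge hD ha hb hab,
              cj_edge hD hb hx fun h => hxb h.symm]
          rw [show cj g⁻¹ (b * x * (a * b) * (x * a)) * g⁻¹ =
            g⁻¹ * (b * x * (a * b) * (x * a)) by simp [cj, mul_assoc], cj_mul, hwx]
        refine hN.2 ⟨hmem, ?_⟩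
        have h3 : π ⟨_, hmem⟩ ^ 3 = 1 := by
          rw [← map_pow, show (⟨_, hmem⟩ : ↥(Subgroup.centralizer ({x₀} : Set G))) ^ 3 = 1 from
            Subtype.ext (by
              show (g⁻¹ * (b * x * (a * b) * (x * a)) * g⁻¹⁻¹) ^ 3 = 1
              rw [conj_pow, e]
              simp), map_one]
        rcases Int.units_eq_one_or (π ⟨_, hmem⟩) with h | h
        · exact h
        · rw [h] at h3; exact absurd h3 (by decide)
    show (x * b * g)⁻¹ * (a * b * (x * a) * g) ∈ N
    rw [mul_inv_rev, mul_inv_rev, hD.inv_eq hx, hD.inv_eq hb]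
    simpa [cj, mul_assoc] using key
  -- the coherent choice
  have hbr : ∀ x ∈ D, ∃ a ∈ D, ¬ Commute x₀ a ∧ ¬ Commute x a := fun x hx => by
    obtain ⟨f, hf, f1, f2, -⟩ := hfar x₀ hx₀ x hx x hx x hx
    exact ⟨f, hf, fun h => f1 h.symm, fun h => f2 h.symm⟩
  choose! br hbr using hbr
  let τ : G → G := fun x => br x * x * (x₀ * br x)
  have hτ : ∀ {x a : G}, x ∈ D → a ∈ D → ¬ Commute x₀ a → ¬ Commute x a →
      Eq (τ x) (a * x * (x₀ * a)) := by
    have adj : ∀ {x a b : G}, x ∈ D → a ∈ D → b ∈ D → ¬ Commute a b → ¬ Commute x₀ a →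
        ¬ Commute x a → ¬ Commute x₀ b → ¬ Commute x b →
        Eq (a * x * (x₀ * a)) (b * x * (x₀ * b)) := by
      intro x a b hx ha hb hab a0 ax b0 bx
      refine trans (tri (cj_edge hD hx₀ ha a0) hb hx hab (fun h => bx h.symm) fun h => ax h.symm) ?_
      have h2 := lmul (b * x) (tri (g := 1) (cj_one x₀) ha hb a0 hab b0)
      simp only [mul_one] at h2
      rw [mul_assoc (b * x) (a * b) (x₀ * a)]
      exact symm h2
    intro x a hx ha a0 ax
    obtain ⟨h1, h2, h3⟩ := hbr x hx
    obtain ⟨f, hf, f1, f2, f3, f4⟩ := hfar x₀ hx₀ x hx (br x) h1 a ha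
    exact trans (adj hx h1 hf (fun h => f3 h.symm) h2 h3 (fun h => f1 h.symm) fun h => f2 h.symm)
      (adj hx hf ha f4 (fun h => f1 h.symm) (fun h => f2 h.symm) a0 ax)
  have hτcj : ∀ {x}, x ∈ D → cj (τ x) x₀ = x := fun {x} hx => by
    obtain ⟨h1, h2, h3⟩ := hbr x hx
    rw [cj_mul, cj_edge hD hx₀ h1 h2, cj_edge hD h1 hx fun h => h3 h.symm]
  have hedge : ∀ {x y}, x ∈ D → y ∈ D → ¬ Commute x y → Eq (τ y) (x * y * τ x) := by
    intro x y hx hy hxy
    obtain ⟨a, ha, a1, a2, a3, -⟩ := hfar x₀ hx₀ x hx y hy y hy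
    refine trans (hτ hy ha (fun h => a1 h.symm) fun h => a3 h.symm) ?_
    refine trans (tri (cj_edge hD hx₀ ha fun h => a1 h.symm) hx hy a2 hxy a3) ?_
    rw [mul_assoc (x * y)]
    exact lmul _ (symm (hτ hx ha (fun h => a1 h.symm) fun h => a2 h.symm))
  -- the cocycle
  have hmemc : ∀ (g : G) {x}, x ∈ D →
      (τ (cj g x))⁻¹ * g * τ x ∈ Subgroup.centralizer ({x₀} : Set G) := by
    intro g x hx
    rw [mem_centralizer_iff_cj, cj_mul, cj_mul, hτcj hx]
    conv_lhs => arg 2; rw [← hτcj (hD.inv' g x hx)]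
    exact cj_inv_cj _ _
  let c : G → G → ℤˣ := fun g x => if hx : x ∈ D then π ⟨_, hmemc g hx⟩ else 1
  have hc : ∀ g {x} (hx : x ∈ D), c g x = π ⟨_, hmemc g hx⟩ := fun g x hx => dif_pos hx
  have hcmul : ∀ g h {x}, x ∈ D → c (g * h) x = c g (cj h x) * c h x := by
    intro g h x hx
    rw [hc _ hx, hc _ (hD.inv' h x hx), hc _ hx, ← map_mul]
    refine congrArg π (Subtype.ext ?_)
    simp [cj_mul, mul_assoc]
  have hc1 : ∀ {x}, x ∈ D → c 1 x = 1 := by
    intro x hx
    have := hcmul 1 1 hx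
    rw [mul_one, cj_one] at this
    exact left_eq_mul.1 this
  have hcd : ∀ {d x}, d ∈ D → x ∈ D → c d x = -1 := by
    intro d x hd hx
    rw [hc _ hx]
    by_cases hdx : Commute d x
    · have hk : (τ x)⁻¹ * d * τ x ∈ D := by
        simpa [cj, mul_assoc] using hD.inv' (τ x)⁻¹ d hd
      have hk' : (τ x)⁻¹ * d * τ x ∈ Subgroup.centralizer ({x₀} : Set G) := by
        have := hmemc d hx
        rwa [(cj_eq_self_iff d x).2 hdx] at this
      rw [← hπ _ hk' hk]
      refine congrArg π (Subtype.ext ?_)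
      show (τ (cj d x))⁻¹ * d * τ x = _
      rw [(cj_eq_self_iff d x).2 hdx]
    · set y := cj d x with hy
      have hyD : y ∈ D := hD.inv' d x hx
      have hxy : ¬ Commute x y := by
        rw [hy, ← hD.cj_comm hx hd fun h => hdx h.symm]
        exact hD.not_commute_third hx hd fun h => hdx h.symm
      obtain ⟨hk, hk1⟩ := hN.1 (hedge hx hyD hxy)
      have e : x * y = d * x := by
        rw [hy, hD.cj_eq hd, ← hD.braid hx hd fun h => hdx h.symm, ← mul_assoc, ← mul_assoc,
          hD.mul_self hx, one_mul]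
      have hx' : cj (τ x)⁻¹ x = x₀ := by
        conv_lhs => arg 2; rw [← hτcj hx]
        exact cj_inv_cj _ _
      have h0 : x₀ ∈ Subgroup.centralizer ({x₀} : Set G) :=
        Subgroup.mem_centralizer_singleton_iff.2 rfl
      rw [← hπ x₀ h0 hx₀]
      have : (⟨_, hmemc d hx⟩ : ↥(Subgroup.centralizer ({x₀} : Set G))) =
          ⟨_, hk⟩ * ⟨x₀, h0⟩ := Subtype.ext (by
        show (τ y)⁻¹ * d * τ x = (τ y)⁻¹ * (x * y * τ x) * x₀
        rw [e, ← hx']
        calc (τ y)⁻¹ * d * τ x = (τ y)⁻¹ * d * (x * x) * τ x := by rw [hD.mul_self hx, mul_one]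
          _ = _ := by simp [cj, mul_assoc])
      rw [this, map_mul, hk1, one_mul]
  have hconst : ∀ g : G, ∀ x ∈ D, c g x = c g x₀ := by
    intro g
    have hg : g ∈ Subgroup.closure D := hgen ▸ Subgroup.mem_top g
    induction hg using Subgroup.closure_induction with
    | mem d hd => exact fun x hx => (hcd hd hx).trans (hcd hd hx₀).symm
    | one => exact fun x hx => (hc1 hx).trans (hc1 hx₀).symm
    | mul g h _ _ hg hh =>
      intro x hx
      rw [hcmul g h hx, hcmul g h hx₀, hg _ (hD.inv' h x hx), hg _ (hD.inv' h x₀ hx₀), hh x hx]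
    | inv g _ hg =>
      intro x hx
      have e : ∀ {z}, z ∈ D → c g⁻¹ z = (c g x₀)⁻¹ := fun {z} hz => by
        have h := hcmul g g⁻¹ hz
        rw [mul_inv_cancel, hc1 hz, hg _ (hD.inv' g⁻¹ z hz)] at h
        exact (inv_eq_of_mul_eq_one_right h.symm).symm
      rw [e hx, e hx₀]
  refine ⟨MonoidHom.mk' (fun g => c g x₀) fun g h => ?_, fun d hd => hcd hd hx₀, fun k => ?_⟩
  · show c (g * h) x₀ = _
    rw [hcmul g h hx₀, hconst g _ (hD.inv' h x₀ hx₀)]
  · show c (k : G) x₀ = π k
    rw [hc _ hx₀]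
    have hk : cj (k : G) x₀ = x₀ := mem_centralizer_iff_cj.1 k.2
    have ht : τ x₀ = 1 := by
      obtain ⟨h1, -, -⟩ := hbr x₀ hx₀
      show br x₀ * x₀ * (x₀ * br x₀) = 1
      rw [mul_assoc, ← mul_assoc x₀ x₀, hD.mul_self hx₀, one_mul, hD.mul_self h1]
    refine congrArg π (Subtype.ext ?_)
    show (τ (cj (k : G) x₀))⁻¹ * k * τ x₀ = k
    rw [hk, ht, inv_one, one_mul, mul_one]

end Cfsg.Agent.TTLink
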