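import Cfsg.Agent.TTLink.M24Triple
import Cfsg.Agent.TTLink.M24Order
import Cfsg.Agent.TTLink.Parity

/-!
In a primitive group of type M(24) the transpositions lie outside the commutator subgroup, provided
the joint centraliser of three commuting transpositions is not perfect.
-/

set_option autoImplicit false

namespace Cfsg.Agent.TTLink

open Cfsg.Agent.ThreeTransp45 Cfsg.Agent.SporB

variable {G : Type*} [Group G]

/-- A sign from an index two subgroup. -/
theorem exists_sign_of_cases {K : Type*} [Group K] {N : Subgroup K} [N.Normal] {z : K} (hz : z * z = 1)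
    (_hzN : z ∉ N) (h : ∀ k, k ∈ N ∨ k * z ∈ N) :
    ∃ χ : K →* ℤˣ, ∀ k, χ k = 1 ↔ k ∈ N := by
  classical
  refine ⟨MonoidHom.mk' (fun k => if k ∈ N then 1 else -1) fun k k' => ?_, fun k => ?_⟩
  · by_cases h1 : k ∈ N <;> by_cases h2 : k' ∈ N
    · rw [if_pos h1, if_pos h2, if_pos (N.mul_mem h1 h2), one_mul]
    · rw [if_pos h1, if_neg h2, if_neg, one_mul]
      exact fun h' => h2 ((N.mul_mem_cancel_left h1).1 h')
    · rw [if_neg h1, if_pos h2, if_neg, mul_one]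
      exact fun h' => h1 ((N.mul_mem_cancel_right h2).1 h')
    · rw [if_neg h1, if_neg h2, if_pos, neg_mul_neg, one_mul]
      have a := (h k).resolve_left h1
      have b := Subgroup.Normal.mem_comm inferInstance ((h k').resolve_left h2)
      have := N.mul_mem a b
      rwa [mul_assoc, ← mul_assoc z z, hz, one_mul] at this
  · show (if k ∈ N then (1 : ℤˣ) else -1) = 1 ↔ _
    by_cases h1 : k ∈ N <;> simp [h1]

variable [Finite G] {D : Set G}

/-- Commuting transpositions with an eighth member completing them to product one. -/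
theorem M24Prim.exists_octad (P : M24Prim D) :
    ∃ l : List G, Fac D l ∧ l.length = 8 ∧ l.prod = 1 := by
  obtain ⟨d, hd, -⟩ := P.cls.2.1
  have PX := P.base hd
  obtain ⟨A, hA, -⟩ := PX.cls.2.1
  obtain ⟨m, hm, hml, hmlink, hmp⟩ := PX.exists_six hA
  have hs : Fac (linkQuot D d) (A :: m) := ⟨List.nodup_cons.2 ⟨fun h => (hmlink A h).2.1 rfl, hm.nodup⟩,
    List.forall_mem_cons.2 ⟨hA, hm.mem⟩, by
      intro u hu v hv
      rcases List.mem_cons.1 hu with e | hu <;> rcases List.mem_cons.1 hv with e' | hv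
      · rw [e, e']
      · rw [e]; exact (hmlink v hv).2.2
      · rw [e']; exact (hmlink u hu).2.2.symm
      · exact hm.comm u hu v hv⟩
  obtain ⟨l, hl, hll, hlk, z, hz, hzl⟩ :=
    lift_relation P.data hs (by rw [List.prod_cons, hmp, PX.data.mul_self hA])
  rw [List.length_cons, hml] at hll
  rcases P.center_link hd hz with e | e
  · exact absurd (hzl.symm.trans e) (P.indeps 7 (by norm_num) le_rfl l hl.nodup hll hl.mem hl.comm)
  · refine ⟨d :: l, ⟨List.nodup_cons.2 ⟨fun h => (hlk d h).2.1 rfl, hl.nodup⟩,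
      List.forall_mem_cons.2 ⟨hd, hl.mem⟩, fun u hu v hv => ?_⟩, by rw [List.length_cons, hll],
      by rw [List.prod_cons, ← hzl, e, P.data.mul_self hd]⟩
    rcases List.mem_cons.1 hu with e1 | hu <;> rcases List.mem_cons.1 hv with e2 | hv
    · rw [e1, e2]
    · rw [e1]; exact (hlk v hv).2.2
    · rw [e2]; exact (hlk u hu).2.2.symm
    · exact hl.comm u hu v hv

namespace M24Prim

variable (P : M24Prim D)
include P

/-- Three commuting transpositions have 693 common neighbours. -/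
theorem triple_count {a b c : G} (ha : a ∈ D) (hb : b ∈ link D a) (hc : c ∈ link D a) (hbc : b ≠ c)
    (hcom : Commute b c) : (link D a ∩ link D b ∩ (link D a ∩ link D c)).ncard = 693 := by
  have hD := P.data
  obtain ⟨-, hinj⟩ := injOn_link hD P.cl P.twinFree ha
  set B : ↥(Subgroup.closure (link D a)) := ⟨b, Subgroup.subset_closure hb⟩
  set C : ↥(Subgroup.closure (link D a)) := ⟨c, Subgroup.subset_closure hc⟩
  have hB : B ∈ linkSet D a := hb
  have hC : C ∈ linkSet D a := hc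
  have hS : ∀ x : G, link D a ∩ link D x ⊆ link D a := fun x y h => h.1
  rw [← down_ncard hD P.cl P.twinFree ha (fun _ h => h.1.1),
    ← down_inter hD P.cl P.twinFree ha (hS b) (hS c),
    ← down_link hD P.cl P.twinFree ha hB, ← down_link hD P.cl P.twinFree ha hC]
  exact (P.base ha).srg.adj _ ⟨B, hB, rfl⟩ _ ⟨⟨C, hC, rfl⟩,
    fun e => hbc (congrArg Subtype.val (hinj hC hB e)).symm,
    (show Commute B C from Subtype.ext hcom.eq).map (QuotientGroup.mk' _)⟩

/-- The joint centraliser of a commuting triple is generated by the transpositions in it. -/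
theorem triple_gen {d₁ d₂ d₃ : G} (h₁ : d₁ ∈ D) (h₂ : d₂ ∈ link D d₁) (h₃ : d₃ ∈ link D d₁)
    (h23 : d₂ ≠ d₃) (c23 : Commute d₂ d₃) :
    Subgroup.centralizer ({d₁, d₂, d₃} : Set G) ≤
      Subgroup.closure {y | y ∈ D ∧ y ∈ Subgroup.centralizer ({d₁, d₂, d₃} : Set G)} := by
  classical
  set K₃ := Subgroup.centralizer ({d₁, d₂, d₃} : Set G) with hK₃
  have hD := P.data
  obtain ⟨F, i1, i2, hF, π, hπ, hker, -, -⟩ := P.triple_proj h₁ h₂ h₃ h23 c23 K₃ hK₃
  obtain ⟨hs, -⟩ := psu_six_two F hF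
  set W : Set (Cfsg.PSU 6 F 2) := π '' {y | (y : G) ∈ D} with hW
  set M := Subgroup.closure {y | y ∈ D ∧ y ∈ K₃} with hM
  have hconjD : ∀ (g y : ↥K₃), (y : G) ∈ D → ((g * y * g⁻¹ : ↥K₃) : G) ∈ D :=
    fun g y hy => hD.inv' (g : G) y hy
  have hWn : (Subgroup.closure W).Normal := by
    refine Cfsg.Agent.Classical.normal_of_conj_generators W fun p x hx => ?_
    obtain ⟨y, hy, rfl⟩ := hx
    obtain ⟨g, rfl⟩ := hπ p
    exact Subgroup.subset_closure ⟨g * y * g⁻¹, hconjD g y hy, by simp⟩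
  have hcom : ∀ {g : G}, g ∈ D → Commute g d₁ → Commute g d₂ → Commute g d₃ → g ∈ K₃ :=
    fun {g} _ a b c => by
      rw [hK₃, Subgroup.mem_centralizer_iff]
      rintro z (rfl | rfl | rfl)
      exacts [a.eq.symm, b.eq.symm, c.eq.symm]
  have hdM : d₁ ∈ M ∧ d₂ ∈ M ∧ d₃ ∈ M :=
    ⟨Subgroup.subset_closure ⟨h₁, hcom h₁ (Commute.refl _) h₂.2.2 h₃.2.2⟩,
      Subgroup.subset_closure ⟨h₂.1, hcom h₂.1 h₂.2.2.symm (Commute.refl _) c23⟩,
      Subgroup.subset_closure ⟨h₃.1, hcom h₃.1 h₃.2.2.symm c23.symm (Commute.refl _)⟩⟩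
  have hWtop : Subgroup.closure W = ⊤ := by
    refine (haveI := hs; hWn.eq_bot_or_eq_top).resolve_left fun hbot => ?_
    obtain ⟨s, hsp, hsm⟩ := P.six_triple h₁ h₂ h₃ h23 c23
    rcases s with _ | ⟨y, s⟩
    · rw [List.prod_nil, eq_comm, mul_eq_one_iff_eq_inv, hD.inv_eq h₁] at hsp
      exact h₂.2.1 hsp
    obtain ⟨y1, y2, y3, y4, y5, y6, y7⟩ := hsm y (List.mem_cons_self ..)
    have h := (hker ⟨y, hcom y1 y5 y6 y7⟩).1 (Subgroup.mem_bot.1 (hbot ▸
      Subgroup.subset_closure ⟨⟨y, hcom y1 y5 y6 y7⟩, y1, rfl⟩))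
    have hp : ∀ {a b : G}, a ∈ D → b ∈ D → a ≠ b → y ≠ a * b := fun ha hb hne e =>
      pair_not_mem hD P.cl P.twinFree ha hb hne (e ▸ y1)
    rcases h with e | e | e | e | e | e | e | e
    · exact ThreeTransp.ne_one hD.set y1 e
    · exact y2 e
    · exact y3 e
    · exact hp h₂.1 h₁ h₂.2.1 e
    · exact y4 e
    · exact hp h₃.1 h₁ h₃.2.1 e
    · exact hp h₃.1 h₂.1 h23.symm e
    · refine P.indeps 4 (by norm_num) (by norm_num) [y, d₃, d₂, d₁] ?_ rfl ?_ ?_ ?_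
      · simp [y2, y3, y4, h₂.2.1, h₃.2.1, h23.symm]
      · simp [y1, h₁, h₂.1, h₃.1]
      · simp [y5, y5.symm, y6, y6.symm, y7, y7.symm, h₂.2.2, h₂.2.2.symm, h₃.2.2, h₃.2.2.symm, c23,
          c23.symm]
      · have e' : y = d₃ * d₂ * d₁ := e
        simp only [List.prod_cons, List.prod_nil, mul_one]
        calc y * (d₃ * (d₂ * d₁)) = y * y := by rw [e']; simp only [mul_assoc]
          _ = 1 := hD.mul_self y1
  intro k hk
  have hk' : π ⟨k, hk⟩ ∈ (M.comap K₃.subtype).map π := by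
    have : Subgroup.closure W ≤ (M.comap K₃.subtype).map π := by
      rw [Subgroup.closure_le]
      rintro _ ⟨y, hy, rfl⟩
      exact ⟨y, Subgroup.subset_closure ⟨hy, y.2⟩, rfl⟩
    exact this (hWtop ▸ Subgroup.mem_top _)
  obtain ⟨c, hc, e⟩ := hk'
  have h := (hker (c⁻¹ * ⟨k, hk⟩)).1 (by rw [map_mul, map_inv, e, inv_mul_cancel])
  have hz : ((c⁻¹ * ⟨k, hk⟩ : ↥K₃) : G) ∈ M := by
    obtain ⟨m1, m2, m3⟩ := hdM
    rcases h with e | e | e | e | e | e | e | e <;> rw [e]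
    exacts [one_mem _, m1, m2, mul_mem m2 m1, m3, mul_mem m3 m1, mul_mem m3 m2,
      mul_mem (mul_mem m3 m2) m1]
  have := M.mul_mem hc hz
  simpa using this

/-- The sign on the joint centraliser of a triple. -/
theorem triple_sign {d₁ d₂ d₃ : G} (h₁ : d₁ ∈ D) (h₂ : d₂ ∈ link D d₁) (h₃ : d₃ ∈ link D d₁)
    (h23 : d₂ ≠ d₃) (c23 : Commute d₂ d₃)
    (hnp : commutator ↥(Subgroup.centralizer ({d₁, d₂, d₃} : Set G)) ≠ ⊤) :
    ∃ χ : ↥(Subgroup.centralizer ({d₁, d₂, d₃} : Set G)) →* ℤˣ,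
      ∀ y : ↥(Subgroup.centralizer ({d₁, d₂, d₃} : Set G)), (y : G) ∈ D → χ y = -1 := by
  classical
  have hD := P.data
  set K₃ := Subgroup.centralizer ({d₁, d₂, d₃} : Set G) with hK₃
  have c12 : Commute d₁ d₂ := h₂.2.2
  have c13 : Commute d₁ d₃ := h₃.2.2
  obtain ⟨F, i1, i2, hF, π, -, -, hcases, -⟩ := P.triple_proj h₁ h₂ h₃ h23 c23 K₃ hK₃
  obtain ⟨-, -, -, -, π', -, -, hcases', -⟩ := P.triple_proj (d₁ := d₂) (d₂ := d₁) (d₃ := d₃) h₂.1
    ⟨h₁, h₂.2.1.symm, c12.symm⟩ ⟨h₃.1, h23.symm, c23⟩ h₃.2.1.symm c13 K₃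
    (by rw [hK₃, Set.insert_comm])
  obtain ⟨-, -, -, -, π'', -, -, hcases'', -⟩ := P.triple_proj (d₁ := d₃) (d₂ := d₁) (d₃ := d₂) h₃.1
    ⟨h₁, h₃.2.1.symm, c13.symm⟩ ⟨h₂.1, h23, c23.symm⟩ h₂.2.1.symm c12 K₃
    (by rw [hK₃, Set.pair_comm d₂ d₃, Set.insert_comm])
  have hdK : d₁ ∈ K₃ ∧ d₂ ∈ K₃ ∧ d₃ ∈ K₃ := by
    simp only [hK₃, Subgroup.mem_centralizer_iff, Set.mem_insert_iff, Set.mem_singleton_iff,
      forall_eq_or_imp, forall_eq]
    exact ⟨⟨trivial, c12.eq.symm, c13.eq.symm⟩, ⟨c12.eq, trivial, c23.eq.symm⟩, ⟨c13.eq, c23.eq, trivial⟩⟩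
  set N := commutator ↥K₃
  have hNn : N.Normal := inferInstanceAs (commutator ↥K₃).Normal
  have hout : ∀ (d : G) (hd : d ∈ K₃), (∀ k : ↥K₃, ∃ c ∈ N, (k : G) = c ∨ (k : G) = c * d) →
      ⟨d, hd⟩ ∉ N := by
    intro d hd hc hmem
    apply hnp
    rw [eq_top_iff]
    intro k _
    obtain ⟨c, hc, e | e⟩ := hc k
    · rw [show k = c from Subtype.ext e]; exact hc
    · rw [show k = c * ⟨d, hd⟩ from Subtype.ext e]; exact N.mul_mem hc hmem
  set z : ↥K₃ := ⟨d₁, hdK.1⟩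
  have hzz : z * z = 1 := Subtype.ext (hD.mul_self h₁)
  obtain ⟨χ, hχ⟩ := exists_sign_of_cases hzz (hout d₁ hdK.1 hcases) fun k => by
    obtain ⟨c, hc, e | e⟩ := hcases k
    · left; rw [show k = c from Subtype.ext e]; exact hc
    · right
      rw [show k = c * z from Subtype.ext e, mul_assoc, hzz, mul_one]
      exact hc
  have hneg : ∀ k, k ∉ N → χ k = -1 := fun k h =>
    (Int.units_eq_one_or _).resolve_left fun e => h ((hχ k).1 e)
  refine ⟨χ, fun y hy => ?_⟩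
  have hd1 := hneg _ (hout d₁ hdK.1 hcases)
  have hd2 := hneg _ (hout d₂ hdK.2.1 hcases')
  have hd3 := hneg _ (hout d₃ hdK.2.2 hcases'')
  by_cases hy3 : (y : G) ∈ [d₁, d₂, d₃]
  · simp only [List.mem_cons, List.not_mem_nil, or_false] at hy3
    rcases hy3 with e | e | e
    · rw [show y = ⟨d₁, hdK.1⟩ from Subtype.ext e]; exact hd1
    · rw [show y = ⟨d₂, hdK.2.1⟩ from Subtype.ext e]; exact hd2
    · rw [show y = ⟨d₃, hdK.2.2⟩ from Subtype.ext e]; exact hd3
  have hcom : ∀ k : ↥K₃, Commute (k : G) d₁ ∧ Commute (k : G) d₂ ∧ Commute (k : G) d₃ := fun k => by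
    obtain ⟨k, hk⟩ := k
    rw [hK₃, Subgroup.mem_centralizer_iff] at hk
    exact ⟨(hk d₁ (by simp)).symm, (hk d₂ (by simp)).symm, (hk d₃ (by simp)).symm⟩
  have hfac : ∀ {y : ↥K₃}, (y : G) ∈ D → (y : G) ∉ [d₁, d₂, d₃] → Fac D [d₁, d₂, d₃, (y : G)] := by
    intro y hy hyn
    simp only [List.mem_cons, List.not_mem_nil, or_false, not_or] at hyn
    refine ⟨by simp [h₂.2.1.symm, h₃.2.1.symm, h23, Ne.symm hyn.1, Ne.symm hyn.2.1, Ne.symm hyn.2.2],
      by simp [h₁, h₂.1, h₃.1, hy], ?_⟩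
    simp [c12, c12.symm, c13, c13.symm, c23, c23.symm, hcom y, (hcom y).1.symm, (hcom y).2.1.symm,
      (hcom y).2.2.symm]
  -- an octad through the triple
  obtain ⟨l, hl, hll, hlp⟩ := P.exists_octad
  rcases l with _ | ⟨a, _ | ⟨b, _ | ⟨c, r⟩⟩⟩
  · simp at hll
  · simp at hll
  · simp at hll
  have hf3 : Fac D [d₁, d₂, d₃] := ⟨(hfac hy hy3).nodup.sublist
    ((List.sublist_append_left [d₁, d₂, d₃] [(y : G)])),
    fun u hu => (hfac hy hy3).mem u (List.mem_append_left _ hu),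
    fun u hu v hv => (hfac hy hy3).comm u (List.mem_append_left _ hu) v (List.mem_append_left _ hv)⟩
  have habc : Fac D [a, b, c] := ⟨hl.nodup.sublist (List.sublist_append_left [a, b, c] r),
    fun u hu => hl.mem u (List.mem_append_left r hu),
    fun u hu v hv => hl.comm u (List.mem_append_left r hu) v (List.mem_append_left r hv)⟩
  obtain ⟨g, hg⟩ := P.conj_lists habc hf3 rfl (by simp)
  simp only [List.map_cons, List.map_nil, List.cons.injEq, and_true] at hg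
  have hl' := fac_map hD g hl
  have hlp' : ((a :: b :: c :: r).map (cj g)).prod = 1 := by
    rw [show (a :: b :: c :: r).map (cj g) = (a :: b :: c :: r).map (MulAut.conj g) from rfl,
      ← map_list_prod, hlp, map_one]
  simp only [List.map_cons, hg.1, hg.2.1, hg.2.2] at hl' hlp'
  set s := r.map (cj g) with hs
  have hsl : s.length = 5 := by rw [hs, List.length_map]; simpa using hll
  have hsK : ∀ u ∈ s, u ∈ K₃ := fun u hu => by
    rw [hK₃, Subgroup.mem_centralizer_iff]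
    rintro w (rfl | rfl | rfl) <;> exact (hl'.comm _ (by simp) u (by simp [hu])).eq
  have hsn : ∀ u ∈ s, u ∉ [d₁, d₂, d₃] := fun u hu hm => by
    have hn : ([d₁, d₂, d₃] ++ s).Nodup := hl'.nodup
    exact (List.nodup_append.1 hn).2.2 u hm u hu rfl
  -- equal signs
  have hsame : ∀ u : ↥K₃, (u : G) ∈ D → (u : G) ∉ [d₁, d₂, d₃] → χ u = χ y := by
    intro u hu hun
    obtain ⟨k, hk⟩ := P.conj_lists (hfac hy hy3) (hfac hu hun) rfl (by simp)
    simp only [List.map_cons, List.map_nil, List.cons.injEq, and_true] at hk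
    have hkK : k ∈ K₃ := by
      rw [hK₃, Subgroup.mem_centralizer_iff]
      rintro w (rfl | rfl | rfl)
      exacts [((cj_eq_self_iff k _).1 hk.1).eq.symm, ((cj_eq_self_iff k _).1 hk.2.1).eq.symm,
        ((cj_eq_self_iff k _).1 hk.2.2.1).eq.symm]
    rw [show u = ⟨k, hkK⟩ * y * ⟨k, hkK⟩⁻¹ from Subtype.ext hk.2.2.2.symm, map_mul, map_mul,
      map_inv, mul_comm (χ _) (χ y), mul_inv_cancel_right]
  let t : List ↥K₃ := ⟨d₁, hdK.1⟩ :: ⟨d₂, hdK.2.1⟩ :: ⟨d₃, hdK.2.2⟩ ::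
    s.pmap (fun u h => (⟨u, h⟩ : ↥K₃)) hsK
  have ht : t.prod = 1 := Subtype.ext (by
    rw [show (t.prod : G) = (t.map K₃.subtype).prod from map_list_prod K₃.subtype t]
    simpa [t, List.map_pmap] using hlp')
  have hv : ∀ w ∈ (s.pmap (fun u h => (⟨u, h⟩ : ↥K₃)) hsK).map χ, w = χ y := by
    intro w hw
    obtain ⟨x, hx, rfl⟩ := List.mem_map.1 hw
    obtain ⟨u, hu, rfl⟩ := List.mem_pmap.1 hx
    exact hsame _ (hl'.mem u (by simp [hu])) (hsn u hu)
  have h := congrArg χ ht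
  rw [map_one, map_list_prod, List.map_cons, List.map_cons, List.map_cons, List.prod_cons,
    List.prod_cons, List.prod_cons, hd1, hd2, hd3, List.prod_eq_pow_card _ _ hv, List.length_map,
    List.length_pmap, hsl] at h
  rcases Int.units_eq_one_or (χ y) with e | e
  · rw [e] at h; exact absurd h (by decide)
  · exact e

/-- The sign on the joint centraliser of a pair. -/
theorem pair_sign {d₁ d₂ d₃ : G} (h₁ : d₁ ∈ D) (h₂ : d₂ ∈ link D d₁) (h₃ : d₃ ∈ link D d₁)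
    (h23 : d₂ ≠ d₃) (c23 : Commute d₂ d₃)
    (hnp : commutator ↥(Subgroup.centralizer ({d₁, d₂, d₃} : Set G)) ≠ ⊤) :
    ∃ χ : ↥(Subgroup.centralizer ({d₁, d₂} : Set G)) →* ℤˣ,
      ∀ y : ↥(Subgroup.centralizer ({d₁, d₂} : Set G)), (y : G) ∈ D → χ y = -1 := by
  classical
  have hD := P.data
  set H := Subgroup.centralizer ({d₁, d₂} : Set G) with hH
  set K₃ := Subgroup.centralizer ({d₁, d₂, d₃} : Set G) with hK₃
  set S := link D d₁ ∩ link D d₂ with hS
  have c12 : Commute d₁ d₂ := h₂.2.2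
  have c13 : Commute d₁ d₃ := h₃.2.2
  have memH : ∀ {g : G}, g ∈ H ↔ Commute g d₁ ∧ Commute g d₂ := fun {g} => by
    simp only [hH, Subgroup.mem_centralizer_iff, Set.mem_insert_iff, Set.mem_singleton_iff,
      forall_eq_or_imp, forall_eq]
    exact ⟨fun h => ⟨h.1.symm, h.2.symm⟩, fun h => ⟨h.1.symm, h.2.symm⟩⟩
  have memK : ∀ {g : G}, g ∈ K₃ ↔ (Commute g d₁ ∧ Commute g d₂) ∧ Commute g d₃ := fun {g} => by
    simp only [hK₃, Subgroup.mem_centralizer_iff, Set.mem_insert_iff, Set.mem_singleton_iff,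
      forall_eq_or_imp, forall_eq]
    exact ⟨fun h => ⟨⟨h.1.symm, h.2.1.symm⟩, h.2.2.symm⟩,
      fun h => ⟨h.1.1.symm, h.1.2.symm, h.2.symm⟩⟩
  have hSH : S ⊆ H := fun y hy => memH.2 ⟨hy.1.2.2.symm, hy.2.2.2.symm⟩
  have h3S : d₃ ∈ S := ⟨h₃, h₃.1, h23.symm, c23⟩
  have hcount : ∀ a ∈ S, {y | y ∈ S ∧ Commute y a}.ncard ≤ 694 := by
    intro a ha
    have hsub : {y | y ∈ S ∧ Commute y a} ⊆ insert a (link D d₁ ∩ link D d₂ ∩ (link D d₁ ∩ link D a)) := by
      rintro y ⟨hy, hya⟩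
      by_cases e : y = a
      · exact Or.inl e
      · exact Or.inr ⟨hy, hy.1, hy.1.1, e, hya.symm⟩
    refine (Set.ncard_le_ncard hsub (Set.toFinite _)).trans ((Set.ncard_insert_le _ _).trans ?_)
    rw [P.triple_count h₁ h₂ ha.1 ha.2.2.1.symm ha.2.2.2]
  have hScard : S.ncard = 3510 := P.srg.adj d₁ h₁ d₂ h₂
  have hfar : ∀ a ∈ S, ∀ b ∈ S, ∀ c ∈ S, ∀ e ∈ S,
      ∃ f ∈ S, ¬ Commute f a ∧ ¬ Commute f b ∧ ¬ Commute f c ∧ ¬ Commute f e := by
    intro a ha b hb c hc e he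
    by_contra hno
    push Not at hno
    have hsub : S ⊆ ({y | y ∈ S ∧ Commute y a} ∪ {y | y ∈ S ∧ Commute y b}) ∪
        ({y | y ∈ S ∧ Commute y c} ∪ {y | y ∈ S ∧ Commute y e}) := by
      intro f hf
      by_cases a1 : Commute f a
      · exact Or.inl (Or.inl ⟨hf, a1⟩)
      by_cases a2 : Commute f b
      · exact Or.inl (Or.inr ⟨hf, a2⟩)
      by_cases a3 : Commute f c
      · exact Or.inr (Or.inl ⟨hf, a3⟩)
      exact Or.inr (Or.inr ⟨hf, hno f hf a1 a2 a3⟩)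
    have := Set.ncard_le_ncard hsub (Set.toFinite _)
    have := (Set.ncard_union_le ({y | y ∈ S ∧ Commute y a} ∪ {y | y ∈ S ∧ Commute y b})
      ({y | y ∈ S ∧ Commute y c} ∪ {y | y ∈ S ∧ Commute y e}))
    have := Set.ncard_union_le {y | y ∈ S ∧ Commute y a} {y | y ∈ S ∧ Commute y b}
    have := Set.ncard_union_le {y | y ∈ S ∧ Commute y c} {y | y ∈ S ∧ Commute y e}
    have := hcount a ha
    have := hcount b hb
    have := hcount c hc
    have := hcount e he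
    omega
  -- generation
  set M := Subgroup.closure S with hM
  have h3M : d₃ ∈ M := Subgroup.subset_closure h3S
  have hsix : ∀ {b c : G}, b ∈ link D d₁ → c ∈ link D d₁ → b ≠ c → Commute b c →
      (∀ y, Commute y b → Commute y c → Commute y d₂) → (∀ y, y ≠ b → y ≠ c → y ≠ d₂) →
      b * d₁ ∈ M := by
    intro b c hb hc hne hcom h1 h2
    obtain ⟨s, hsp, hsm⟩ := P.six_triple h₁ hb hc hne hcom
    rw [← hsp]
    refine list_prod_mem fun y hy => Subgroup.subset_closure ?_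
    obtain ⟨y1, y2, y3, y4, y5, y6, y7⟩ := hsm y hy
    exact ⟨⟨y1, y2, y5.symm⟩, y1, h2 y y3 y4, (h1 y y6 y7).symm⟩
  have hd1M : d₁ ∈ M := by
    have := M.mul_mem h3M
      (hsix h₃ h₂ h23.symm c23.symm (fun _ _ h => h) fun _ _ h => h)
    rwa [← mul_assoc, hD.mul_self h₃.1, one_mul] at this
  have hd2M : d₂ ∈ M := by
    have := M.mul_mem (hsix h₂ h₃ h23 c23 (fun _ h _ => h) fun _ h _ => h) hd1M
    rwa [mul_assoc, hD.mul_self h₁, mul_one] at this
  have hKM : K₃ ≤ M := (P.triple_gen h₁ h₂ h₃ h23 c23).trans ((Subgroup.closure_le _).2 (by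
    rintro y ⟨hy, hyK⟩
    obtain ⟨⟨a1, a2⟩, -⟩ := memK.1 hyK
    by_cases e1 : y = d₁
    · rw [e1]; exact hd1M
    by_cases e2 : y = d₂
    · rw [e2]; exact hd2M
    exact Subgroup.subset_closure ⟨⟨hy, e1, a1.symm⟩, hy, e2, a2.symm⟩))
  have hHM : H ≤ M := by
    intro h hh
    obtain ⟨a1, a2⟩ := memH.1 hh
    have hy : cj h d₃ ∈ S := by
      have h1 : cj h d₃ ∈ cj h '' S := ⟨d₃, h3S, rfl⟩
      rwa [hS, Set.image_inter (cj_injective h), link_image hD, link_image hD,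
        (cj_eq_self_iff h d₁).2 a1, (cj_eq_self_iff h d₂).2 a2] at h1
    set y := cj h d₃
    obtain ⟨f, hf, f1, f2, -⟩ := hfar y hy d₃ h3S y hy y hy
    have hg : f * d₃ * (y * f) ∈ M := M.mul_mem (M.mul_mem (Subgroup.subset_closure hf) h3M)
      (M.mul_mem (Subgroup.subset_closure hy) (Subgroup.subset_closure hf))
    have hfix : f * d₃ * (y * f) * h ∈ K₃ := by
      have hgH : f * d₃ * (y * f) * h ∈ H := H.mul_mem (H.mul_mem (H.mul_mem (hSH hf) (hSH h3S))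
        (H.mul_mem (hSH hy) (hSH hf))) hh
      refine memK.2 ⟨memH.1 hgH, (cj_eq_self_iff _ d₃).1 ?_⟩
      rw [cj_mul, cj_mul, show cj h d₃ = y from rfl, cj_edge hD hy.1.1 hf.1.1 fun e => f1 e.symm,
        cj_edge hD hf.1.1 h3S.1.1 f2]
    exact (M.mul_mem_cancel_left hg).1 (hKM hfix)
  -- the lemma in `H`
  set D' : Set ↥H := {y | (y : G) ∈ S} with hD'
  have hdat : Data D' := by
    refine ⟨⟨fun x hx => ?_, fun x hx y hy => ?_⟩, fun k x hx => ?_⟩
    · rw [← orderOf_injective H.subtype Subtype.val_injective x]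
      exact hD.set.1 _ hx.1.1
    · exact (hD.set.2 _ hx.1.1 _ hy.1.1).imp (fun e => Subtype.ext e) fun e => Subtype.ext e
    · have h1 : cj (k : G) (x : G) ∈ cj (k : G) '' S := ⟨x, hx, rfl⟩
      rwa [hS, Set.image_inter (cj_injective _), link_image hD, link_image hD,
        (cj_eq_self_iff _ d₁).2 (memH.1 k.2).1, (cj_eq_self_iff _ d₂).2 (memH.1 k.2).2] at h1
  have hgen : Subgroup.closure D' = ⊤ := by
    rw [eq_top_iff]
    intro k _
    have hle : M ≤ (Subgroup.closure D').map H.subtype := by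
      rw [MonoidHom.map_closure, Subgroup.closure_le]
      intro y hy
      exact Subgroup.subset_closure ⟨⟨y, hSH hy⟩, hy, rfl⟩
    obtain ⟨k', hk', e⟩ := hle (hHM k.2)
    rw [← show k' = k from Subtype.ext e]
    exact hk'
  have hcomm : ∀ {u v : ↥H}, Commute u v ↔ Commute (u : G) (v : G) := fun {u v} =>
    ⟨fun h => congrArg Subtype.val h.eq, fun h => Subtype.ext h.eq⟩
  obtain ⟨χ₃, hχ₃⟩ := P.triple_sign h₁ h₂ h₃ h23 c23 hnp
  set x₀ : ↥H := ⟨d₃, hSH h3S⟩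
  let ι : ↥(Subgroup.centralizer ({x₀} : Set ↥H)) →* ↥K₃ :=
    (H.subtype.comp (Subgroup.centralizer ({x₀} : Set ↥H)).subtype).codRestrict K₃ fun k =>
      memK.2 ⟨memH.1 k.1.2, hcomm.1 (Subgroup.mem_centralizer_singleton_iff.1 k.2)⟩
  obtain ⟨ε, hε, hext⟩ := exists_parity hdat hgen (x₀ := x₀) h3S (fun a ha b hb c hc e he => by
      obtain ⟨f, hf, f1, f2, f3, f4⟩ := hfar a ha b hb c hc e he
      exact ⟨⟨f, hSH hf⟩, hf, fun h => f1 (hcomm.1 h), fun h => f2 (hcomm.1 h),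
        fun h => f3 (hcomm.1 h), fun h => f4 (hcomm.1 h)⟩)
    (χ₃.comp ι) fun d hd hdD => hχ₃ _ hdD.1.1
  refine ⟨ε, fun y hy => ?_⟩
  obtain ⟨a1, a2⟩ := memH.1 y.2
  by_cases e : (y : G) = d₁ ∨ (y : G) = d₂
  · have hyx : y ∈ Subgroup.centralizer ({x₀} : Set ↥H) := by
      rw [Subgroup.mem_centralizer_singleton_iff]
      refine (hcomm.2 ?_).eq
      rcases e with e | e <;> rw [e]
      exacts [c13, c23]
    rw [show y = ((⟨y, hyx⟩ : ↥(Subgroup.centralizer ({x₀} : Set ↥H))) : ↥H) from rfl, hext]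
    exact hχ₃ _ hy
  · exact hε y ⟨⟨hy, fun h => e (Or.inl h), a1.symm⟩, hy, fun h => e (Or.inr h), a2.symm⟩

/-- The sign on the centraliser of a transposition. -/
theorem single_sign {d₁ d₂ d₃ : G} (h₁ : d₁ ∈ D) (h₂ : d₂ ∈ link D d₁) (h₃ : d₃ ∈ link D d₁)
    (h23 : d₂ ≠ d₃) (c23 : Commute d₂ d₃)
    (hnp : commutator ↥(Subgroup.centralizer ({d₁, d₂, d₃} : Set G)) ≠ ⊤) :
    ∃ χ : ↥(Subgroup.centralizer ({d₁} : Set G)) →* ℤˣ,
      ∀ y : ↥(Subgroup.centralizer ({d₁} : Set G)), (y : G) ∈ D → χ y = -1 := by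
  classical
  have hD := P.data
  set H := Subgroup.centralizer ({d₁} : Set G) with hH
  have hclH := P.closure_link_eq h₁
  have memH : ∀ {g : G}, g ∈ H ↔ Commute g d₁ := fun {g} => Subgroup.mem_centralizer_singleton_iff
  set D' : Set ↥H := {y | (y : G) ∈ link D d₁} with hD'
  have hdat : Data D' := by
    refine ⟨⟨fun x hx => ?_, fun x hx y hy => ?_⟩, fun k x hx => ?_⟩
    · rw [← orderOf_injective H.subtype Subtype.val_injective x]
      exact hD.set.1 _ hx.1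
    · exact (hD.set.2 _ hx.1 _ hy.1).imp (fun e => Subtype.ext e) fun e => Subtype.ext e
    · have h1 : cj (k : G) (x : G) ∈ cj (k : G) '' link D d₁ := ⟨x, hx, rfl⟩
      rwa [link_image hD, (cj_eq_self_iff _ d₁).2 (memH.1 k.2)] at h1
  have hLH : ∀ {y}, y ∈ link D d₁ → y ∈ H := fun hy => memH.2 hy.2.2.symm
  have hgen : Subgroup.closure D' = ⊤ := by
    rw [eq_top_iff]
    intro k _
    have hle : Subgroup.closure (link D d₁) ≤ (Subgroup.closure D').map H.subtype := by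
      rw [MonoidHom.map_closure, Subgroup.closure_le]
      intro y hy
      exact Subgroup.subset_closure ⟨⟨y, hLH hy⟩, hy, rfl⟩
    obtain ⟨k', hk', e⟩ := hle (hclH.ge k.2)
    rw [← show k' = k from Subtype.ext e]
    exact hk'
  have hcount : ∀ a ∈ link D d₁, {y | y ∈ link D d₁ ∧ Commute y a}.ncard ≤ 3511 := by
    intro a ha
    have hsub : {y | y ∈ link D d₁ ∧ Commute y a} ⊆ insert a (link D d₁ ∩ link D a) := by
      rintro y ⟨hy, hya⟩
      by_cases e : y = a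
      · exact Or.inl e
      · exact Or.inr ⟨hy, hy.1, e, hya.symm⟩
    refine (Set.ncard_le_ncard hsub (Set.toFinite _)).trans ((Set.ncard_insert_le _ _).trans ?_)
    rw [P.srg.adj d₁ h₁ a ha]
  have hfar : ∀ a ∈ link D d₁, ∀ b ∈ link D d₁, ∀ c ∈ link D d₁, ∀ e ∈ link D d₁,
      ∃ f ∈ link D d₁, ¬ Commute f a ∧ ¬ Commute f b ∧ ¬ Commute f c ∧ ¬ Commute f e := by
    intro a ha b hb c hc e he
    by_contra hno
    push Not at hno
    have hsub : link D d₁ ⊆ ({y | y ∈ link D d₁ ∧ Commute y a} ∪ {y | y ∈ link D d₁ ∧ Commute y b}) ∪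
        ({y | y ∈ link D d₁ ∧ Commute y c} ∪ {y | y ∈ link D d₁ ∧ Commute y e}) := by
      intro f hf
      by_cases a1 : Commute f a
      · exact Or.inl (Or.inl ⟨hf, a1⟩)
      by_cases a2 : Commute f b
      · exact Or.inl (Or.inr ⟨hf, a2⟩)
      by_cases a3 : Commute f c
      · exact Or.inr (Or.inl ⟨hf, a3⟩)
      exact Or.inr (Or.inr ⟨hf, hno f hf a1 a2 a3⟩)
    have := Set.ncard_le_ncard hsub (Set.toFinite _)
    have := Set.ncard_union_le ({y | y ∈ link D d₁ ∧ Commute y a} ∪ {y | y ∈ link D d₁ ∧ Commute y b})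
      ({y | y ∈ link D d₁ ∧ Commute y c} ∪ {y | y ∈ link D d₁ ∧ Commute y e})
    have := Set.ncard_union_le {y | y ∈ link D d₁ ∧ Commute y a} {y | y ∈ link D d₁ ∧ Commute y b}
    have := Set.ncard_union_le {y | y ∈ link D d₁ ∧ Commute y c} {y | y ∈ link D d₁ ∧ Commute y e}
    have := P.srg.deg d₁ h₁
    have := hcount a ha
    have := hcount b hb
    have := hcount c hc
    have := hcount e he
    omega
  have hcomm : ∀ {u v : ↥H}, Commute u v ↔ Commute (u : G) (v : G) := fun {u v} =>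
    ⟨fun h => congrArg Subtype.val h.eq, fun h => Subtype.ext h.eq⟩
  obtain ⟨χ₂, hχ₂⟩ := P.pair_sign h₁ h₂ h₃ h23 c23 hnp
  set x₀ : ↥H := ⟨d₂, hLH h₂⟩
  let ι : ↥(Subgroup.centralizer ({x₀} : Set ↥H)) →* ↥(Subgroup.centralizer ({d₁, d₂} : Set G)) :=
    (H.subtype.comp (Subgroup.centralizer ({x₀} : Set ↥H)).subtype).codRestrict _ fun k => by
      rw [Subgroup.mem_centralizer_iff]
      rintro z (rfl | rfl)
      exacts [(memH.1 k.1.2).eq.symm,
        (hcomm.1 (Subgroup.mem_centralizer_singleton_iff.1 k.2 : Commute k.1 x₀)).eq.symm]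
  obtain ⟨ε, hε, hext⟩ := exists_parity hdat hgen (x₀ := x₀) h₂ (fun a ha b hb c hc e he => by
      obtain ⟨f, hf, f1, f2, f3, f4⟩ := hfar a ha b hb c hc e he
      exact ⟨⟨f, hLH hf⟩, hf, fun h => f1 (hcomm.1 h), fun h => f2 (hcomm.1 h),
        fun h => f3 (hcomm.1 h), fun h => f4 (hcomm.1 h)⟩)
    (χ₂.comp ι) fun d hd hdD => hχ₂ _ hdD.1
  refine ⟨ε, fun y hy => ?_⟩
  by_cases e : (y : G) = d₁
  · have hyx : y ∈ Subgroup.centralizer ({x₀} : Set ↥H) := by
      rw [Subgroup.mem_centralizer_singleton_iff]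
      refine (hcomm.2 ?_).eq
      rw [e]
      exact h₂.2.2
    rw [show y = ((⟨y, hyx⟩ : ↥(Subgroup.centralizer ({x₀} : Set ↥H))) : ↥H) from rfl, hext]
    exact hχ₂ _ hy
  · exact hε y ⟨hy, e, (memH.1 y.2).symm⟩

/-- The transpositions lie outside the commutator subgroup. -/
theorem parity_of_triples (hnp : ∀ {a b c : G}, a ∈ D → b ∈ link D a → c ∈ link D a → b ≠ c → Commute b c →
      commutator ↥(Subgroup.centralizer ({a, b, c} : Set G)) ≠ ⊤) :
    (∃ ε : G →* ℤˣ, ∀ d ∈ D, ε d = -1) ∧ ∀ d ∈ D, d ∉ commutator G := by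
  classical
  have hD := P.data
  obtain ⟨l, hl, hll, -⟩ := P.exists_octad
  rcases l with _ | ⟨a, _ | ⟨b, _ | ⟨c, r⟩⟩⟩
  · simp at hll
  · simp at hll
  · simp at hll
  have hn : [a, b, c].Nodup := hl.nodup.sublist (List.sublist_append_left [a, b, c] r)
  simp only [List.nodup_cons, List.mem_cons, List.not_mem_nil, or_false, not_or] at hn
  have ha : a ∈ D := hl.mem a (by simp)
  have hb : b ∈ link D a := ⟨hl.mem b (by simp), Ne.symm hn.1.1, hl.comm a (by simp) b (by simp)⟩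
  have hc : c ∈ link D a := ⟨hl.mem c (by simp), Ne.symm hn.1.2, hl.comm a (by simp) c (by simp)⟩
  have hbc : Commute b c := hl.comm b (by simp) c (by simp)
  obtain ⟨χ, hχ⟩ := P.single_sign ha hb hc hn.2.1 hbc (hnp ha hb hc hn.2.1 hbc)
  have hfar : ∀ x ∈ D, ∀ y ∈ D, ∀ z ∈ D, ∀ w ∈ D,
      ∃ f ∈ D, ¬ Commute f x ∧ ¬ Commute f y ∧ ¬ Commute f z ∧ ¬ Commute f w := by
    intro x hx y hy z hz w hw
    by_contra hno
    push Not at hno
    have hcount : ∀ p ∈ D, {q | q ∈ D ∧ Commute q p}.ncard ≤ 31672 := by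
      intro p hp
      have hsub : {q | q ∈ D ∧ Commute q p} ⊆ insert p (link D p) := by
        rintro q ⟨hq, hqp⟩
        by_cases e : q = p
        · exact Or.inl e
        · exact Or.inr ⟨hq, e, hqp.symm⟩
      refine (Set.ncard_le_ncard hsub (Set.toFinite _)).trans ((Set.ncard_insert_le _ _).trans ?_)
      rw [P.srg.deg p hp]
    have hsub : D ⊆ ({q | q ∈ D ∧ Commute q x} ∪ {q | q ∈ D ∧ Commute q y}) ∪
        ({q | q ∈ D ∧ Commute q z} ∪ {q | q ∈ D ∧ Commute q w}) := by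
      intro f hf
      by_cases a1 : Commute f x
      · exact Or.inl (Or.inl ⟨hf, a1⟩)
      by_cases a2 : Commute f y
      · exact Or.inl (Or.inr ⟨hf, a2⟩)
      by_cases a3 : Commute f z
      · exact Or.inr (Or.inl ⟨hf, a3⟩)
      exact Or.inr (Or.inr ⟨hf, hno f hf a1 a2 a3⟩)
    have := Set.ncard_le_ncard hsub (Set.toFinite _)
    have := Set.ncard_union_le ({q | q ∈ D ∧ Commute q x} ∪ {q | q ∈ D ∧ Commute q y})
      ({q | q ∈ D ∧ Commute q z} ∪ {q | q ∈ D ∧ Commute q w})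
    have := Set.ncard_union_le {q | q ∈ D ∧ Commute q x} {q | q ∈ D ∧ Commute q y}
    have := Set.ncard_union_le {q | q ∈ D ∧ Commute q z} {q | q ∈ D ∧ Commute q w}
    have := P.srg.card
    have := hcount x hx
    have := hcount y hy
    have := hcount z hz
    have := hcount w hw
    omega
  obtain ⟨ε, hε, -⟩ := exists_parity hD P.grp.2.2 ha hfar χ fun d hd hdD => hχ ⟨d, hd⟩ hdD
  exact ⟨⟨ε, hε⟩, fun d hd h => absurd ((hε d hd).symm.trans
    (MonoidHom.mem_ker.1 (Abelianization.commutator_subset_ker ε h))) (by decide)⟩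

end M24Prim

end Cfsg.Agent.TTLink
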