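import Cfsg.Agent.TTLink.QuadData
import Cfsg.Agent.H77.UnitaryFourModel
import Cfsg.Agent.SUSixU43.Check

/-!
Checked properties of the tables: the generalised quadrangle of order (4,2), the space of 126 points,
and the ovoids closed under third points.
-/

set_option autoImplicit false
set_option maxRecDepth 100000

namespace Cfsg.Agent.TTLink.Quad

open Cfsg.Agent.TTLink.QuadData Cfsg.Agent.SchurBound

/-- Adjacency of the 45 points (reflexive). -/
def g45 (i j : ℕ) : Bool := Nat.beq (Nat.land (Nat.shiftRight nb45 (48 * i + j)) 1) 1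

/-- Adjacency of the 126 points (reflexive). -/
def g126 (c k : ℕ) : Bool := Nat.beq (Nat.land (Nat.shiftRight nb126 (128 * c + k)) 1) 1

/-- The neighbourhood of one of the 45 points. -/
def nm (i : ℕ) : ℕ := Nat.mod (Nat.shiftRight nb45 (48 * i)) (2 ^ 45)

/-- The neighbourhood of one of the 126 points. -/
def nM (c : ℕ) : ℕ := Nat.mod (Nat.shiftRight nb126 (128 * c)) (2 ^ 126)

/-- The third point of two non-adjacent points. -/
def third (i j : ℕ) : ℕ := Nat.mod (Nat.shiftRight thirdN (8 * (45 * i + j))) 256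

theorem g45_bit (i j : ℕ) : g45 i j = Nat.testBit nb45 (48 * i + j) := by
  rw [g45, Nat.testBit, show Nat.land (Nat.shiftRight nb45 (48 * i + j)) 1 =
    (nb45 >>> (48 * i + j)) &&& 1 from rfl, Nat.and_comm, Nat.one_and_eq_mod_two]
  rcases Nat.mod_two_eq_zero_or_one (nb45 >>> (48 * i + j)) with h | h <;> rw [h] <;> rfl

theorem g126_bit (c k : ℕ) : g126 c k = Nat.testBit nb126 (128 * c + k) := by
  rw [g126, Nat.testBit, show Nat.land (Nat.shiftRight nb126 (128 * c + k)) 1 =
    (nb126 >>> (128 * c + k)) &&& 1 from rfl, Nat.and_comm, Nat.one_and_eq_mod_two]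
  rcases Nat.mod_two_eq_zero_or_one (nb126 >>> (128 * c + k)) with h | h <;> rw [h] <;> rfl

theorem nm_bit {i j : ℕ} (hj : j < 45) : (nm i).testBit j = g45 i j := by
  rw [nm, show Nat.mod (Nat.shiftRight nb45 (48 * i)) (2 ^ 45) = (nb45 >>> (48 * i)) % 2 ^ 45 from rfl,
    Nat.testBit_mod_two_pow, Nat.testBit_shiftRight, g45_bit]
  simp [hj]

theorem nM_bit {c k : ℕ} (hk : k < 126) : (nM c).testBit k = g126 c k := by
  rw [nM, show Nat.mod (Nat.shiftRight nb126 (128 * c)) (2 ^ 126) = (nb126 >>> (128 * c)) % 2 ^ 126 from rfl,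
    Nat.testBit_mod_two_pow, Nat.testBit_shiftRight, g126_bit]
  simp [hk]

theorem nm_eq_of {i j k : ℕ} (h : ∀ l < 45, (g45 i l && g45 j l) = (g45 i l && g45 k l)) :
    Nat.land (nm i) (nm j) = Nat.land (nm i) (nm k) := by
  refine Nat.eq_of_testBit_eq fun l => ?_
  show (nm i &&& nm j).testBit l = (nm i &&& nm k).testBit l
  rw [Nat.testBit_and, Nat.testBit_and]
  rcases lt_or_ge l 45 with hl | hl
  · rw [nm_bit hl, nm_bit hl, nm_bit hl, h l hl]
  · have hz : ∀ a, (nm a).testBit l = false := fun a => by
      rw [nm, show Nat.mod (Nat.shiftRight nb45 (48 * a)) (2 ^ 45) = (nb45 >>> (48 * a)) % 2 ^ 45 from rfl,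
        Nat.testBit_mod_two_pow]
      simp [Nat.not_lt.2 hl]
    rw [hz, hz, hz]

theorem nM_eq_of {i j k : ℕ} (h : ∀ l < 126, (g126 i l && g126 j l) = (g126 i l && g126 k l)) :
    Nat.land (nM i) (nM j) = Nat.land (nM i) (nM k) := by
  refine Nat.eq_of_testBit_eq fun l => ?_
  show (nM i &&& nM j).testBit l = (nM i &&& nM k).testBit l
  rw [Nat.testBit_and, Nat.testBit_and]
  rcases lt_or_ge l 126 with hl | hl
  · rw [nM_bit hl, nM_bit hl, nM_bit hl, h l hl]
  · have hz : ∀ a, (nM a).testBit l = false := fun a => by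
      rw [nM, show Nat.mod (Nat.shiftRight nb126 (128 * a)) (2 ^ 126) =
        (nb126 >>> (128 * a)) % 2 ^ 126 from rfl, Nat.testBit_mod_two_pow]
      simp [Nat.not_lt.2 hl]
    rw [hz, hz, hz]

/-! ### The generalised quadrangle -/

/-- The table is the orthogonality of the isotropic points. -/
theorem g45_ok : ∀ i j : Fin 45, g45 i j = decide (H77GQ.FourM.hs (H77GQ.FourM.pt i) (H77GQ.FourM.pt j) = 0) := by
  decide +kernel

theorem g45_basic : allN (fun i => g45 i i && allN (fun j => !(g45 i j) || g45 j i) 45) 45 = true := by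
  decide +kernel

theorem g45_self {i : ℕ} (hi : i < 45) : g45 i i = true :=
  (Bool.and_eq_true_iff.1 (allN_iff g45_basic i hi)).1

theorem g45_symm {i j : ℕ} (hi : i < 45) (hj : j < 45) (h : g45 i j = true) : g45 j i = true := by
  have := allN_iff (Bool.and_eq_true_iff.1 (allN_iff g45_basic i hi)).2 j hj
  rwa [h, Bool.not_true, Bool.false_or] at this

theorem clique_check : allN (fun i => allN (fun j => !(g45 i j) || Nat.beq i j ||
    allN (fun k => !(g45 i k && g45 j k) ||
      Nat.beq (Nat.land (nm k) (Nat.land (nm i) (nm j))) (Nat.land (nm i) (nm j))) 45) 45) 45 = true := by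
  decide +kernel

/-- A point adjacent to two points of a line is adjacent to all of it. -/
theorem clique {i j k l : ℕ} (hi : i < 45) (hj : j < 45) (hk : k < 45) (hl : l < 45) (hne : i ≠ j)
    (hij : g45 i j = true) (hik : g45 i k = true) (hjk : g45 j k = true)
    (hli : g45 i l = true) (hlj : g45 j l = true) : g45 k l = true := by
  have h := allN_iff (allN_iff clique_check i hi) j hj
  simp only [hij, Bool.not_true, Bool.false_or, Bool.or_eq_true, Nat.beq_eq, hne, false_or] at h
  have h2 := allN_iff h k hk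
  simp only [hik, hjk, Bool.and_self, Bool.not_true, Bool.false_or, Nat.beq_eq] at h2
  have h3 := congrArg (fun n => n.testBit l) h2
  simp only [show ∀ a b, Nat.land a b = a &&& b from fun _ _ => rfl, Nat.testBit_and, nm_bit hl] at h3
  simpa [hli, hlj] using h3

/-- The lines as lists. -/
theorem lineL_ok : (lineL.all fun l => Nat.beq l.length 5 && decide l.Nodup &&
    l.all fun a => Nat.blt a 45 && l.all fun b => g45 a b) = true := by decide +kernel

theorem line_cover : allN (fun i => allN (fun j => !(g45 i j) || Nat.beq i j ||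
    lineL.any fun l => l.contains i && l.contains j &&
      allN (fun k => !(g45 i k && g45 j k) || l.contains k) 45) 45) 45 = true := by decide +kernel

theorem line_spec {l : List ℕ} (hl : l ∈ lineL) :
    l.length = 5 ∧ l.Nodup ∧ (∀ a ∈ l, a < 45) ∧ ∀ a ∈ l, ∀ b ∈ l, g45 a b = true := by
  have h := List.all_eq_true.1 lineL_ok l hl
  simp only [Bool.and_eq_true, Nat.beq_eq, decide_eq_true_eq, List.all_eq_true, Nat.blt_eq] at h
  exact ⟨h.1.1, h.1.2, fun a ha => (h.2 a ha).1, fun a ha b hb => (h.2 a ha).2 b hb⟩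

/-- Every pair of adjacent points is on a line, which contains all their common neighbours. -/
theorem exists_line {i j : ℕ} (hi : i < 45) (hj : j < 45) (hne : i ≠ j) (hij : g45 i j = true) :
    ∃ l ∈ lineL, i ∈ l ∧ j ∈ l ∧ ∀ k < 45, g45 i k = true → g45 j k = true → k ∈ l := by
  have h := allN_iff (allN_iff line_cover i hi) j hj
  simp only [hij, Bool.not_true, Bool.false_or, Bool.or_eq_true, Nat.beq_eq, hne, false_or,
    List.any_eq_true, Bool.and_eq_true, List.contains_iff_mem] at h
  obtain ⟨l, hl, ⟨h1, h2⟩, h3⟩ := h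
  refine ⟨l, hl, h1, h2, fun k hk a b => ?_⟩
  have h4 := allN_iff h3 k hk
  simpa [a, b] using h4

theorem twin_check : allN (fun i => allN (fun j => g45 i j ||
    (Nat.blt (third i j) 45 && !(g45 i (third i j)) && !(Nat.beq (third i j) j) &&
      Nat.beq (Nat.land (nm i) (nm (third i j))) (Nat.land (nm i) (nm j)) &&
      allN (fun k => g45 i k || Nat.beq k j || Nat.beq k (third i j) ||
        !(Nat.beq (Nat.land (nm i) (nm k)) (Nat.land (nm i) (nm j)))) 45)) 45) 45 = true := by
  decide +kernel

/-- The points with given common neighbours with a point. -/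
theorem twins {i j k : ℕ} (hi : i < 45) (hj : j < 45) (hk : k < 45) (hij : g45 i j = false)
    (hik : g45 i k = false) (h : ∀ l < 45, (g45 i l && g45 k l) = (g45 i l && g45 j l)) :
    k = j ∨ k = third i j := by
  have h1 := allN_iff (allN_iff twin_check i hi) j hj
  simp only [hij, Bool.false_or, Bool.and_eq_true] at h1
  have h2 := allN_iff h1.2 k hk
  rw [nm_eq_of h] at h2
  simp only [hik, Bool.false_or, Bool.or_eq_true, Bool.not_eq_true', Nat.beq_eq] at h2
  rcases h2 with (h2 | h2) | h2
  · exact Or.inl h2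
  · exact Or.inr h2
  · simp [Nat.beq_refl] at h2

theorem pair_check : allN (fun n => allN (fun i0 => !(g45 n i0) || Nat.beq n i0 ||
    allN (fun j => !(g45 n j) || g45 i0 j || allN (fun k => !(g45 n k) || g45 i0 k || Nat.beq k j ||
      Nat.beq k (third i0 j) || (g45 j k != g45 (third i0 j) k)) 45) 45) 45) 45 = true := by
  decide +kernel

/-- Two far points with a common neighbour at the base point. -/
theorem pair {n i0 j k : ℕ} (hn : n < 45) (hi : i0 < 45) (hj : j < 45) (hk : k < 45)
    (h0 : g45 n i0 = true) (hne : n ≠ i0) (hnj : g45 n j = true) (hij : g45 i0 j = false)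
    (hnk : g45 n k = true) (hik : g45 i0 k = false) (hkj : k ≠ j) (hkt : k ≠ third i0 j) :
    g45 (third i0 j) k = !(g45 j k) := by
  have h := allN_iff (allN_iff pair_check n hn) i0 hi
  simp only [h0, Bool.not_true, Bool.false_or, Bool.or_eq_true, Nat.beq_eq, hne, false_or] at h
  have h2 := allN_iff h j hj
  simp only [hnj, hij, Bool.not_true, Bool.false_or] at h2
  have h3 := allN_iff h2 k hk
  simp only [hnk, hik, Bool.not_true, Bool.false_or, Bool.or_eq_true, Nat.beq_eq, hkj, hkt,
    false_or, bne_iff_ne] at h3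
  cases hg : g45 j k <;> cases hg' : g45 (third i0 j) k <;> simp_all

theorem base_fixed : (roundL.foldl (fun (s : List ℕ × Bool) r => (s.1 ++ r,
    s.2 && r.all fun q => allN (fun q' => Nat.beq q' q || s.1.contains q' || s.1.any fun b => g45 b q != g45 b q') 45))
    (baseL, true)) = (baseL ++ roundL.flatten, true) := by decide +kernel

theorem base_all : allN (fun q => (baseL ++ roundL.flatten).contains q) 45 = true := by decide +kernel

/-! ### The space of 126 points -/

/-- The table is the commutation of the reflections. -/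
theorem g126_ok : allN (fun c => allN (fun k =>
    g126 c k == Nat.beq (J2.look (SUSixU43.tvTabs.getD c 0) k) k) 126) 126 = true := by decide +kernel

end Cfsg.Agent.TTLink.Quad
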