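import Cfsg.Agent.TTLink.QuadSpace
import Cfsg.Agent.TTLink.QuadTables
import Cfsg.Agent.SUSixU43.Check

/-!
Charts of the space of factorisations by the 126 points, six mutually commuting factorisations, and
the permutations of the 126 points preserving adjacency.
-/

set_option autoImplicit false

namespace Cfsg.Agent.TTLink.Quad

variable {G : Type*} [Group G]

/-- Six mutually commuting factorisations. -/
structure Six (D : Set G) (z : G) (c : Fin 6 → G) : Prop where
  mem : ∀ i, InQ D z (c i)
  comm : ∀ i j, Commute (c i) (c j)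
  inj : ∀ i j, i ≠ j → ¬ Same D z (c i) (c j)

/-- A chart of the factorisations by the 126 points. -/
structure Chart (D : Set G) (z : G) (ψ : G → ℕ) : Prop where
  lt : ∀ y, InQ D z y → ψ y < 126
  same : ∀ y y', InQ D z y → InQ D z y' → (Same D z y y' ↔ ψ y = ψ y')
  adj : ∀ y y', InQ D z y → InQ D z y' → (Commute y y' ↔ g126 (ψ y) (ψ y') = true)
  surj : ∀ k < 126, ∃ y, InQ D z y ∧ ψ y = k

/-- The permutations of the 126 points preserving adjacency. -/
def adj126 : Subgroup (Equiv.Perm (Fin 126)) where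
  carrier := {σ | ∀ a b : Fin 126, g126 (σ a : ℕ) (σ b : ℕ) = g126 (a : ℕ) (b : ℕ)}
  mul_mem' {σ τ} hσ hτ a b := (hσ (τ a) (τ b)).trans (hτ a b)
  one_mem' a b := rfl
  inv_mem' {σ} hσ a b := by
    have h := hσ (σ⁻¹ a) (σ⁻¹ b)
    rw [show σ (σ⁻¹ a) = a from σ.apply_symm_apply a,
      show σ (σ⁻¹ b) = b from σ.apply_symm_apply b] at h
    exact h.symm

end Cfsg.Agent.TTLink.Quad
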