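import Cfsg.Agent.TTLink.QuadDefs
import Cfsg.Agent.TTLink.QuadSearch

/-!
The factorisations far from a given one: each commutes with the members of one tabulated ovoid, and
each ovoid belongs to exactly two of them.
-/

set_option autoImplicit false
set_option maxRecDepth 100000

namespace Cfsg.Agent.TTLink.Quad

open Cfsg.Agent.TTLink.QuadData Cfsg.Agent.ThreeTransp45 Cfsg.Agent.SporB Cfsg.Agent.SchurBound

theorem ov_distinct : allN (fun t => allN (fun u => Nat.beq t u ||
    (List.range 45).any fun i => bitB (ov t) i != bitB (ov u) i) 40) 40 = true := by decide +kernel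

theorem ov_nonempty : allN (fun t => (List.range 45).any fun i => bitB (ov t) i) 40 = true := by
  decide +kernel

theorem ov_count : allN (fun i => Nat.beq ((List.range 40).filter fun t => bitB (ov t) i).length 16) 45 =
    true := by decide +kernel

theorem far_count : allN (fun i => Nat.beq ((List.range 45).filter fun j => !(g45 i j)).length 32) 45 =
    true := by decide +kernel

theorem line_point : allN (fun i => lineL.any fun l => l.contains i) 45 = true := by decide +kernel

theorem ov_eq {t u : ℕ} (ht : t < 40) (hu : u < 40) (h : ∀ i < 45, bitB (ov t) i = bitB (ov u) i) :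
    t = u := by
  have h1 := allN_iff (allN_iff ov_distinct t ht) u hu
  rw [Bool.or_eq_true, Nat.beq_eq, List.any_eq_true] at h1
  rcases h1 with h1 | ⟨i, hi, hb⟩
  · exact h1
  · rw [h i (List.mem_range.1 hi)] at hb
    simp at hb

theorem hasPair_of {s i j : ℕ} (hi : i < 45) (hj : j < 45) (hne : i ≠ j) (bi : bitB s i = true)
    (bj : bitB s j = true) (h : g45 i j = true) : hasPair s = true := by
  rw [hasPair, List.any_eq_true]
  refine ⟨i, List.mem_range.2 hi, ?_⟩
  rw [bi, Bool.true_and, Bool.not_eq_true']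
  refine Bool.eq_false_iff.2 fun e => ?_
  have h' := congrArg (fun n => n.testBit j) (Nat.eq_of_beq_eq_true e)
  have h2 : (nm i &&& s).testBit j = (1 <<< i).testBit j := h'
  rw [Nat.testBit_and, nm_bit hj, h, ← bitB_eq, bj, Nat.one_shiftLeft, Nat.testBit_two_pow] at h2
  simp [hne] at h2

theorem hasPair_elim {s : ℕ} (h : hasPair s = true) : ∃ i j, i < 45 ∧ j < 45 ∧ i ≠ j ∧
    bitB s i = true ∧ bitB s j = true ∧ g45 i j = true := by
  rw [hasPair, List.any_eq_true] at h
  obtain ⟨i, hi, h⟩ := h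
  rw [Bool.and_eq_true, Bool.not_eq_true'] at h
  have hi' := List.mem_range.1 hi
  obtain ⟨j, hj⟩ : ∃ j, (nm i &&& s).testBit j ≠ (1 <<< i).testBit j := by
    by_contra hh
    push Not at hh
    have e : Nat.land (nm i) s = Nat.shiftLeft 1 i := Nat.eq_of_testBit_eq hh
    rw [e, Nat.beq_refl] at h
    exact Bool.noConfusion h.2
  rw [Nat.testBit_and, Nat.one_shiftLeft, Nat.testBit_two_pow] at hj
  by_cases e : i = j
  · subst e
    rw [nm_bit hi', g45_self hi', ← bitB_eq, h.1] at hj
    simp at hj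
  · simp only [e, decide_false, ne_eq, Bool.not_eq_false, Bool.and_eq_true] at hj
    have hj' : j < 45 := by
      by_contra hh
      rw [nm, show Nat.mod (Nat.shiftRight nb45 (48 * i)) (2 ^ 45) = (nb45 >>> (48 * i)) % 2 ^ 45 from rfl,
        Nat.testBit_mod_two_pow] at hj
      simp [hh] at hj
    exact ⟨i, j, hi', hj', e, h.1, by rw [bitB_eq]; exact hj.2, by rw [← nm_bit hj']; exact hj.1⟩

variable {G : Type*} [Group G] [Finite G] {D : Set G} {z : G}

/-- A base point with a chart of its neighbours and representatives of them. -/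
structure Base (D : Set G) (z x : G) (f : G → ℕ) (nb : ℕ → G) : Prop where
  mem : InQ D z x
  chart : Local D z x f
  nbr : ∀ i < 45, Nbr D z x (nb i)
  val : ∀ i < 45, f (nb i) = i

/-- Far from the base point. -/
def Far (D : Set G) (z x y : G) : Prop := InQ D z y ∧ ¬ Commute x y

/-- A far point over an ovoid. -/
def Over (D : Set G) (z x : G) (nb : ℕ → G) (y : G) (t : ℕ) : Prop :=
  Far D z x y ∧ t < 40 ∧ ∀ i < 45, (Commute y (nb i) ↔ bitB (ov t) i = true)

variable {x : G} {f : G → ℕ} {nb : ℕ → G}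

theorem exists_base (S : Space D z) (hx : InQ D z x) : ∃ f nb, Base D z x f nb := by
  obtain ⟨f, hf⟩ := S.loc x hx
  have h : ∀ i, ∃ y, i < 45 → Nbr D z x y ∧ f y = i := fun i => by
    by_cases hi : i < 45
    · obtain ⟨y, hy⟩ := hf.surj i hi
      exact ⟨y, fun _ => hy⟩
    · exact ⟨1, fun h => absurd h hi⟩
  choose nb hnb using h
  exact ⟨f, nb, hx, hf, fun i hi => (hnb i hi).1, fun i hi => (hnb i hi).2⟩

theorem Far.not_nbr_same {y w : G} (S : Space D z) (hy : Far D z x y) (hx : InQ D z x)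
    (hw : Commute x w) : ¬ Same D z w y := fun h =>
  hy.2 ((S.comm_congr h hx hw.symm).symm)

theorem Base.adj {i j : ℕ} (B : Base D z x f nb) (hi : i < 45) (hj : j < 45) :
    Commute (nb i) (nb j) ↔ g45 i j = true := by
  rw [B.chart.adj _ _ (B.nbr i hi) (B.nbr j hj), B.val i hi, B.val j hj]

theorem Base.same_iff {i j : ℕ} (B : Base D z x f nb) (hi : i < 45) (hj : j < 45) :
    Same D z (nb i) (nb j) ↔ i = j := by
  rw [B.chart.same _ _ (B.nbr i hi) (B.nbr j hj), B.val i hi, B.val j hj]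

theorem Base.same_nb (B : Base D z x f nb) {w : G} (hw : Nbr D z x w) : Same D z w (nb (f w)) :=
  (B.chart.same _ _ hw (B.nbr _ (B.chart.lt w hw))).2 (B.val _ (B.chart.lt w hw)).symm

theorem Base.comm_nb (B : Base D z x f nb) (S : Space D z) {w y : G} (hw : Nbr D z x w)
    (hy : InQ D z y) : Commute y w ↔ Commute y (nb (f w)) :=
  ⟨fun h => (S.comm_congr (B.same_nb hw) hy h.symm).symm,
    fun h => (S.comm_congr (B.same_nb hw).symm hy h.symm).symm⟩

theorem Far.twin {y : G} (S : Space D z) (hx : InQ D z x) (hy : Far D z x y) :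
    Far D z x (cj x y) ∧ ¬ Commute y (cj x y) := by
  refine ⟨⟨S.inQ_refl hx hy.1, fun h => hy.2 ?_⟩, fun h => hy.2 ?_⟩
  · rwa [← S.comm_refl_iff hx, (cj_eq_self_iff x x).2 (Commute.refl x)] at h
  · rw [S.data.cj_comm hx.1 hy.1.1 hy.2] at h
    exact ((cj_commute_iff y y x).1 (by rwa [(cj_eq_self_iff y y).2 (Commute.refl y)])).symm

theorem Over.twin {y : G} {t : ℕ} (S : Space D z) (B : Base D z x f nb) (h : Over D z x nb y t) :
    Over D z x nb (cj x y) t := by
  refine ⟨(h.1.twin S B.mem).1, h.2.1, fun i hi => ?_⟩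
  rw [S.comm_refl_iff B.mem, (cj_eq_self_iff x (nb i)).2 (B.nbr i hi).2.1]
  exact h.2.2 i hi

theorem Over.uniq {y : G} {t u : ℕ} (h : Over D z x nb y t) (h' : Over D z x nb y u) : t = u :=
  ov_eq h.2.1 h'.2.1 fun i hi => Bool.eq_iff_iff.2 ((h.2.2 i hi).symm.trans (h'.2.2 i hi))

theorem Over.congr {y y' : G} {t : ℕ} (S : Space D z) (B : Base D z x f nb) (h : Over D z x nb y t)
    (hs : Same D z y y') : Over D z x nb y' t :=
  ⟨⟨hs.right, fun hc => h.1.2 (S.comm_congr hs.symm B.mem hc.symm).symm⟩, h.2.1, fun i hi =>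
    (S.comm_congr' hs (B.nbr i hi).1).symm.trans (h.2.2 i hi)⟩

/-- Six factorisations from the base point and a line. -/
theorem Base.six_line (B : Base D z x f nb) (S : Space D z) {l : List ℕ} (hl : l ∈ lineL) :
    l.length = 5 ∧ Six D z (Fin.cons x fun k : Fin 5 => nb (l.getD (k : ℕ) 0)) := by
  obtain ⟨h5, hnd, hlt, hadj⟩ := line_spec hl
  refine ⟨h5, ?_⟩
  have hget : ∀ k : Fin 5, ∃ hlen : (k : ℕ) < l.length, l.getD (k : ℕ) 0 = l[(k : ℕ)] := fun k =>
    ⟨lt_of_lt_of_eq k.2 h5.symm, List.getD_eq_getElem _ _ (lt_of_lt_of_eq k.2 h5.symm)⟩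
  have hin : ∀ k : Fin 5, l.getD (k : ℕ) 0 ∈ l := fun k => by
    obtain ⟨hl', e⟩ := hget k
    rw [e]; exact List.getElem_mem _
  have hk : ∀ k : Fin 5, l.getD (k : ℕ) 0 < 45 := fun k => hlt _ (hin k)
  constructor
  · intro i
    refine Fin.cases B.mem (fun k => ?_) i
    rw [Fin.cons_succ]
    exact (B.nbr _ (hk k)).1
  · intro i j
    refine Fin.cases ?_ (fun k => ?_) i <;> refine Fin.cases ?_ (fun m => ?_) j <;>
      simp only [Fin.cons_zero, Fin.cons_succ]
    exacts [Commute.refl x, (B.nbr _ (hk m)).2.1, (B.nbr _ (hk k)).2.1.symm,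
      (B.adj (hk k) (hk m)).2 (hadj _ (hin k) _ (hin m))]
  · intro i j
    refine Fin.cases ?_ (fun k => ?_) i <;> refine Fin.cases ?_ (fun m => ?_) j <;>
      simp only [Fin.cons_zero, Fin.cons_succ]
    · exact fun h => absurd rfl h
    · exact fun _ => (B.nbr _ (hk m)).2.2
    · exact fun _ h => (B.nbr _ (hk k)).2.2 h.symm
    · intro hne h
      rw [B.same_iff (hk k) (hk m)] at h
      obtain ⟨_, ek⟩ := hget k
      obtain ⟨_, em⟩ := hget m
      rw [ek, em] at h
      exact hne (congrArg Fin.succ (Fin.ext (hnd.getElem_inj_iff.1 h)))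

/-- A far point commutes with the members of a tabulated ovoid. -/
theorem Base.exists_over (B : Base D z x f nb) (S : Space D z)
    (h2 : ∀ {c : Fin 6 → G}, Six D z c → ∀ {y : G}, InQ D z y → (∀ i, ¬ Same D z (c i) y) →
      ∃ i j, i ≠ j ∧ ∀ k, Commute (c k) y ↔ k = i ∨ k = j)
    {y : G} (hy : Far D z x y) : ∃ t, Over D z x nb y t := by
  classical
  suffices hs : Ovoid fun i => decide (Commute y (nb i)) by
    obtain ⟨t, ht, h⟩ := hs.tabulated
    exact ⟨t, hy, ht, fun i hi => by rw [ov, h i hi]; simp⟩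
  refine ⟨fun l hl => ?_, fun i hi j hj hg si sj => ?_⟩
  · obtain ⟨h5, hc⟩ := B.six_line S hl
    obtain ⟨i, j, hij, h⟩ := h2 hc hy.1 fun i => by
      refine Fin.cases ?_ (fun k => ?_) i
      · rw [Fin.cons_zero]; exact fun e => hy.2 e.commute
      · rw [Fin.cons_succ]
        refine hy.not_nbr_same S B.mem (B.nbr _ ((line_spec hl).2.2.1 _ ?_)).2.1
        rw [List.getD_eq_getElem _ _ (lt_of_lt_of_eq k.2 h5.symm)]
        exact List.getElem_mem _
    match l, h5, h with
    | [a, b, c, d, e], _, h =>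
      have h0 : ¬ Commute x y := hy.2
      have hk : ∀ k : Fin 5, Commute y (nb ([a, b, c, d, e].getD (k : ℕ) 0)) ↔ k.succ = i ∨ k.succ = j :=
        fun k => by
          have := h k.succ
          rw [Fin.cons_succ] at this
          exact ⟨fun hc => this.1 hc.symm, fun hc => (this.2 hc).symm⟩
      have hi0 : i ≠ 0 := fun e' => h0 (by have := (h 0).2 (Or.inl e'.symm); rwa [Fin.cons_zero] at this)
      have hj0 : j ≠ 0 := fun e' => h0 (by have := (h 0).2 (Or.inr e'.symm); rwa [Fin.cons_zero] at this)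
      have a0 := hk 0; have a1 := hk 1; have a2 := hk 2; have a3 := hk 3; have a4 := hk 4
      simp only [cntIn, List.filter_cons, List.filter_nil]
      simp only [Fin.val_zero, Fin.val_one, Fin.val_two, List.getD_cons_zero, List.getD_cons_succ,
        show ((3 : Fin 5) : ℕ) = 3 from rfl, show ((4 : Fin 5) : ℕ) = 4 from rfl] at a0 a1 a2 a3 a4
      fin_cases i <;> fin_cases j <;>
        simp_all
  · simp only [decide_eq_true_eq] at si sj ⊢
    have hA := B.nbr i hi
    have hB := B.nbr j hj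
    have hw := S.nbr_refl B.mem hA hB
    set w := cj (nb i) (nb j) with hwdef
    have hlt := B.chart.lt w hw
    have nAB : ¬ Commute (nb i) (nb j) := by rw [B.adj hi hj, hg]; simp
    have nAw : g45 i (f w) = false := by
      refine Bool.eq_false_iff.2 fun e => nAB ?_
      have h := (B.comm_nb S hw hA.1).2 ((B.adj hi hlt).2 e)
      rwa [hwdef, show cj (nb i) (nb j) = cj (nb i) (nb j) from rfl, ← S.comm_refl_iff hA.1,
        (cj_eq_self_iff _ _).2 (Commute.refl _)] at h
    have hm : ∀ l < 45, (g45 i l && g45 (f w) l) = (g45 i l && g45 j l) := by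
      intro l hl
      cases e : g45 i l
      · rfl
      · simp only [Bool.true_and]
        rw [Bool.eq_iff_iff, ← B.adj hlt hl, ← B.adj hj hl]
        have hfix : cj (nb i) (nb l) = nb l := (cj_eq_self_iff _ _).2 ((B.adj hi hl).2 e)
        have h1 : Commute w (nb l) ↔ Commute (nb j) (nb l) := by
          rw [hwdef, S.comm_refl_iff hA.1, hfix]
        rw [← h1]
        exact (S.comm_congr' (B.same_nb hw) (B.nbr l hl).1).symm
    rcases twins hi hj hlt hg nAw hm with e | e
    · exfalso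
      have hs := B.same_nb hw
      rw [e] at hs
      have hc := hs.commute
      rw [hwdef, S.data.cj_comm hA.1.1 hB.1.1 nAB] at hc
      exact nAB ((cj_commute_iff (nb j) (nb i) (nb j)).1
        (by rwa [(cj_eq_self_iff (nb j) (nb j)).2 (Commute.refl _)]))
    · rw [← e]
      refine (B.comm_nb S hw hy.1).1 ?_
      have := (cj_commute_iff (nb i) y (nb j)).2 sj
      rwa [(cj_eq_self_iff _ _).2 si.symm] at this

/-- In the chart at a neighbour, a point over the same ovoid has one of two values. -/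
theorem Base.twin_value (B : Base D z x f nb) (S : Space D z) {i : ℕ} (hi : i < 45) {h : G → ℕ}
    (hh : Local D z (nb i) h) {y y' : G} {t : ℕ} (hy : Over D z x nb y t) (hy' : Over D z x nb y' t)
    (hb : bitB (ov t) i = true) : Nbr D z (nb i) x ∧ Nbr D z (nb i) y ∧ Nbr D z (nb i) y' ∧
      g45 (h x) (h y) = false ∧ (h y' = h y ∨ h y' = third (h x) (h y)) := by
  have hc := B.nbr i hi
  have hx : Nbr D z (nb i) x := ⟨B.mem, hc.2.1.symm, fun e => hc.2.2 e.symm⟩
  have mk : ∀ {w}, Over D z x nb w t → Nbr D z (nb i) w ∧ g45 (h x) (h w) = false := fun {w} hw => by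
    have hn : Nbr D z (nb i) w :=
      ⟨hw.1.1, ((hw.2.2 i hi).2 hb).symm, hw.1.not_nbr_same S B.mem hc.2.1⟩
    exact ⟨hn, Bool.eq_false_iff.2 fun e => hw.1.2 ((hh.adj _ _ hx hn).2 e)⟩
  obtain ⟨n1, e1⟩ := mk hy
  obtain ⟨n2, e2⟩ := mk hy'
  refine ⟨hx, n1, n2, e1, twins (hh.lt _ hx) (hh.lt _ n1) (hh.lt _ n2) e1 e2 fun l hl => ?_⟩
  obtain ⟨w, hw, rfl⟩ := hh.surj l hl
  cases e : g45 (h x) (h w)
  · rfl
  simp only [Bool.true_and]
  rw [Bool.eq_iff_iff, ← hh.adj _ _ n2 hw, ← hh.adj _ _ n1 hw]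
  have hxw := (hh.adj _ _ hx hw).2 e
  by_cases hs : Same D z x w
  · exact iff_of_false (fun hc => hy'.1.2 (S.comm_congr hs.symm hy'.1.1 hc.symm))
      fun hc => hy.1.2 (S.comm_congr hs.symm hy.1.1 hc.symm)
  · have hwx : Nbr D z x w := ⟨hw.1, hxw, hs⟩
    rw [B.comm_nb S hwx hy'.1.1, B.comm_nb S hwx hy.1.1, hy'.2.2 _ (B.chart.lt w hwx),
      hy.2.2 _ (B.chart.lt w hwx)]

/-- The two points over an ovoid. -/
theorem Base.twin (B : Base D z x f nb) (S : Space D z) {y y' : G} {t : ℕ}
    (hy : Over D z x nb y t) (hy' : Over D z x nb y' t) : Same D z y' y ∨ Same D z y' (cj x y) := by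
  obtain ⟨i, hi, hb⟩ := List.any_eq_true.1 (allN_iff ov_nonempty t hy.2.1)
  replace hi := List.mem_range.1 hi
  obtain ⟨h, hh⟩ := S.loc _ (B.nbr i hi).1
  obtain ⟨-, n1, n2, -, e2⟩ := B.twin_value S hi hh hy hy' hb
  obtain ⟨-, -, n0, -, e0⟩ := B.twin_value S hi hh hy (hy.twin S B) hb
  rcases e2 with e2 | e2
  · exact Or.inl ((hh.same _ _ n2 n1).2 e2)
  · rcases e0 with e0 | e0
    · exact absurd ((hh.same _ _ n0 n1).2 e0).commute.symm (hy.1.twin S B.mem).2
    · exact Or.inr ((hh.same _ _ n2 n0).2 (e2.trans e0.symm))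

/-- Each ovoid has a point over it. -/
theorem Base.exists_point (B : Base D z x f nb) (S : Space D z)
    (h2 : ∀ {c : Fin 6 → G}, Six D z c → ∀ {y : G}, InQ D z y → (∀ i, ¬ Same D z (c i) y) →
      ∃ i j, i ≠ j ∧ ∀ k, Commute (c k) y ↔ k = i ∨ k = j)
    {t : ℕ} (ht : t < 40) : ∃ y, Over D z x nb y t := by
  classical
  obtain ⟨i, hi, hb⟩ := List.any_eq_true.1 (allN_iff ov_nonempty t ht)
  replace hi := List.mem_range.1 hi
  have hc := B.nbr i hi
  obtain ⟨h, hh⟩ := S.loc _ hc.1
  have hx : Nbr D z (nb i) x := ⟨B.mem, hc.2.1.symm, fun e => hc.2.2 e.symm⟩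
  have hex : ∀ j, ∃ w u, j < 45 → g45 (h x) j = false →
      Nbr D z (nb i) w ∧ h w = j ∧ Over D z x nb w u := fun j => by
    by_cases hj : j < 45 ∧ g45 (h x) j = false
    · obtain ⟨w, hw, rfl⟩ := hh.surj j hj.1
      obtain ⟨u, hu⟩ := B.exists_over S h2 (y := w)
        ⟨hw.1, fun hc => by rw [(hh.adj _ _ hx hw).1 hc] at hj; exact Bool.noConfusion hj.2⟩
      exact ⟨w, u, fun _ _ => ⟨hw, rfl, hu⟩⟩
    · exact ⟨1, 0, fun a b => absurd ⟨a, b⟩ hj⟩
  choose w u hwu using hex
  set s := (Finset.range 45).filter fun j => g45 (h x) j = false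
  set T := (Finset.range 40).filter fun t => bitB (ov t) i = true
  have hs : s.card = 32 := by
    have e := Nat.eq_of_beq_eq_true (allN_iff far_count _ (hh.lt x hx))
    rw [← e]
    have : s = ((List.range 45).filter fun j => !(g45 (h x) j)).toFinset := by
      ext j; simp [s]
    rw [this, List.toFinset_card_of_nodup (List.nodup_range.filter _)]
  have hT : T.card = 16 := by
    have e := Nat.eq_of_beq_eq_true (allN_iff ov_count i hi)
    rw [← e]
    have : T = ((List.range 40).filter fun t => bitB (ov t) i).toFinset := by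
      ext j; simp [T]
    rw [this, List.toFinset_card_of_nodup (List.nodup_range.filter _)]
  have hsub : s.image u ⊆ T := by
    intro v hv
    obtain ⟨j, hj, rfl⟩ := Finset.mem_image.1 hv
    simp only [s, Finset.mem_filter, Finset.mem_range] at hj
    obtain ⟨hw, -, hu⟩ := hwu j hj.1 hj.2
    exact Finset.mem_filter.2 ⟨Finset.mem_range.2 hu.2.1, (hu.2.2 i hi).1 hw.2.1.symm⟩
  have hle := Finset.card_le_mul_card_image (f := u) s 2 fun v hv => by
    obtain ⟨j, hj, rfl⟩ := Finset.mem_image.1 hv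
    simp only [s, Finset.mem_filter, Finset.mem_range] at hj
    obtain ⟨hw, hj', hu⟩ := hwu j hj.1 hj.2
    refine (Finset.card_le_card (t := {j, third (h x) j}) fun k hk => ?_).trans
      (Finset.card_le_two)
    simp only [s, Finset.mem_filter, Finset.mem_range] at hk
    obtain ⟨hwk, hk', huk⟩ := hwu k hk.1.1 hk.1.2
    rw [hk.2] at huk
    have := (B.twin_value S hi hh hu huk ((hu.2.2 i hi).1 hw.2.1.symm)).2.2.2.2
    rw [hj', hk'] at this
    simpa using this
  have heq : s.image u = T := Finset.eq_of_subset_of_card_le hsub (by omega)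
  have hmem : t ∈ s.image u := heq ▸ Finset.mem_filter.2 ⟨Finset.mem_range.2 ht, hb⟩
  obtain ⟨j, hj, rfl⟩ := Finset.mem_image.1 hmem
  simp only [s, Finset.mem_filter, Finset.mem_range] at hj
  exact ⟨w j, (hwu j hj.1 hj.2).2.2⟩

end Cfsg.Agent.TTLink.Quad
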