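import Cfsg.Agent.TTLink.M24Quad
import Cfsg.Agent.TTLink.QuadTables

/-!
The factorisations of a product of four commuting transpositions as the points of a Fischer space.
-/

set_option autoImplicit false

namespace Cfsg.Agent.TTLink.Quad

open Cfsg.Agent.ThreeTransp45 Cfsg.Agent.SporB

variable {G : Type*} [Group G] [Finite G]

/-- The transpositions centralising `z`. -/
def InQ (D : Set G) (z x : G) : Prop := x ∈ D ∧ Commute z x

/-- Two transpositions in one factorisation. -/
def Same (D : Set G) (z x y : G) : Prop := ∃ m, IsQuad D z m ∧ x ∈ m ∧ y ∈ m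

/-- The factorisations next to the one of `x`. -/
def Nbr (D : Set G) (z x y : G) : Prop := InQ D z y ∧ Commute x y ∧ ¬ Same D z x y

/-- A chart of the neighbours of `x` by the 45 points of the quadrangle. -/
structure Local (D : Set G) (z x : G) (f : G → ℕ) : Prop where
  lt : ∀ y, Nbr D z x y → f y < 45
  same : ∀ y y', Nbr D z x y → Nbr D z x y' → (Same D z y y' ↔ f y = f y')
  adj : ∀ y y', Nbr D z x y → Nbr D z x y' → (Commute y y' ↔ g45 (f y) (f y') = true)
  surj : ∀ i < 45, ∃ y, Nbr D z x y ∧ f y = i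

/-- The hypotheses on the space of factorisations. -/
structure Space (D : Set G) (z : G) : Prop where
  data : Data D
  cover : ∀ x, InQ D z x → ∃ m, IsQuad D z m ∧ x ∈ m
  uniq : ∀ {l m : List G}, IsQuad D z l → IsQuad D z m → ∀ {x : G}, x ∈ l → x ∈ m → ∀ y, y ∈ l ↔ y ∈ m
  loc : ∀ x, InQ D z x → ∃ f, Local D z x f

variable {D : Set G} {z : G}

theorem Same.symm {x y : G} (h : Same D z x y) : Same D z y x := by
  obtain ⟨m, hm, hx, hy⟩ := h
  exact ⟨m, hm, hy, hx⟩

theorem Same.commute {x y : G} (h : Same D z x y) : Commute x y := by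
  obtain ⟨m, hm, hx, hy⟩ := h
  exact hm.1.comm x hx y hy

theorem Same.left {x y : G} (h : Same D z x y) : InQ D z x := by
  obtain ⟨m, hm, hx, -⟩ := h
  exact ⟨hm.1.mem x hx, hm.2.2 ▸ (fac_commute_prod hm.1 hx).symm⟩

theorem Same.right {x y : G} (h : Same D z x y) : InQ D z y := h.symm.left

variable (S : Space D z)
include S

theorem Space.refl {x : G} (hx : InQ D z x) : Same D z x x := by
  obtain ⟨m, hm, hxm⟩ := S.cover x hx
  exact ⟨m, hm, hxm, hxm⟩

theorem Space.trans {x y w : G} (h : Same D z x y) (h' : Same D z y w) : Same D z x w := by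
  obtain ⟨m, hm, hx, hy⟩ := h
  obtain ⟨m', hm', hy', hw⟩ := h'
  exact ⟨m, hm, hx, (S.uniq hm hm' hy hy' w).2 hw⟩

theorem Space.comm_congr {x x' y : G} (h : Same D z x x') (hy : InQ D z y) (hc : Commute x y) :
    Commute x' y := by
  obtain ⟨m, hm, hx, hx'⟩ := h
  exact M24Prim.quad_commute S.data hm hx hy.1 hy.2 hc x' hx'

theorem Space.comm_congr' {x x' y : G} (h : Same D z x x') (hy : InQ D z y) :
    Commute x y ↔ Commute x' y :=
  ⟨S.comm_congr h hy, S.comm_congr h.symm hy⟩

theorem Space.inQ_cj {g x : G} (hg : Commute g z) (hx : InQ D z x) : InQ D z (cj g x) := by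
  refine ⟨S.data.inv' g x hx.1, ?_⟩
  have h := (cj_commute_iff g z x).2 hx.2
  rwa [(cj_eq_self_iff g z).2 hg] at h

theorem Space.same_cj {g x y : G} (hg : Commute g z) (h : Same D z x y) :
    Same D z (cj g x) (cj g y) := by
  obtain ⟨m, hm, hx, hy⟩ := h
  refine ⟨m.map (cj g), ⟨fac_map S.data g hm.1, by rw [List.length_map]; exact hm.2.1, ?_⟩,
    List.mem_map_of_mem hx, List.mem_map_of_mem hy⟩
  rw [← cj_list_prod, hm.2.2, (cj_eq_self_iff g z).2 hg]

theorem Space.inQ_refl {x y : G} (hx : InQ D z x) (hy : InQ D z y) : InQ D z (cj x y) :=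
  S.inQ_cj hx.2.symm hy

theorem Space.same_refl {x y w : G} (hx : InQ D z x) (h : Same D z y w) :
    Same D z (cj x y) (cj x w) :=
  S.same_cj hx.2.symm h

theorem Space.same_refl_iff {x y w : G} (hx : InQ D z x) :
    Same D z (cj x y) (cj x w) ↔ Same D z y w := by
  refine ⟨fun h => ?_, S.same_refl hx⟩
  have := S.same_refl hx h
  rwa [S.data.cj_cj hx.1, S.data.cj_cj hx.1] at this

theorem Space.comm_refl_iff {x y w : G} (hx : InQ D z x) :
    Commute (cj x y) w ↔ Commute y (cj x w) := by
  conv_lhs => rw [← S.data.cj_cj hx.1 w]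
  exact cj_commute_iff x _ _

/-- Reflections in members of one factorisation agree. -/
theorem Space.refl_congr {x x' y : G} (h : Same D z x x') (hy : InQ D z y) :
    Same D z (cj x y) (cj x' y) := by
  by_cases hc : Commute x y
  · rw [(cj_eq_self_iff x y).2 hc, (cj_eq_self_iff x' y).2 (S.comm_congr h hy hc)]
    exact S.refl hy
  · rw [S.data.cj_comm h.left.1 hy.1 hc,
      S.data.cj_comm h.right.1 hy.1 fun h' => hc (S.comm_congr h.symm hy h')]
    exact S.same_refl hy h

/-- Two commuting legs at a centre. -/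
theorem Space.legs {p q y : G} (hp : InQ D z p) (hq : InQ D z q) (hy : InQ D z y) (hpq : Commute p q)
    (hpy : ¬ Commute p y) (hqy : ¬ Commute q y) : Commute y (cj p (cj q y)) := by
  rw [← S.comm_refl_iff hp, S.data.cj_comm hp.1 hy.1 hpy, S.data.cj_comm hq.1 hy.1 hqy, cj_commute_iff]
  exact hpq

/-- The reflection in a neighbour moves a neighbour of `x` to a neighbour. -/
theorem Space.nbr_refl {x a b : G} (hx : InQ D z x) (ha : Nbr D z x a) (hb : Nbr D z x b) :
    Nbr D z x (cj a b) := by
  have hax : cj a x = x := (cj_eq_self_iff a x).2 ha.2.1.symm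
  refine ⟨S.inQ_refl ha.1 hb.1, ?_, fun h => hb.2.2 ?_⟩
  · have := (cj_commute_iff a x b).2 hb.2.1
    rwa [hax] at this
  · have := S.same_refl ha.1 h
    rwa [hax, S.data.cj_cj ha.1.1] at this

end Cfsg.Agent.TTLink.Quad
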