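import Cfsg.Agent.TTLink.QuadPerp
import Cfsg.Agent.TTLink.QuadSpace
import Cfsg.Agent.TTLink.TripleBuild

/-!
An element fixing every transposition that centralises a product of four is a power of that product;
a product of two commuting transpositions determines the pair.
-/

set_option autoImplicit false

namespace Cfsg.Agent.TTLink

open Cfsg.Agent.ThreeTransp45 Cfsg.Agent.SporB UnitarySix Cfsg.Agent.TTClass.UnitF4

variable {G : Type*} [Group G] [Finite G] {D : Set G}

namespace M24Prim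

variable (P : M24Prim D)
include P

theorem quad_pair {a b a' b' : G} (h : Fac D [a, b]) (h' : Fac D [a', b']) (e : a * b = a' * b') :
    (a = a' ∧ b = b') ∨ (a = b' ∧ b = a') := by
  have key := factors_unique P.data 2 (by norm_num) (fun k k1 k2 => P.indeps (2 * k) (by omega) (by omega))
    [a, b] [a', b'] h h' rfl rfl (by simpa using e)
  have h1 := (key a).1 (by simp)
  simp only [List.mem_cons, List.not_mem_nil, or_false] at h1
  rcases h1 with h1 | h1
  · exact Or.inl ⟨h1, by rw [h1] at e; exact mul_left_cancel e⟩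
  · refine Or.inr ⟨h1, ?_⟩
    have hc : Commute a' b' := h'.comm a' (by simp) b' (by simp)
    rw [h1, hc.eq] at e
    exact mul_left_cancel e

/-- An element fixing every transposition centralising `z` is `1` or `z`. -/
theorem quad_fixed_all {z a b c e : G} (hl : IsQuad D z [a, b, c, e])
    (hfar : ∃ y, Quad.InQ D z y ∧ ¬ Commute a y) {g : G}
    (hg : ∀ y, Quad.InQ D z y → cj g y = y) : g = 1 ∨ g = z := by
  classical
  have hD := P.data
  obtain ⟨hFac, -, hz⟩ := hl
  have hn := hFac.nodup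
  simp only [List.nodup_cons, List.mem_cons, List.not_mem_nil, or_false, not_or, not_false_eq_true,
    List.nodup_nil, and_true] at hn
  obtain ⟨⟨hab, hac, hae⟩, ⟨hbc, hbe⟩, hce⟩ := hn
  have mD : ∀ w ∈ [a, b, c, e], w ∈ D := hFac.mem
  have cm := hFac.comm
  have ha := mD a (by simp); have hb := mD b (by simp); have hc := mD c (by simp); have he := mD e (by simp)
  have cab := cm a (by simp) b (by simp); have cac := cm a (by simp) c (by simp)
  have cae := cm a (by simp) e (by simp); have cbc := cm b (by simp) c (by simp)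
  have cbe := cm b (by simp) e (by simp); have cce := cm c (by simp) e (by simp)
  simp only [List.prod_cons, List.prod_nil, mul_one] at hz
  have inq : ∀ {y : G}, y ∈ D → Commute a y → Commute b y → Commute c y → Commute e y → Quad.InQ D z y :=
    fun hy h1 h2 h3 h4 => ⟨hy, hz ▸ h1.mul_left (h2.mul_left (h3.mul_left h4))⟩
  set M := Subgroup.centralizer ({a, b, c} : Set G) with hM
  obtain ⟨F, i1, i2, hF, T, Ta, Tb, Td, TD, Tall⟩ :=
    P.exists_cover (a := a) (b := b) hc ⟨ha, hac, cac.symm⟩ ⟨⟨hb, hbc, cbc.symm⟩, hb, Ne.symm hab, cab⟩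
  have memM : ∀ {u : G}, Commute u a → Commute u b → Commute u c → u ∈ M := fun {u} h1 h2 h3 => by
    rw [hM, Subgroup.mem_centralizer_iff]
    rintro v (rfl | rfl | rfl)
    exacts [h1.eq.symm, h2.eq.symm, h3.eq.symm]
  have comM : ∀ m : ↥M, Commute a (m : G) ∧ Commute b (m : G) ∧ Commute c (m : G) := fun m => by
    have h := Subgroup.mem_centralizer_iff.1 m.2
    exact ⟨h a (by simp), h b (by simp), h c (by simp)⟩
  have fixm : ∀ u ∈ [a, b, c, e], cj g u = u := fun u hu =>
    hg u (inq (mD u hu) (cm a (by simp) u hu) (cm b (by simp) u hu) (cm c (by simp) u hu) (cm e (by simp) u hu))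
  have gM : g ∈ M := memM ((cj_eq_self_iff g a).1 (fixm a (by simp))) ((cj_eq_self_iff g b).1 (fixm b (by simp)))
    ((cj_eq_self_iff g c).1 (fixm c (by simp)))
  set γ : ↥M := ⟨g, gM⟩
  set ε : ↥M := ⟨e, memM cae.symm cbe.symm cce.symm⟩ with hε
  have notabc : ∀ v, H v v = 0 → v ≠ 0 → T.x v ≠ T.a ∧ T.x v ≠ T.b ∧ T.x v ≠ T.d := fun v hv hv0 => by
    refine ⟨fun h => ?_, fun h => ?_, fun h => ?_⟩ <;>
      refine tt_ne_one hF hv hv0 ?_ <;> rw [← T.π_x v hv hv0, h]
    exacts [T.π_a, T.π_b, T.π_d]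
  obtain ⟨p, hp, hp0, hxp⟩ : ∃ v, H v v = 0 ∧ v ≠ 0 ∧ ε = T.x v := by
    rcases Tall ε he with h | h | h | h
    · exact absurd ((congrArg Subtype.val h).trans Ta) (Ne.symm hae)
    · exact absurd ((congrArg Subtype.val h).trans Tb) (Ne.symm hbe)
    · exact absurd ((congrArg Subtype.val h).trans Td) (Ne.symm hce)
    · exact h
  have orth : ∀ {u v}, H u u = 0 → u ≠ 0 → H v v = 0 → v ≠ 0 → Commute (T.x u) (T.x v) → H u v = 0 :=
    fun hu hu0 hv hv0 hh => orth_of_tt hF hu hu0 hv hv0 (by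
      rw [← T.π_x _ hu hu0, ← T.π_x _ hv hv0]; exact hh.map T.π)
  have hz0 : ∀ v : Fin 6 → F, H v 0 = 0 := fun v => by rw [h_symm hF 0 v, h_zero_left]; simp
  have near : ∀ q, H q q = 0 → q ≠ 0 → H q p = 0 → Commute γ (T.x q) := fun q hq hq0 hqp => by
    refine Subtype.ext ((cj_eq_self_iff g _).1 (hg _ (inq (TD q hq hq0) (comM _).1 (comM _).2.1 (comM _).2.2 ?_)))
    have h := T.x_comm p q hp hp0 hq hq0 (by rw [h_symm hF q p, hqp]; simp)
    rw [← hxp] at h
    exact congrArg Subtype.val h.eq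
  have image : ∀ {δ : ↥M}, (∀ q, H q q = 0 → q ≠ 0 → H q p = 0 → Commute δ (T.x q)) →
      ∀ r, H r r = 0 → H p r ≠ 0 →
        cj δ (T.x r) = T.x r ∨ cj δ (T.x r) = T.x (r + H r p • p) := by
    intro δ hδ r hr hpr
    have hr0 : r ≠ 0 := fun e0 => hpr (by rw [e0]; exact hz0 p)
    have hδe : cj δ (T.x p) = T.x p := (cj_eq_self_iff _ _).2 (hδ p hp hp0 hp)
    obtain ⟨s, hs, hs0, hxs⟩ : ∃ s, H s s = 0 ∧ s ≠ 0 ∧ cj δ (T.x r) = T.x s := by
      have hmem : ((cj δ (T.x r) : ↥M) : G) ∈ D := hD.inv' (δ : G) _ (TD r hr hr0)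
      have hfix : ∀ w : ↥M, (∀ m, Commute w m) → cj δ (T.x r) = w → T.x r = w := fun w hw h =>
        cj_injective δ (h.trans ((cj_eq_self_iff δ w).2 (hw δ).symm).symm)
      rcases Tall _ hmem with h | h | h | h
      · exact absurd (hfix _ (fun m => (T.central m).1) h) (notabc r hr hr0).1
      · exact absurd (hfix _ (fun m => (T.central m).2.1) h) (notabc r hr hr0).2.1
      · exact absurd (hfix _ (fun m => (T.central m).2.2) h) (notabc r hr hr0).2.2
      · exact h
    have hps : H p s ≠ 0 := fun h0 => hpr (orth hp hp0 hr hr0 (by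
      have h := T.x_comm p s hp hp0 hs hs0 h0
      rw [← hxs, ← hδe, cj_commute_iff] at h
      exact h))
    obtain ⟨k, hk, e' | e'⟩ := far_two hF hp hr hs hs0 hpr hps fun q hq hq0 hqp hqr => orth hq hq0 hs hs0 (by
      have h := T.x_comm q r hq hq0 hr hr0 hqr
      rw [← cj_commute_iff δ, (cj_eq_self_iff _ _).2 (hδ q hq hq0 hqp), hxs] at h
      exact h)
    · left; rw [hxs, e', T.x_smul r k hr hr0 hk]
    · right
      have hr' : H (r + H r p • p) (r + H r p • p) = 0 := by
        rw [e', h_smul_left, h_smul_right] at hs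
        exact ((mul_eq_zero.1 hs).resolve_left hk |> mul_eq_zero.1).resolve_left (pow_ne_zero 2 hk)
      rw [hxs, e', T.x_smul _ k hr' (fun e0 => hs0 (by rw [e', e0, smul_zero])) hk]
  obtain ⟨r₀, hr₀, hpr₀⟩ := exists_iso_far hF hp hp0
  have hr₀0 : r₀ ≠ 0 := fun e0 => hpr₀ (by rw [e0]; exact hz0 p)
  obtain ⟨δ, hδ, hδ₀, hγδ⟩ : ∃ δ : ↥M, (∀ q, H q q = 0 → q ≠ 0 → H q p = 0 → Commute δ (T.x q)) ∧
      Commute δ (T.x r₀) ∧ (γ = δ ∨ γ = T.x p * δ) := by
    rcases image near r₀ hr₀ hpr₀ with h | h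
    · exact ⟨γ, near, (cj_eq_self_iff _ _).1 h, Or.inl rfl⟩
    refine ⟨T.x p * γ, fun q hq hq0 hqp => ?_, (cj_eq_self_iff _ _).1 ?_, Or.inr ?_⟩
    · exact (T.x_comm p q hp hp0 hq hq0 (by rw [h_symm hF q p, hqp]; simp)).mul_left (near q hq hq0 hqp)
    · have hinv : (T.x p)⁻¹ = T.x p := inv_eq_of_mul_eq_one_right (T.x_sq p hp hp0)
      rw [cj_mul, h, ← T.x_conj p r₀ hp hp0 hr₀ hr₀0]
      simp only [cj, hinv]
      rw [show T.x p * (T.x p * T.x r₀ * T.x p) * T.x p = (T.x p * T.x p) * T.x r₀ * (T.x p * T.x p) by group,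
        T.x_sq p hp hp0, one_mul, mul_one]
    · rw [← mul_assoc, T.x_sq p hp hp0, one_mul]
  have all : ∀ r, H r r = 0 → r ≠ 0 → Commute δ (T.x r) := by
    intro r hr hr0
    by_cases hpr : H p r = 0
    · exact hδ r hr hr0 (by rw [h_symm hF p r, hpr]; simp)
    have hrp : H r p ≠ 0 := by rw [h_symm hF p r]; exact pow_ne_zero 2 hpr
    have other : ∀ q, H q q = 0 → q ≠ 0 → Commute δ (T.x q) → H q r = 0 → H q p ≠ 0 →
        Commute δ (T.x r) := by
      intro q hq hq0 hqδ hqr hqp
      refine (cj_eq_self_iff _ _).1 ((image hδ r hr hpr).resolve_right fun h => hqp ?_)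
      have hc := T.x_comm q r hq hq0 hr hr0 hqr
      rw [← cj_commute_iff δ, (cj_eq_self_iff _ _).2 hqδ, h] at hc
      have hr' : H (r + H r p • p) (r + H r p • p) = 0 := by
        simp only [h_add_left, h_add_right hF, h_smul_left, h_smul_right, hr, hp, mul_zero, zero_add,
          add_zero, h_symm hF r p]
        linear_combination (H r p ^ 3) * two_eq_zero hF
      have hr'0 : r + H r p • p ≠ 0 := fun e0 => hpr (by
        have := congrArg (H p) e0
        rw [h_add_right hF, h_smul_right, hp, hz0] at this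
        simpa using this)
      have h0 := orth hq hq0 hr' hr'0 hc
      rw [h_add_right hF, hqr, zero_add, h_smul_right] at h0
      exact (mul_eq_zero.1 h0).resolve_left (pow_ne_zero 2 hrp)
    by_cases h0r : H r₀ r = 0
    · exact other r₀ hr₀ hr₀0 hδ₀ h0r (by rw [h_symm hF p r₀]; exact pow_ne_zero 2 hpr₀)
    by_cases hq : ∃ q, H q q = 0 ∧ q ≠ 0 ∧ H q r₀ = 0 ∧ H q r = 0 ∧ H q p ≠ 0
    · obtain ⟨q, hq, hq0, q0, qr, qp⟩ := hq
      refine other q hq hq0 ?_ qr qp
      refine (cj_eq_self_iff _ _).1 ((image hδ q hq (fun h0 => qp (by rw [h_symm hF p q, h0]; simp))).resolve_right fun h => ?_)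
      have hc := T.x_comm q r₀ hq hq0 hr₀ hr₀0 q0
      rw [← cj_commute_iff δ, (cj_eq_self_iff _ _).2 hδ₀, h] at hc
      have hq' : H (q + H q p • p) (q + H q p • p) = 0 := by
        simp only [h_add_left, h_add_right hF, h_smul_left, h_smul_right, hq, hp, mul_zero, zero_add,
          add_zero, h_symm hF q p]
        linear_combination (H q p ^ 3) * two_eq_zero hF
      have hq'0 : q + H q p • p ≠ 0 := fun e0 => qp (by
        have := congrArg (fun v => H v p) e0
        simp only [h_add_left, h_smul_left, hp, h_zero_left] at this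
        simpa using this)
      have h0 := orth hq' hq'0 hr₀ hr₀0 hc
      rw [h_add_left, q0, zero_add, h_smul_left] at h0
      exact hpr₀ ((mul_eq_zero.1 h0).resolve_left qp)
    push Not at hq
    have hr00 : H r₀ p ≠ 0 := by rw [h_symm hF p r₀]; exact pow_ne_zero 2 hpr₀
    obtain ⟨k, hk, e' | e'⟩ := far_two hF hr₀ hr hp hp0 h0r hr00 fun q a1 a2 a3 a4 => hq q a1 a2 a3 a4
    · exact absurd (by rw [e', h_smul_left, hr, mul_zero]) hpr
    · have hrr : H (r + H r r₀ • r₀) (r + H r r₀ • r₀) = 0 := by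
        rw [e', h_smul_left, h_smul_right] at hp
        exact ((mul_eq_zero.1 hp).resolve_left hk |> mul_eq_zero.1).resolve_left (pow_ne_zero 2 hk)
      have hrr0 : r + H r r₀ • r₀ ≠ 0 := fun e0 => hp0 (by rw [e', e0, smul_zero])
      have hxe : T.x p = T.x r₀ * T.x r * T.x r₀ := by
        rw [T.x_conj r₀ r hr₀ hr₀0 hr hr0, e', T.x_smul _ k hrr hrr0 hk]
      have : T.x r = T.x r₀ * T.x p * T.x r₀ := by
        rw [hxe, show T.x r₀ * (T.x r₀ * T.x r * T.x r₀) * T.x r₀ =
          (T.x r₀ * T.x r₀) * T.x r * (T.x r₀ * T.x r₀) by group, T.x_sq r₀ hr₀ hr₀0, one_mul, mul_one]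
      rw [this]
      exact (hδ₀.mul_right (hδ p hp hp0 hp)).mul_right hδ₀
  have h1 : T.π δ = 1 := by
    have hle : Subgroup.closure (allTT hF) ≤ Subgroup.centralizer ({T.π δ} : Set _) := by
      rw [Subgroup.closure_le]
      rintro y ⟨v, hv, hv0, rfl⟩
      rw [SetLike.mem_coe, Subgroup.mem_centralizer_singleton_iff, ← T.π_x v hv hv0]
      exact ((all v hv hv0).map T.π).eq.symm
    have hc : T.π δ ∈ Subgroup.center (Cfsg.PSU 6 F 2) := by
      rw [Subgroup.mem_center_iff]
      intro y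
      exact Subgroup.mem_centralizer_singleton_iff.1 (hle (by rw [(allTT_class hF).2.2]; trivial))
    rw [psu_center hF] at hc
    exact Subgroup.mem_bot.1 hc
  obtain ⟨y, hy, hay⟩ := hfar
  have nb : ∀ {w : G}, Commute w y → w ∈ [a, b, c, e] → False := fun hw hmem => hay
    (M24Prim.quad_commute hD ⟨hFac, rfl, by simp [hz]⟩ hmem hy.1 hy.2 hw a (by simp))
  have mv1 : ∀ w ∈ [a, b, c, e], g ≠ w := fun w hw e' =>
    nb ((cj_eq_self_iff w y).1 (e' ▸ hg y hy)) hw
  have mv3 : ∀ w ∈ [a, b, c, e], g ≠ z * w := fun w hw e' => nb ((cj_eq_self_iff w y).1 (by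
    have h := hg y hy
    rw [e', cj_mul] at h
    refine cj_injective z (h.trans ((cj_eq_self_iff z y).2 hy.2).symm))) hw
  have mv2 : ∀ u ∈ [a, b, c, e], ∀ v ∈ [a, b, c, e], u ≠ v → g ≠ u * v := fun u hu v hv hne e' => by
    have h := hg y hy
    rw [e', cj_mul] at h
    have h' := congrArg (cj u) h
    rw [hD.cj_cj (mD u hu), hD.cj_comm (mD v hv) hy.1 (fun hc => nb hc hv),
      hD.cj_comm (mD u hu) hy.1 (fun hc => nb hc hu)] at h'
    exact hne (cj_injective y h'.symm)
  have key : (δ : G) = 1 ∨ (δ : G) = a ∨ (δ : G) = b ∨ (δ : G) = c ∨ (δ : G) = a * b ∨ (δ : G) = a * c ∨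
      (δ : G) = b * c ∨ (δ : G) = a * b * c := by
    rcases T.ker δ h1 with h | h | h | h | h | h | h | h <;> rw [h] <;>
      simp only [Subgroup.coe_one, Subgroup.coe_mul, Ta, Tb, Td] <;> tauto
  have e_e : e * e = 1 := hD.mul_self he
  have z3 : a * b * c = z * e := by rw [← hz]; simp [mul_assoc, e_e]
  rcases hγδ with hγ | hγ
  · have hg' : g = (δ : G) := congrArg Subtype.val hγ
    rcases key with h | h | h | h | h | h | h | h <;> rw [h] at hg'
    · exact Or.inl hg'
    · exact absurd hg' (mv1 a (by simp))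
    · exact absurd hg' (mv1 b (by simp))
    · exact absurd hg' (mv1 c (by simp))
    · exact absurd hg' (mv2 a (by simp) b (by simp) hab)
    · exact absurd hg' (mv2 a (by simp) c (by simp) hac)
    · exact absurd hg' (mv2 b (by simp) c (by simp) hbc)
    · exact absurd (hg'.trans z3) (mv3 e (by simp))
  · have hg' : g = e * (δ : G) := (congrArg Subtype.val hγ).trans (by rw [Subgroup.coe_mul, ← hxp])
    rcases key with h | h | h | h | h | h | h | h <;> rw [h] at hg'
    · exact absurd (hg'.trans (mul_one e)) (mv1 e (by simp))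
    · exact absurd (hg'.trans cae.symm.eq) (mv2 a (by simp) e (by simp) hae)
    · exact absurd (hg'.trans cbe.symm.eq) (mv2 b (by simp) e (by simp) hbe)
    · exact absurd (hg'.trans cce.symm.eq) (mv2 c (by simp) e (by simp) hce)
    · refine absurd (hg'.trans ?_) (mv3 c (by simp))
      rw [← hz, show a * (b * (c * e)) * c = a * b * (c * (e * c)) by group, cce.symm.eq,
        show c * (c * e) = (c * c) * e by group, hD.mul_self hc, one_mul]
      exact (cae.symm.mul_right cbe.symm).eq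
    · refine absurd (hg'.trans ?_) (mv3 b (by simp))
      rw [← hz, show a * (b * (c * e)) * b = a * (b * ((c * e) * b)) by group,
        (cbc.symm.mul_left cbe.symm).eq, show b * (b * (c * e)) = (b * b) * (c * e) by group,
        hD.mul_self hb, one_mul, ← mul_assoc a c e]
      exact (cae.symm.mul_right cce.symm).eq
    · refine absurd (hg'.trans ?_) (mv3 a (by simp))
      rw [← hz, show a * (b * (c * e)) * a = a * ((b * (c * e)) * a) by group,
        (cab.symm.mul_left (cac.symm.mul_left cae.symm)).eq, ← mul_assoc a a, hD.mul_self ha, one_mul,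
        ← mul_assoc b c e]
      exact (cbe.symm.mul_right cce.symm).eq
    · exact Or.inr (hg'.trans (by
        rw [← hz, ((cae.symm.mul_right cbe.symm).mul_right cce.symm).eq]; group))

end M24Prim

end Cfsg.Agent.TTLink
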