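import Cfsg.Agent.TTLink.QuadFar

/-!
Two far factorisations commute only if their ovoids share an adjacent pair, and then exactly one of
a twin pair commutes with the other; the rule for three of them.
-/

set_option autoImplicit false
set_option maxRecDepth 100000

namespace Cfsg.Agent.TTLink.Quad

open Cfsg.Agent.TTLink.QuadData Cfsg.Agent.ThreeTransp45 Cfsg.Agent.SporB Cfsg.Agent.SchurBound

theorem bitB_land (a b i : ℕ) : bitB (Nat.land a b) i = (bitB a i && bitB b i) := by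
  rw [bitB_eq, bitB_eq, bitB_eq, show Nat.land a b = a &&& b from rfl, Nat.testBit_and]

variable {G : Type*} [Group G] [Finite G] {D : Set G} {z : G}

/-- The two facts on six mutually commuting factorisations. -/
structure SixFacts (D : Set G) (z : G) : Prop where
  two : ∀ {c : Fin 6 → G}, Six D z c → ∀ {y : G}, InQ D z y → (∀ i, ¬ Same D z (c i) y) →
    ∃ i j, i ≠ j ∧ ∀ k, Commute (c k) y ↔ k = i ∨ k = j
  ex : ∀ {x a b : G}, InQ D z x → Nbr D z x a → Nbr D z x b → ¬ Same D z a b → Commute a b →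
    ∃ c, Six D z c ∧ c 0 = x ∧ c 1 = a ∧ c 2 = b ∧
      ∀ w, Nbr D z x w → Commute a w → Commute b w → ∃ i, Same D z (c i) w

variable {x : G} {f : G → ℕ} {nb : ℕ → G}

theorem Over.not_same {y y' : G} {t u : ℕ} (S : Space D z) (B : Base D z x f nb)
    (hy : Over D z x nb y t) (hy' : Over D z x nb y' u) (htu : t ≠ u) : ¬ Same D z y y' :=
  fun e => htu ((hy.congr S B e).uniq hy')

/-- A far pair with a common neighbour of the base point, in the chart at that neighbour. -/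
theorem Over.nbr {y : G} {t i : ℕ} (S : Space D z) (B : Base D z x f nb) (hy : Over D z x nb y t)
    (hi : i < 45) (hb : bitB (ov t) i = true) : Nbr D z (nb i) y :=
  ⟨hy.1.1, ((hy.2.2 i hi).2 hb).symm, hy.1.not_nbr_same S B.mem (B.nbr i hi).2.1⟩

/-- Commuting far factorisations share an adjacent pair. -/
theorem Base.common_of_comm (B : Base D z x f nb) (S : Space D z) (F : SixFacts D z) {c : Fin 6 → G}
    (hc : Six D z c) {y : G} (h0 : c 0 = y) (hy : Far D z x y) :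
    ∃ i j, i < 45 ∧ j < 45 ∧ i ≠ j ∧ g45 i j = true ∧
      ∀ k, ¬ Commute (c k) x → Commute (c k) (nb i) ∧ Commute (c k) (nb j) := by
  have hno : ∀ k, ¬ Same D z (c k) x := fun k e => hy.2
    ((S.comm_congr e (h0 ▸ hc.mem 0) (h0 ▸ hc.comm k 0)))
  obtain ⟨p, q, hpq, h⟩ := F.two hc B.mem hno
  have hn : ∀ k, Commute (c k) x → Nbr D z x (c k) := fun k e =>
    ⟨hc.mem k, e.symm, fun e' => hno k e'.symm⟩
  have np := hn p ((h p).2 (Or.inl rfl))
  have nq := hn q ((h q).2 (Or.inr rfl))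
  refine ⟨f (c p), f (c q), B.chart.lt _ np, B.chart.lt _ nq,
    fun e => hc.inj p q hpq ((B.chart.same _ _ np nq).2 e),
    (B.chart.adj _ _ np nq).1 (hc.comm p q), fun k _ => ⟨?_, ?_⟩⟩
  · exact (B.comm_nb S np (hc.mem k)).1 (hc.comm k p)
  · exact (B.comm_nb S nq (hc.mem k)).1 (hc.comm k q)

theorem Base.pair_of_comm (B : Base D z x f nb) (S : Space D z) (F : SixFacts D z) {y y' : G} {t u : ℕ}
    (hy : Over D z x nb y t) (hy' : Over D z x nb y' u) (htu : t ≠ u) (hc : Commute y y') :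
    hasPair (Nat.land (ov t) (ov u)) = true := by
  have hns := hy.not_same S B hy' htu
  obtain ⟨h, hh⟩ := S.loc y hy.1.1
  have hn : Nbr D z y y' := ⟨hy'.1.1, hc, hns⟩
  obtain ⟨l, hl, hm⟩ := List.any_eq_true.1 (allN_iff line_point _ (hh.lt _ hn))
  rw [List.contains_iff_mem] at hm
  obtain ⟨h5, hnd, hlt, hadj⟩ := line_spec hl
  obtain ⟨m, hm', hne⟩ : ∃ m ∈ l, m ≠ h y' := by
    by_contra hh'
    push Not at hh'
    have : l ⊆ [h y'] := fun a ha => by simp [hh' a ha]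
    have := (hnd.subperm this).length_le
    simp [h5] at this
  obtain ⟨b, hb, rfl⟩ := hh.surj m (hlt m hm')
  obtain ⟨c, h6, c0, c1, -, -⟩ := F.ex hy.1.1 hn hb
    (fun e => hne ((hh.same _ _ hn hb).1 e).symm) ((hh.adj _ _ hn hb).2 (hadj _ hm _ hm'))
  obtain ⟨i, j, hi, hj, hij, hg, hk⟩ := B.common_of_comm S F h6 c0 hy.1
  have k0 := hk 0 (by rw [c0]; exact fun e => hy.1.2 e.symm)
  have k1 := hk 1 (by rw [c1]; exact fun e => hy'.1.2 e.symm)
  rw [c0] at k0; rw [c1] at k1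
  refine hasPair_of hi hj hij ?_ ?_ hg <;> rw [bitB_land]
  · rw [(hy.2.2 i hi).1 k0.1, (hy'.2.2 i hi).1 k1.1]; rfl
  · rw [(hy.2.2 j hj).1 k0.2, (hy'.2.2 j hj).1 k1.2]; rfl

theorem Base.not_both (B : Base D z x f nb) (S : Space D z) {y y' : G} (hy : Far D z x y)
    (hy' : Far D z x y') (h : Commute y y') : ¬ Commute y (cj x y') := by
  intro h'
  rw [S.data.cj_comm B.mem.1 hy'.1.1 hy'.2] at h'
  have e : cj y' y = y := (cj_eq_self_iff y' y).2 h.symm
  rw [← e, cj_commute_iff] at h'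
  exact hy.2 h'.symm

theorem Base.comm_or (B : Base D z x f nb) (S : Space D z) {y y' : G} {t u : ℕ}
    (hy : Over D z x nb y t) (hy' : Over D z x nb y' u) (htu : t ≠ u)
    (hp : hasPair (Nat.land (ov t) (ov u)) = true) : Commute y y' ∨ Commute y (cj x y') := by
  obtain ⟨i, j, hi, hj, hij, bi, bj, hg⟩ := hasPair_elim hp
  rw [bitB_land, Bool.and_eq_true] at bi bj
  obtain ⟨h, hh⟩ := S.loc _ (B.nbr i hi).1
  have n1 := hy.nbr S B hi bi.1
  have n2 := hy'.nbr S B hi bi.2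
  have n0 := (hy.twin S B).nbr S B hi bi.1
  obtain ⟨hx, -, -, e1, e0⟩ := B.twin_value S hi hh hy (hy.twin S B) bi.1
  have hd : Nbr D z (nb i) (nb j) :=
    ⟨(B.nbr j hj).1, (B.adj hi hj).2 hg, fun e => hij ((B.same_iff hi hj).1 e)⟩
  have e0' : h (cj x y) = third (h x) (h y) := e0.resolve_left fun e =>
    (hy.1.twin S B.mem).2 ((hh.same _ _ n0 n1).2 e).commute.symm
  have hp := pair (hh.lt _ hd) (hh.lt _ hx) (hh.lt _ n1) (hh.lt _ n2)
    ((hh.adj _ _ hd hx).1 (B.nbr j hj).2.1.symm)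
    (fun e => (B.nbr j hj).2.2 ((hh.same _ _ hx hd).2 e.symm))
    ((hh.adj _ _ hd n1).1 ((hy.2.2 j hj).2 bj.1).symm) e1
    ((hh.adj _ _ hd n2).1 ((hy'.2.2 j hj).2 bj.2).symm)
    (Bool.eq_false_iff.2 fun e => hy'.1.2 ((hh.adj _ _ hx n2).2 e))
    (fun e => hy.not_same S B hy' htu ((hh.same _ _ n2 n1).2 e).symm)
    (fun e => (hy.twin S B).not_same S B hy' htu ((hh.same _ _ n2 n0).2 (e.trans e0'.symm)).symm)
  by_cases hc : Commute y y'
  · exact Or.inl hc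
  refine Or.inr ((S.comm_refl_iff B.mem).1 ((hh.adj _ _ n0 n2).2 ?_))
  rw [e0', hp, Bool.not_eq_true']
  exact Bool.eq_false_iff.2 fun e => hc ((hh.adj _ _ n1 n2).2 e)

theorem Base.twin_iff (B : Base D z x f nb) (S : Space D z) (F : SixFacts D z) {y y' : G} {t u : ℕ}
    (hy : Over D z x nb y t) (hy' : Over D z x nb y' u) (htu : t ≠ u) :
    Commute y (cj x y') ↔ hasPair (Nat.land (ov t) (ov u)) = true ∧ ¬ Commute y y' :=
  ⟨fun h => ⟨B.pair_of_comm S F hy (hy'.twin S B) htu h, fun h' => B.not_both S hy.1 hy'.1 h' h⟩,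
    fun h => (B.comm_or S hy hy' htu h.1).resolve_left h.2⟩

/-- The rule for three. -/
theorem Base.triple (B : Base D z x f nb) (S : Space D z) (F : SixFacts D z) {y₁ y₂ y₃ : G}
    {t₁ t₂ t₃ : ℕ} (h₁ : Over D z x nb y₁ t₁) (h₂ : Over D z x nb y₂ t₂) (h₃ : Over D z x nb y₃ t₃)
    (n12 : t₁ ≠ t₂) (n13 : t₁ ≠ t₃) (n23 : t₂ ≠ t₃) (c12 : Commute y₁ y₂) (c13 : Commute y₁ y₃) :
    Commute y₂ y₃ ↔ hasPair (Nat.land (ov t₁) (Nat.land (ov t₂) (ov t₃))) = true := by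
  constructor
  · intro c23
    obtain ⟨c, h6, c0, c1, c2, -⟩ := F.ex h₁.1.1 ⟨h₂.1.1, c12, h₁.not_same S B h₂ n12⟩
      ⟨h₃.1.1, c13, h₁.not_same S B h₃ n13⟩ (h₂.not_same S B h₃ n23) c23
    obtain ⟨i, j, hi, hj, hij, hg, hk⟩ := B.common_of_comm S F h6 c0 h₁.1
    have k0 := hk 0 (by rw [c0]; exact fun e => h₁.1.2 e.symm)
    have k1 := hk 1 (by rw [c1]; exact fun e => h₂.1.2 e.symm)
    have k2 := hk 2 (by rw [c2]; exact fun e => h₃.1.2 e.symm)
    rw [c0] at k0; rw [c1] at k1; rw [c2] at k2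
    refine hasPair_of hi hj hij ?_ ?_ hg <;> rw [bitB_land, bitB_land]
    · rw [(h₁.2.2 i hi).1 k0.1, (h₂.2.2 i hi).1 k1.1, (h₃.2.2 i hi).1 k2.1]; rfl
    · rw [(h₁.2.2 j hj).1 k0.2, (h₂.2.2 j hj).1 k1.2, (h₃.2.2 j hj).1 k2.2]; rfl
  · intro hp
    obtain ⟨i, j, hi, hj, hij, bi, bj, hg⟩ := hasPair_elim hp
    rw [bitB_land, bitB_land, Bool.and_eq_true, Bool.and_eq_true] at bi bj
    obtain ⟨h, hh⟩ := S.loc _ (B.nbr i hi).1
    have n1 := h₁.nbr S B hi bi.1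
    have n2 := h₂.nbr S B hi bi.2.1
    have n3 := h₃.nbr S B hi bi.2.2
    have hd : Nbr D z (nb i) (nb j) :=
      ⟨(B.nbr j hj).1, (B.adj hi hj).2 hg, fun e => hij ((B.same_iff hi hj).1 e)⟩
    have a : ∀ {w v : G}, Nbr D z (nb i) w → Nbr D z (nb i) v → Commute w v → g45 (h w) (h v) = true :=
      fun hw hv c => (hh.adj _ _ hw hv).1 c
    refine (hh.adj _ _ n2 n3).2 (clique (hh.lt _ hd) (hh.lt _ n1) (hh.lt _ n2) (hh.lt _ n3)
      (fun e => h₁.1.not_nbr_same S B.mem (B.nbr j hj).2.1 ((hh.same _ _ hd n1).2 e))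
      (a hd n1 ((h₁.2.2 j hj).2 bj.1).symm) (a hd n2 ((h₂.2.2 j hj).2 bj.2.1).symm)
      (a n1 n2 c12) (a hd n3 ((h₃.2.2 j hj).2 bj.2.2).symm) (a n1 n3 c13))

end Cfsg.Agent.TTLink.Quad
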